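import Mathlib
import Cfsg.Agent.Helper13.TIDefs2

set_option autoImplicit false

/-!
# CALL S5961 (helper13), piece CDVD
-/

namespace Cfsg.Agent.Helper31.TI5961

open Module Polynomial
open Cfsg.Agent.Helper42.SpForm Cfsg.Agent.Helper42.SpGroup Cfsg.Agent.Helper42.SpModels
open Cfsg.Agent.Helper13.TIsp Cfsg.Agent.Helper90.BG
open Cfsg.Agent.Helper11.TI5955 Cfsg.Agent.Helper58.TI5955 Cfsg.Agent.Helper59.TI5955
open Cfsg.Agent.Helper51.TI5955 Cfsg.Agent.Helper70.TI5955

section geom

variable {F : Type*} [Field F] {V : Type*} [AddCommGroup V] [Module F V] [FiniteDimensional F V]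
  (B : LinearMap.BilinForm F V)

/-- CDVD: `c` divides `dim N - dim (N ⊓ ker (T - 1))` for nondegenerate invariant `N`
(`cyc_dvd`; for odd `i` both dimensions are even by `ti_lag`: `N ⊓ ker (T-1)` is nondegenerate because
`w - (1/r) Σ T^j w ∈ range (T - 1)` is orthogonal to the fixed vectors). -/
theorem c_dvd [Fintype F] (halt : ∀ v, B v v = 0) (T : Module.End F V) (hT : Preserves B T)
    (r : ℕ) [Fact r.Prime] (hrF : (r : F) ≠ 0) (hTr : T ^ r = 1) (i c : ℕ)
    (hi : i = orderOf ((Fintype.card F : ℕ) : ZMod r)) (hc : c = if Even i then i else 2 * i)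
    (N : Submodule F V) (hNT : N.map T ≤ N) (hN : NondegOn B N) :
    c ∣ finrank F N - finrank F (N ⊓ LinearMap.ker (T - 1) : Submodule F V) := by
  classical
  have hd : ∀ g : F[X], Irreducible g → g ∣ ∑ j ∈ Finset.range r, (X : F[X]) ^ j →
      g.natDegree = i := by
    intro g hg hdvd
    rw [hi]
    exact Cfsg.Agent.Helper46.bgl_irr_factor_degree r hrF g hg hdvd
  have hidvd := cyc_dvd T r i hrF hTr hd N hNT
  by_cases hev : Even i
  · rw [hc, if_pos hev]
    exact hidvd
  rw [hc, if_neg hev]
  have hodd : Odd i := Nat.not_even_iff_odd.mp hev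
  -- powers of `T`
  have hpowN : ∀ (j : ℕ) (w : V), w ∈ N → (T ^ j) w ∈ N := by
    intro j
    induction j with
    | zero => intro w hw; simpa using hw
    | succ j ih =>
      intro w hw
      rw [pow_succ, Module.End.mul_apply]
      exact ih _ (hNT ⟨w, hw, rfl⟩)
  have hpowfix : ∀ (j : ℕ) (v : V), T v = v → (T ^ j) v = v := by
    intro j v hv
    induction j with
    | zero => simp
    | succ j ih => rw [pow_succ, Module.End.mul_apply, hv, ih]
  have hfixiff : ∀ v : V, v ∈ LinearMap.ker (T - 1) ↔ T v = v := by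
    intro v
    rw [LinearMap.mem_ker, LinearMap.sub_apply, Module.End.one_apply, sub_eq_zero]
  -- the fixed space is nondegenerate
  have hC : NondegOn B (N ⊓ LinearMap.ker (T - 1) : Submodule F V) := by
    intro v hv hvC
    obtain ⟨hvN, hvK⟩ := hv
    have hTv : T v = v := (hfixiff v).mp hvK
    apply hN v hvN
    intro w hw
    set s : V := ∑ j ∈ Finset.range r, (T ^ j) w with hs
    have hsN : s ∈ N := Submodule.sum_mem _ (fun j _ => hpowN j w hw)
    have hTs : T s = s := by
      have h1 : T s = ∑ j ∈ Finset.range r, (T ^ (j + 1)) w := by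
        rw [hs, map_sum]
        refine Finset.sum_congr rfl fun j _ => ?_
        rw [pow_succ', Module.End.mul_apply]
      have h2 : ∑ j ∈ Finset.range (r + 1), (T ^ j) w
          = ∑ j ∈ Finset.range r, (T ^ (j + 1)) w + (T ^ 0) w := Finset.sum_range_succ' _ r
      have h3 : ∑ j ∈ Finset.range (r + 1), (T ^ j) w = s + (T ^ r) w :=
        Finset.sum_range_succ _ r
      rw [hTr, pow_zero] at *
      rw [h1]
      have h4 : ∑ j ∈ Finset.range r, (T ^ (j + 1)) w + (1 : Module.End F V) w
          = s + (1 : Module.End F V) w := by rw [← h2, h3]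
      exact add_right_cancel h4
    have hsC : s ∈ (N ⊓ LinearMap.ker (T - 1) : Submodule F V) := ⟨hsN, (hfixiff s).mpr hTs⟩
    have h0 := hvC s hsC
    have h1 : B v s = (r : F) * B v w := by
      rw [hs, map_sum]
      have h2 : ∀ j ∈ Finset.range r, B v ((T ^ j) w) = B v w := by
        intro j _
        have h3 := Preserves.pow hT j v w
        rw [hpowfix j v hTv] at h3
        exact h3
      rw [Finset.sum_congr rfl h2, Finset.sum_const, Finset.card_range, nsmul_eq_mul]
    rw [h1] at h0
    exact (mul_eq_zero.mp h0).resolve_left hrF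
  have hevN := (ti_lag B halt N hN).1
  have hevC := (ti_lag B halt _ hC).1
  have hle : finrank F (N ⊓ LinearMap.ker (T - 1) : Submodule F V) ≤ finrank F N :=
    Submodule.finrank_mono inf_le_left
  have h2dvd : 2 ∣ finrank F N - finrank F (N ⊓ LinearMap.ker (T - 1) : Submodule F V) := by
    obtain ⟨m, hm⟩ := hevN
    obtain ⟨m', hm'⟩ := hevC
    omega
  exact Nat.Coprime.mul_dvd_of_dvd_of_dvd (Nat.coprime_two_left.mpr hodd) h2dvd hidvd

end geom

end Cfsg.Agent.Helper31.TI5961
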