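import Mathlib
import Cfsg.Agent.Helper13.TIDefs2
import Cfsg.Agent.Helper58.TJTRANS

set_option autoImplicit false
set_option linter.style.haveILetI false

/-!
# CALL S5961 (helper13), piece SPCARD
-/

namespace Cfsg.Agent.Helper31.TI5961

open Module Polynomial
open Cfsg.Agent.Helper42.SpForm Cfsg.Agent.Helper42.SpGroup Cfsg.Agent.Helper42.SpModels
open Cfsg.Agent.Helper13.TIsp Cfsg.Agent.Helper90.BG
open Cfsg.Agent.Helper11.TI5955 Cfsg.Agent.Helper58.TI5955 Cfsg.Agent.Helper59.TI5955
open Cfsg.Agent.Helper51.TI5955 Cfsg.Agent.Helper70.TI5955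
open Cfsg.Agent.Helper58.TI5961

section sp2

variable {F : Type*} [Field F]

/-- SPCARD (uses TRANS; orbit–stabiliser for the action `g • D = fun j => (D j).map (toEnd g)`;
pattern `Cfsg.Agent.Helper74.mdec_card_dvd`, file Helper74/IMCARD.lean). -/
theorem sp_card_dvd [Fintype F] (d a t : ℕ)
    (hne : Nonempty {D : Fin t → Submodule F (Fin d ⊕ Fin d → F) // SpDec d a D}) :
    Nat.card {D : Fin t → Submodule F (Fin d ⊕ Fin d → F) // SpDec d a D} ∣
      Nat.card (Matrix.symplecticGroup (Fin d) F) := by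
  classical
  obtain ⟨D₀⟩ := hne
  have hleft : ∀ (g : Matrix.symplecticGroup (Fin d) F) (v : Fin d ⊕ Fin d → F),
      toEnd g⁻¹ (toEnd g v) = v := by
    intro g v
    have h1 : toEnd g⁻¹ * toEnd g = 1 := by rw [← toEnd_mul, inv_mul_cancel, toEnd_one]
    exact LinearMap.congr_fun h1 v
  have hbij : ∀ g : Matrix.symplecticGroup (Fin d) F, Function.Bijective (toEnd g) := by
    intro g
    refine ⟨Function.LeftInverse.injective (hleft g), ?_⟩
    have h2 := hleft g⁻¹
    rw [inv_inv] at h2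
    exact Function.RightInverse.surjective h2
  have hform : ∀ (g : Matrix.symplecticGroup (Fin d) F) (u v : Fin d ⊕ Fin d → F),
      Cfsg.sympForm d F (toEnd g u) (toEnd g v) = Cfsg.sympForm d F u v := by
    intro g u v
    rw [← Cfsg.Agent.Helper30.bgSp_stdForm_eq, ← Cfsg.Agent.Helper30.bgSp_stdForm_eq]
    exact preserves_toEnd g u v
  have hpres : ∀ (g : Matrix.symplecticGroup (Fin d) F)
      (D : Fin t → Submodule F (Fin d ⊕ Fin d → F)),
      SpDec d a D → SpDec d a (fun j => (D j).map (toEnd g)) := by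
    intro g D hD
    obtain ⟨hD1, hD2, hD3⟩ := hD
    refine ⟨⟨hD1.two_le, hD1.pos, ?_, ?_, ?_⟩, ?_, ?_⟩
    · intro i
      rw [← hD1.finrank_eq i]
      have h1 := LinearEquiv.finrank_map_eq (LinearEquiv.ofBijective _ (hbij g)) (D i)
      rw [← h1]
      rfl
    · exact hD1.indep.map_orderIso (Submodule.orderIsoMapComapOfBijective _ (hbij g))
    · rw [← Submodule.map_iSup, hD1.iSup_eq_top, Submodule.map_top, LinearMap.range_eq_top]
      exact (hbij g).2
    · rintro j u ⟨u₀, hu₀, rfl⟩ hu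
      have hu₀0 : u₀ ≠ 0 := by
        rintro rfl
        exact hu (map_zero _)
      obtain ⟨v₀, hv₀, hv⟩ := hD2 j u₀ hu₀ hu₀0
      exact ⟨toEnd g v₀, ⟨v₀, hv₀, rfl⟩, by rw [hform]; exact hv⟩
    · rintro j j' hjj u ⟨u₀, hu₀, rfl⟩ v ⟨v₀, hv₀, rfl⟩
      rw [hform]
      exact hD3 j j' hjj u₀ hu₀ v₀ hv₀
  letI inst : MulAction (Matrix.symplecticGroup (Fin d) F)
      {D : Fin t → Submodule F (Fin d ⊕ Fin d → F) // SpDec d a D} :=
    { smul := fun g D => ⟨fun j => (D.1 j).map (toEnd g), hpres g D.1 D.2⟩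
      one_smul := by
        intro D
        apply Subtype.ext
        funext j
        show (D.1 j).map (toEnd (1 : Matrix.symplecticGroup (Fin d) F)) = D.1 j
        rw [toEnd_one]
        exact Submodule.map_id _
      mul_smul := by
        intro g h D
        apply Subtype.ext
        funext j
        show (D.1 j).map (toEnd (g * h)) = ((D.1 j).map (toEnd h)).map (toEnd g)
        rw [toEnd_mul]
        exact Submodule.map_comp _ _ _ }
  haveI : MulAction.IsPretransitive (Matrix.symplecticGroup (Fin d) F)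
      {D : Fin t → Submodule F (Fin d ⊕ Fin d → F) // SpDec d a D} := by
    refine ⟨fun D D' => ?_⟩
    obtain ⟨g, hg⟩ := sp_trans D.1 D'.1 D.2 D'.2
    exact ⟨g, Subtype.ext (funext hg)⟩
  rw [← MulAction.index_stabilizer_of_transitive (G := Matrix.symplecticGroup (Fin d) F)
    (x := D₀)]
  exact Subgroup.index_dvd_card _

end sp2

end Cfsg.Agent.Helper31.TI5961
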