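import Mathlib
import Cfsg.Agent.Helper13.TLDefs

/-!
# helper31: CALL S5954 piece UDSUM.
-/

set_option autoImplicit false
set_option linter.unusedSectionVars false
set_option linter.unusedVariables false

namespace Cfsg.Agent.Helper31.TI5954

open Module Polynomial
open Cfsg.Agent.Helper13.TIu Cfsg.Agent.Helper13.TIsp

section std

variable {F : Type*} [Field F] {σ : F →+* F}

/-- The concatenation equivalence `F^{n₁} × F^{n₂} ≃ F^{n₁+n₂}`. -/
def dsumPhi (F : Type*) [Field F] (n₁ n₂ : ℕ) :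
    ((Fin n₁ → F) × (Fin n₂ → F)) ≃ₗ[F] (Fin (n₁ + n₂) → F) where
  toFun x := Fin.append x.1 x.2
  invFun v := (fun i => v (Fin.castAdd n₂ i), fun j => v (Fin.natAdd n₁ j))
  map_add' x y := by
    funext i
    refine Fin.addCases (fun i => ?_) (fun j => ?_) i <;> simp
  map_smul' c x := by
    funext i
    refine Fin.addCases (fun i => ?_) (fun j => ?_) i <;> simp
  left_inv x := by
    refine Prod.ext ?_ ?_
    · funext i
      simp
    · funext j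
      simp
  right_inv v := by
    funext i
    refine Fin.addCases (fun i => ?_) (fun j => ?_) i <;> simp

theorem dsumPhi_form (n₁ n₂ : ℕ) (a b : (Fin n₁ → F) × (Fin n₂ → F)) :
    stdH σ (n₁ + n₂) (dsumPhi F n₁ n₂ a) (dsumPhi F n₁ n₂ b)
      = stdH σ n₁ a.1 b.1 + stdH σ n₂ a.2 b.2 := by
  rw [stdH_apply, stdH_apply, stdH_apply, Fin.sum_univ_add]
  congr 1
  · refine Finset.sum_congr rfl fun i _ => ?_
    show Fin.append b.1 b.2 (Fin.castAdd n₂ i) * σ (Fin.append a.1 a.2 (Fin.castAdd n₂ i)) = _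
    rw [Fin.append_left, Fin.append_left]
  · refine Finset.sum_congr rfl fun j _ => ?_
    show Fin.append b.1 b.2 (Fin.natAdd n₁ j) * σ (Fin.append a.1 a.2 (Fin.natAdd n₁ j)) = _
    rw [Fin.append_right, Fin.append_right]

/-- UDSUM: orthogonal direct sum of two standard isometries (`Fin.append` / `Fin.addCases`,
or `Matrix.fromBlocks` reindexed by `finSumFinEquiv`). -/
theorem u_dsum (n₁ n₂ : ℕ) (T₁ : Module.End F (Fin n₁ → F)) (T₂ : Module.End F (Fin n₂ → F))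
    (h₁ : UPres (stdH σ n₁) T₁) (h₂ : UPres (stdH σ n₂) T₂) :
    ∃ (T : Module.End F (Fin (n₁ + n₂) → F))
      (Φ : ((Fin n₁ → F) × (Fin n₂ → F)) ≃ₗ[F] (Fin (n₁ + n₂) → F)),
      UPres (stdH σ (n₁ + n₂)) T ∧ (∀ x, T (Φ x) = Φ (T₁ x.1, T₂ x.2)) ∧
      LinearMap.det T = LinearMap.det T₁ * LinearMap.det T₂ := by
  have hT : ∀ x, ((dsumPhi F n₁ n₂ : _ →ₗ[F] _) ∘ₗ (T₁.prodMap T₂) ∘ₗ
      ((dsumPhi F n₁ n₂).symm : _ →ₗ[F] _)) (dsumPhi F n₁ n₂ x)
      = dsumPhi F n₁ n₂ (T₁ x.1, T₂ x.2) := by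
    intro x
    simp only [LinearMap.comp_apply, LinearEquiv.coe_coe, LinearEquiv.symm_apply_apply,
      LinearMap.prodMap_apply]
  refine ⟨(dsumPhi F n₁ n₂ : _ →ₗ[F] _) ∘ₗ (T₁.prodMap T₂) ∘ₗ
      ((dsumPhi F n₁ n₂).symm : _ →ₗ[F] _), dsumPhi F n₁ n₂, ?_, hT, ?_⟩
  · intro u v
    obtain ⟨x, rfl⟩ := (dsumPhi F n₁ n₂).surjective u
    obtain ⟨y, rfl⟩ := (dsumPhi F n₁ n₂).surjective v
    rw [hT x, hT y, dsumPhi_form, dsumPhi_form]
    show stdH σ n₁ (T₁ x.1) (T₁ y.1) + stdH σ n₂ (T₂ x.2) (T₂ y.2) = _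
    rw [h₁ x.1 y.1, h₂ x.2 y.2]
  · rw [LinearMap.det_conj, LinearMap.det_prodMap]

end std

end Cfsg.Agent.Helper31.TI5954
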