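import Mathlib
import Cfsg.Agent.Helper13.TLDefs

/-!
# helper31: CALL S5954 piece UMONO1.
-/

set_option autoImplicit false
set_option linter.unusedSectionVars false
set_option linter.unusedVariables false

namespace Cfsg.Agent.Helper31.TI5954

open Module Polynomial
open Cfsg.Agent.Helper13.TIu Cfsg.Agent.Helper13.TIsp

section std

variable {F : Type*} [Field F] {σ : F →+* F}

/-- UMONO1 (cases B, C): the monomial cycle `e_j ↦ e_{j+1}`, `e_{r-1} ↦ z • e_0`. -/
theorem ubad_mono_one (z : F) (hz : σ z * z = 1) (r : ℕ) (hr : 0 < r) :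
    ∃ T : Module.End F (Fin r → F), UPres (stdH σ r) T ∧
      T ^ r = z • (1 : Module.End F (Fin r → F)) ∧ LinearMap.det T = (-1) ^ (r - 1) * z := by
  classical
  obtain ⟨m, rfl⟩ : ∃ m, r = m + 1 := ⟨r - 1, by omega⟩
  -- the matrix `D * P`
  obtain ⟨c, hc⟩ : ∃ c : Fin (m + 1) → F, c = fun i => if i = 0 then z else 1 := ⟨_, rfl⟩
  have hcσ : ∀ i, σ (c i) * c i = 1 := by
    intro i
    rw [hc]
    by_cases h : i = 0
    · simp only [if_pos h]
      exact hz
    · simp only [if_neg h]
      rw [map_one, mul_one]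
  obtain ⟨M, hM⟩ : ∃ M : Matrix (Fin (m + 1)) (Fin (m + 1)) F,
      M = Matrix.diagonal c * Equiv.Perm.permMatrix F (finRotate (m + 1)).symm := ⟨_, rfl⟩
  have hmv : ∀ x : Fin (m + 1) → F, Matrix.toLin' M x
      = fun i => c i * x ((finRotate (m + 1)).symm i) := by
    intro x
    rw [Matrix.toLin'_apply, hM, ← Matrix.mulVec_mulVec, Matrix.permMatrix_mulVec]
    funext i
    rw [Matrix.mulVec_diagonal]
    rfl
  -- action on the standard basis
  have hsingle : ∀ j : Fin (m + 1), Matrix.toLin' M (Pi.single j 1)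
      = c (finRotate (m + 1) j) • Pi.single (finRotate (m + 1) j) 1 := by
    intro j
    rw [hmv]
    funext i
    by_cases h : i = finRotate (m + 1) j
    · subst h
      rw [Equiv.symm_apply_apply, Pi.single_eq_same, Pi.smul_apply, Pi.single_eq_same, mul_one,
        smul_eq_mul, mul_one]
    · have h' : (finRotate (m + 1)).symm i ≠ j := by
        intro h''
        apply h
        rw [← h'', Equiv.apply_symm_apply]
      rw [Pi.smul_apply, Pi.single_eq_of_ne h', Pi.single_eq_of_ne h, smul_zero, mul_zero]
  refine ⟨Matrix.toLin' M, ?_, ?_, ?_⟩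
  · intro x y
    rw [stdH_apply, stdH_apply, hmv, hmv]
    rw [← Equiv.sum_comp (finRotate (m + 1)).symm (fun i => y i * σ (x i))]
    refine Finset.sum_congr rfl fun i _ => ?_
    show c i * y ((finRotate (m + 1)).symm i) * σ (c i * x ((finRotate (m + 1)).symm i)) = _
    rw [map_mul]
    linear_combination (y ((finRotate (m + 1)).symm i) * σ (x ((finRotate (m + 1)).symm i))) * hcσ i
  · -- `T ^ k e_0 = e_k`
    have hk : ∀ k : ℕ, ∀ hk : k < m + 1, ((Matrix.toLin' M) ^ k) (Pi.single 0 1)
        = Pi.single (⟨k, hk⟩ : Fin (m + 1)) 1 := by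
      intro k
      induction k with
      | zero =>
        intro _
        rfl
      | succ k ih =>
        intro hk1
        rw [pow_succ', Module.End.mul_apply, ih (by omega), hsingle]
        have hrot : finRotate (m + 1) ⟨k, by omega⟩ = ⟨k + 1, hk1⟩ := by
          rw [finRotate_of_lt (by omega)]
        rw [hrot, hc]
        have hne : (⟨k + 1, hk1⟩ : Fin (m + 1)) ≠ 0 := by
          intro h
          have := congrArg Fin.val h
          simp at this
        simp only [if_neg hne, one_smul]
    have hr0 : ((Matrix.toLin' M) ^ (m + 1)) (Pi.single 0 1) = z • Pi.single 0 1 := by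
      rw [pow_succ', Module.End.mul_apply, hk m (by omega), hsingle]
      have hrot : finRotate (m + 1) ⟨m, by omega⟩ = 0 := finRotate_last
      rw [hrot, hc]
      simp only [if_true]
    apply LinearMap.pi_ext'
    intro j
    apply LinearMap.ext_ring
    show ((Matrix.toLin' M) ^ (m + 1)) (Pi.single j 1) = (z • (1 : Module.End F (Fin (m + 1) → F))) (Pi.single j 1)
    have hj : (Pi.single j 1 : Fin (m + 1) → F) = ((Matrix.toLin' M) ^ (j : ℕ)) (Pi.single 0 1) := by
      rw [hk j j.2]
    rw [hj, ← Module.End.mul_apply, (Commute.pow_pow_self (Matrix.toLin' M) (m + 1) j).eq,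
      Module.End.mul_apply, hr0, map_smul]
    rfl
  · rw [LinearMap.det_toLin', hM, Matrix.det_mul, Matrix.det_diagonal, Matrix.det_permutation,
      Equiv.Perm.sign_symm, sign_finRotate, hc]
    simp [mul_comm]

end std

end Cfsg.Agent.Helper31.TI5954
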