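import Mathlib
import Cfsg.Agent.Helper3.SU2Defs

/-!
# helper31: CALL S2412C piece DIAG.
-/

set_option autoImplicit false
set_option linter.unusedSectionVars false
set_option linter.unusedVariables false

namespace Cfsg.Agent.Helper31

open Cfsg.Agent.Helper3.SU2 Cfsg.Agent.Helper13
open Matrix
open Cfsg.Agent.Helper5 (frobQ frobQ_apply)

variable {F : Type*} [Field F] [Fintype F] {n : ℕ}

-- === PIECE DIAG ===
theorem su2c_diag (hF : Fintype.card F = 2 ^ 2) (d : Fin n → F) (hd0 : ∀ i, d i ≠ 0)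
    (hd : ∏ i, d i = 1) :
    ∃ g : ↥(Cfsg.SU n F 2), ∀ x : Fin n → F, uact g x = fun i => d i * x i := by
  classical
  have hd3 : ∀ i, d i * d i ^ 2 = 1 := fun i => by
    have h := ufld2_norm hF (d i) (hd0 i)
    rwa [frobQ_apply] at h
  have hmv : ∀ x : Fin n → F, (Matrix.diagonal d) *ᵥ x = fun i => d i * x i := by
    intro x
    funext i
    exact Matrix.mulVec_diagonal d x i
  have hdet : (Matrix.diagonal d).det = 1 := by rw [Matrix.det_diagonal, hd]
  obtain ⟨A, hA⟩ : ∃ A : Matrix.SpecialLinearGroup (Fin n) F,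
      (A : Matrix (Fin n) (Fin n) F) = Matrix.diagonal d := ⟨⟨_, hdet⟩, rfl⟩
  refine ⟨⟨A, (mem_SU_iff A).mpr ?_⟩, ?_⟩
  · intro u v
    rw [hA, hmv, hmv, herm2_apply, herm2_apply]
    refine Finset.sum_congr rfl fun i _ => ?_
    show d i * u i * (d i * v i) ^ 2 = u i * v i ^ 2
    linear_combination (u i * v i ^ 2) * hd3 i
  · intro x
    show (A : Matrix (Fin n) (Fin n) F) *ᵥ x = _
    rw [hA]
    exact hmv x

end Cfsg.Agent.Helper31
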