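import Mathlib
import Cfsg.Agent.Helper3.SU2Defs

/-!
# helper31: CALL S2412C piece DVEC.
-/

set_option autoImplicit false
set_option linter.unusedSectionVars false
set_option linter.unusedVariables false

namespace Cfsg.Agent.Helper31

open Cfsg.Agent.Helper3.SU2 Cfsg.Agent.Helper13
open Cfsg.Agent.Helper5 (frobQ frobQ_apply)

variable {F : Type*} [Field F] [Fintype F] {n : ℕ}

-- === PIECE DVEC ===
theorem su2c_dvec (hn : 5 ≤ n) (ω : F) (hω3 : ω ^ 3 = 1) :
    ∏ i : Fin n, (if i.val < 4 then ω else if i.val = 4 then ω ^ 2 else 1) = 1 := by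
  obtain ⟨m, rfl⟩ : ∃ m, n = 5 + m := ⟨n - 5, by omega⟩
  rw [Fin.prod_univ_eq_prod_range (fun k => if k < 4 then ω else if k = 4 then ω ^ 2 else 1) (5 + m),
    Finset.prod_range_add]
  have h1 : ∏ k ∈ Finset.range m, (if 5 + k < 4 then ω else if 5 + k = 4 then ω ^ 2 else 1) = 1 := by
    apply Finset.prod_eq_one
    intro k _
    rw [if_neg (by omega), if_neg (by omega)]
  rw [h1, mul_one]
  simp [Finset.prod_range_succ]
  linear_combination (ω ^ 3 + 1) * hω3

end Cfsg.Agent.Helper31
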