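import Mathlib
import Cfsg.Agent.Helper30.UGDefs

set_option autoImplicit false

/-! helper31: CALL S2708 (helper30, the PSU graph dictionary), piece A8:
`ugr g` has order `2` iff `g` is symmetric or antisymmetric. -/

namespace Cfsg.Agent.Helper31.UGA8

open Matrix Cfsg.Agent.Helper44.PSLn Cfsg.Agent.Helper44.PSUn Cfsg.Agent.Helper43.GraphAut
open Cfsg.Agent.Helper30.UG

universe u v

variable {F : Type u} [Field F] [Fintype F] {q n : ℕ}

/-- A8 -/
theorem ug_orderOf (hF : Fintype.card F = q ^ 2) (p : ℕ) [Fact p.Prime] [CharP F p]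
    (hn : 3 ≤ n) (h32 : ¬ (n = 3 ∧ q = 2)) (g : ↥(Cfsg.GU n F q)) :
    orderOf (ugr hF g) = 2 ↔
      (((g : GL (Fin n) F) : Mn n F)ᵀ = ((g : GL (Fin n) F) : Mn n F) ∨
        ((g : GL (Fin n) F) : Mn n F)ᵀ = -((g : GL (Fin n) F) : Mn n F)) := by
  have htt : ulang_tau hF * ulang_tau hF = 1 := by
    apply RingEquiv.ext
    intro a
    exact ulang_tau_tau hF a
  have hsq : ugr hF g * ugr hF g = uD (g * mapGU (ulang_tau hF) g) := by
    unfold ugr
    rw [usemi_mul, htt, map_one, mul_one]
  have hne : ugr hF g ≠ 1 := by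
    intro h
    have h' : uD g * uF (ulang_tau hF)
        = uD (1 : ↥(Cfsg.GU n F q)) * (uF (1 : RingAut F) : MulAut (Cfsg.PSU n F q)) := by
      rw [map_one, map_one, mul_one]
      exact h
    exact ulang_tau_ne_one hF (udecomp_unique hF p hn h32 g 1 _ 1 h')
  have hord : orderOf (ugr hF g) = 2 ↔ ugr hF g * ugr hF g = 1 := by
    constructor
    · intro h
      have h3 := pow_orderOf_eq_one (ugr hF g)
      rw [h, pow_two] at h3
      exact h3
    · intro h
      have : Fact (Nat.Prime 2) := ⟨Nat.prime_two⟩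
      exact orderOf_eq_prime (by rw [pow_two]; exact h) hne
  rw [hord, hsq, ulang_uD_eq_one_iff hF p hn h32]
  have hcoe : (((g * mapGU (ulang_tau hF) g : ↥(Cfsg.GU n F q)) : GL (Fin n) F) : Mn n F)
      = ((g : GL (Fin n) F) : Mn n F) * ((g : GL (Fin n) F) : Mn n F).map (ulang_tau hF) := rfl
  rw [hcoe]
  have h1 : ((g : GL (Fin n) F) : Mn n F)ᵀ * ((g : GL (Fin n) F) : Mn n F).map (ulang_tau hF) = 1 :=
    ug_GU hF g
  have h2 : ((g : GL (Fin n) F) : Mn n F).map (ulang_tau hF) * ((g : GL (Fin n) F) : Mn n F)ᵀ = 1 :=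
    ug_GU' hF g
  generalize ((g : GL (Fin n) F) : Mn n F) = Gm at h1 h2 ⊢
  generalize hT : Gm.map (ulang_tau hF) = T at h1 h2 ⊢
  constructor
  · rintro ⟨c, hc⟩
    have h3 : Gm = c • Gmᵀ := by
      calc Gm = Gm * (T * Gmᵀ) := by rw [h2, Matrix.mul_one]
        _ = (Gm * T) * Gmᵀ := by rw [Matrix.mul_assoc]
        _ = c • Gmᵀ := by rw [hc, Matrix.smul_mul, Matrix.one_mul]
    have h4 : Gmᵀ = c • Gm := by
      have h := congrArg Matrix.transpose h3
      rw [Matrix.transpose_smul, Matrix.transpose_transpose] at h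
      exact h
    have h5 : Gm = (c * c) • Gm := by
      rw [mul_smul, ← h4, ← h3]
    have hG0 : Gm ≠ 0 := by
      intro h0
      have h := congrFun (congrFun h1 ⟨0, by omega⟩) ⟨0, by omega⟩
      rw [h0] at h
      simp at h
    have hex : ∃ i j, Gm i j ≠ 0 := by
      by_contra hcon
      apply hG0
      ext i j
      by_contra hij
      exact hcon ⟨i, j, hij⟩
    obtain ⟨i, j, hij⟩ := hex
    have hcc : c * c = 1 := by
      have h := congrFun (congrFun h5 i) j
      rw [Matrix.smul_apply, smul_eq_mul] at h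
      have h6 : (c * c - 1) * Gm i j = 0 := by
        rw [sub_mul, one_mul, ← h, sub_self]
      rcases mul_eq_zero.1 h6 with h7 | h7
      · exact sub_eq_zero.1 h7
      · exact absurd h7 hij
    have hc' : c = 1 ∨ c = -1 := by
      have h : (c - 1) * (c + 1) = 0 := by
        have : (c - 1) * (c + 1) = c * c - 1 := by ring
        rw [this, hcc, sub_self]
      rcases mul_eq_zero.1 h with h7 | h7
      · exact Or.inl (sub_eq_zero.1 h7)
      · exact Or.inr (eq_neg_of_add_eq_zero_left h7)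
    rcases hc' with hc1 | hc1
    · left
      rw [h4, hc1, one_smul]
    · right
      rw [h4, hc1, neg_smul, one_smul]
  · rintro (h | h)
    · refine ⟨1, ?_⟩
      rw [one_smul]
      rw [h] at h1
      exact h1
    · refine ⟨-1, ?_⟩
      rw [h, Matrix.neg_mul] at h1
      rw [neg_smul, one_smul, ← h1, neg_neg]

end Cfsg.Agent.Helper31.UGA8
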