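/-
helper31: CALL S1378 (helper1, B&G Theorem 13.9), piece C7 (pure group theory):
a subgroup of prime order of `E` whose order does not divide `|E : E₃|` lies in the normal
subgroup `E₃`.
-/
import Cfsg.Agent.Helper1.BG139Defs

set_option autoImplicit false

namespace Cfsg.Agent.Helper31

open Cfsg Subgroup Cfsg.Agent.Helper1

universe u

variable {G : Type u} [Group G] [Finite G]

/-- PIECE `C7` (pure group theory). -/
theorem bg139_le_E3 {E E₁ E₃ Y : Subgroup G} (hE₃ : E₃ ≤ E)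
    (hE₃n : E ≤ normalizer (E₃ : Set G)) (hcard : Nat.card E = Nat.card E₃ * Nat.card E₁)
    (hYE : Y ≤ E) (hY : (Nat.card Y).Prime) (hYn : ¬ Nat.card Y ∣ Nat.card E₁) : Y ≤ E₃ := by
  classical
  intro y hy
  have hnorm : (E₃.subgroupOf E).Normal := by
    refine ⟨?_⟩
    rintro ⟨n, hn⟩ hn3 ⟨g, hg⟩
    rw [Subgroup.mem_subgroupOf] at hn3 ⊢
    have hgN := hE₃n hg
    rw [Subgroup.mem_normalizer_iff] at hgN
    exact (hgN n).1 hn3
  have hidx : (E₃.subgroupOf E).index = Nat.card E₁ := by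
    have h1 := Subgroup.card_mul_index (E₃.subgroupOf E)
    have h2 : Nat.card (E₃.subgroupOf E) = Nat.card E₃ :=
      Nat.card_congr (Subgroup.subgroupOfEquivOfLe hE₃).toEquiv
    rw [h2, hcard] at h1
    exact Nat.eq_of_mul_eq_mul_left Nat.card_pos h1
  have hyp : y ^ Nat.card Y = 1 := by
    have h := pow_card_eq_one' (G := Y) (x := ⟨y, hy⟩)
    have h' : ((⟨y, hy⟩ : Y) ^ Nat.card Y : Y).1 = ((1 : Y) : G) := congrArg Subtype.val h
    rw [Subgroup.coe_pow] at h'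
    exact h'
  have h1 : (QuotientGroup.mk (⟨y, hYE hy⟩ : E) : E ⧸ E₃.subgroupOf E) ^ Nat.card Y = 1 := by
    rw [← QuotientGroup.mk_pow]
    have h : (⟨y, hYE hy⟩ : E) ^ Nat.card Y = 1 := Subtype.ext (by simpa using hyp)
    rw [h]; rfl
  have h2 : (QuotientGroup.mk (⟨y, hYE hy⟩ : E) : E ⧸ E₃.subgroupOf E) ^ Nat.card E₁ = 1 := by
    rw [← hidx, Subgroup.index]
    exact pow_card_eq_one'
  have hcop : Nat.Coprime (Nat.card Y) (Nat.card E₁) := (Nat.Prime.coprime_iff_not_dvd hY).2 hYn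
  have h3 : (QuotientGroup.mk (⟨y, hYE hy⟩ : E) : E ⧸ E₃.subgroupOf E) = 1 := by
    have h := pow_gcd_eq_one.2 ⟨h1, h2⟩
    rwa [Nat.Coprime.gcd_eq_one hcop, pow_one] at h
  have h4 := (QuotientGroup.eq_one_iff _).1 h3
  exact Subgroup.mem_subgroupOf.1 h4

end Cfsg.Agent.Helper31
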