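import Mathlib
import Cfsg.Agent.Helper35.SZ

set_option autoImplicit false

/-! helper31: CALL LZ (helper1), piece FR (`bgz_frattini`): Frattini argument
`E = K * C_E(P)` when `E' ≤ K ≤ E`, `P ≤ E` of prime order `p ∤ |K|`. -/

namespace Cfsg.Agent.Helper31

open Cfsg Subgroup
open scoped Pointwise commutatorElement

universe u

variable {G : Type u} [Group G] [Finite G]

/-- FR (PURE). Frattini: `E = K * C_E(P)` when `E' ≤ K ≤ E`, `P ≤ E` of prime order `p ∤ |K|`. -/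
theorem bgz_frattini {E K P : Subgroup G} {p : ℕ} (hp : p.Prime) (hKE : K ≤ E)
    (hcomm : ⁅E, E⁆ ≤ K) (hPE : P ≤ E) (hP : Nat.card P = p) (hpK : ¬ p ∣ Nat.card K) :
    ∀ e ∈ E, ∃ k ∈ K, ∃ c ∈ E ⊓ centralizer (P : Set G), e = k * c := by
  classical
  have : Fact p.Prime := ⟨hp⟩
  -- `K` is normalized by `E`
  have hKn : ∀ e ∈ E, ∀ k ∈ K, e * k * e⁻¹ ∈ K := by
    intro e he k hk
    have h1 : ⁅e, k⁆ ∈ ⁅E, E⁆ := Subgroup.commutator_mem_commutator he (hKE hk)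
    have h2 : e * k * e⁻¹ = ⁅e, k⁆ * k := by
      rw [commutatorElement_def]
      group
    rw [h2]
    exact K.mul_mem (hcomm h1) hk
  -- `P ⊓ K = ⊥`
  have hPK : ∀ y ∈ P, y ∈ K → y = 1 := by
    intro y hyP hyK
    by_contra hy1
    have ho : orderOf y ∣ p := by
      have h := Subgroup.orderOf_dvd_natCard P hyP
      rwa [hP] at h
    have ho' : orderOf y = p := by
      rcases (Nat.dvd_prime hp).1 ho with h | h
      · exact absurd (orderOf_eq_one_iff.1 h) hy1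
      · exact h
    apply hpK
    rw [← ho']
    exact Subgroup.orderOf_dvd_natCard K hyK
  -- the subgroup `T = K * P`
  let T : Subgroup G :=
    { carrier := {g | ∃ k ∈ K, ∃ y ∈ P, g = k * y}
      mul_mem' := by
        rintro _ _ ⟨k, hk, y, hy, rfl⟩ ⟨k', hk', y', hy', rfl⟩
        refine ⟨k * (y * k' * y⁻¹), K.mul_mem hk (hKn y (hPE hy) k' hk'), y * y',
          P.mul_mem hy hy', ?_⟩
        group
      one_mem' := ⟨1, K.one_mem, 1, P.one_mem, by rw [mul_one]⟩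
      inv_mem' := by
        rintro _ ⟨k, hk, y, hy, rfl⟩
        refine ⟨y⁻¹ * k⁻¹ * y⁻¹⁻¹, hKn y⁻¹ (hPE (P.inv_mem hy)) k⁻¹ (K.inv_mem hk), y⁻¹,
          P.inv_mem hy, ?_⟩
        group }
  have hTmem : ∀ g : G, g ∈ T ↔ ∃ k ∈ K, ∃ y ∈ P, g = k * y := fun g => Iff.rfl
  have hPT : P ≤ T := fun y hy => ⟨1, K.one_mem, y, hy, by rw [one_mul]⟩
  have hTcard : Nat.card T = Nat.card K * Nat.card P := by
    rw [← Nat.card_prod]
    symm
    apply Nat.card_eq_of_bijective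
      (fun x : K × P => (⟨(x.1 : G) * (x.2 : G), ⟨x.1, x.1.2, x.2, x.2.2, rfl⟩⟩ : T))
    constructor
    · rintro ⟨⟨k, hk⟩, ⟨y, hy⟩⟩ ⟨⟨k', hk'⟩, ⟨y', hy'⟩⟩ h
      have h1 : k * y = k' * y' := congrArg Subtype.val h
      have h2 : k'⁻¹ * k = y' * y⁻¹ := by
        rw [inv_mul_eq_iff_eq_mul, ← mul_assoc, ← h1, mul_inv_cancel_right]
      have h3 : y' * y⁻¹ = 1 := by
        apply hPK _ (P.mul_mem hy' (P.inv_mem hy))
        rw [← h2]
        exact K.mul_mem (K.inv_mem hk') hk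
      have h4 : y' = y := by
        rw [mul_inv_eq_one] at h3
        exact h3
      have h5 : k = k' := by
        rw [h4] at h1
        exact mul_right_cancel h1
      subst h4
      subst h5
      rfl
    · rintro ⟨g, k, hk, y, hy, rfl⟩
      exact ⟨(⟨k, hk⟩, ⟨y, hy⟩), rfl⟩
  intro e he
  -- `conj e • P ≤ T`
  have hQT : MulAut.conj e • P ≤ T := by
    intro x hx
    rw [Subgroup.mem_pointwise_smul_iff_inv_smul_mem, MulAut.smul_def, ← map_inv,
      MulAut.conj_apply, inv_inv] at hx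
    have h1 : ⁅e, e⁻¹ * x * e⁆ ∈ ⁅E, E⁆ := Subgroup.commutator_mem_commutator he (hPE hx)
    refine ⟨⁅e, e⁻¹ * x * e⁆, hcomm h1, e⁻¹ * x * e, hx, ?_⟩
    rw [commutatorElement_def]
    group
  have hcardQ : Nat.card (MulAut.conj e • P : Subgroup G) = Nat.card P :=
    Cfsg.Agent.Helper35.card_conj_smul e P
  have hidx : ¬ p ∣ Nat.card T / Nat.card P := by
    rw [hTcard, Nat.mul_div_cancel _ Nat.card_pos]
    exact hpK
  obtain ⟨m, hmT, hm⟩ := Cfsg.Agent.Helper35.exists_conj_of_sylow hPT hQT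
    (IsPGroup.of_card (n := 1) (by rw [hP, pow_one])) hcardQ hidx
  obtain ⟨k, hk, y0, hy0, rfl⟩ := hmT
  -- `c = k⁻¹ * e` normalizes `P`
  have hcP : ∀ y ∈ P, (k⁻¹ * e) * y * (k⁻¹ * e)⁻¹ ∈ P := by
    intro y hy
    have h1 : e * y * e⁻¹ ∈ MulAut.conj (k * y0) • P := by
      rw [hm, Subgroup.mem_pointwise_smul_iff_inv_smul_mem, MulAut.smul_def, ← map_inv,
        MulAut.conj_apply, inv_inv]
      have h2 : e⁻¹ * (e * y * e⁻¹) * e = y := by group
      rw [h2]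
      exact hy
    rw [Subgroup.mem_pointwise_smul_iff_inv_smul_mem, MulAut.smul_def, ← map_inv,
      MulAut.conj_apply, inv_inv] at h1
    have h3 : (k⁻¹ * e) * y * (k⁻¹ * e)⁻¹
        = y0 * ((k * y0)⁻¹ * (e * y * e⁻¹) * (k * y0)) * y0⁻¹ := by group
    rw [h3]
    exact P.mul_mem (P.mul_mem hy0 h1) (P.inv_mem hy0)
  have hcE : k⁻¹ * e ∈ E := E.mul_mem (E.inv_mem (hKE hk)) he
  refine ⟨k, hk, k⁻¹ * e, ⟨hcE, ?_⟩, by group⟩
  show k⁻¹ * e ∈ centralizer (P : Set G)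
  rw [Subgroup.mem_centralizer_iff]
  intro y hy
  have hy' : y ∈ P := hy
  have h1 : ⁅k⁻¹ * e, y⁆ ∈ K := hcomm (Subgroup.commutator_mem_commutator hcE (hPE hy'))
  have h2 : ⁅k⁻¹ * e, y⁆ ∈ P := by
    rw [commutatorElement_def]
    exact P.mul_mem (hcP y hy') (P.inv_mem hy')
  have h3 := hPK _ h2 h1
  rw [commutatorElement_def] at h3
  have h4 : (k⁻¹ * e) * y = y * (k⁻¹ * e) := by
    have h5 : (k⁻¹ * e) * y = ((k⁻¹ * e) * y * (k⁻¹ * e)⁻¹ * y⁻¹) * (y * (k⁻¹ * e)) := by group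
    rw [h5, h3, one_mul]
  exact h4.symm

end Cfsg.Agent.Helper31
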