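import Mathlib
import Cfsg.Agent.Helper94.ULag
import Cfsg.Agent.Helper94.USub
import Cfsg.Agent.Helper94.UK
import Cfsg.Agent.Helper97.UNot
import Cfsg.Agent.Helper5.UnitSU

set_option autoImplicit false
open Cfsg Cfsg.Geo Matrix
open Cfsg.Agent.Helper94
open scoped MatrixGroups

namespace Cfsg.Agent.Helper31

universe u

variable {F : Type u} [Field F] {ι : Type} [Fintype ι] [DecidableEq ι]
variable {σ : F ≃+* F} {f : (ι → F) → (ι → F) → F}


/-- NT2 -/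
theorem bu_nt2 {q n : ℕ} (hn : 0 < n) (h2 : (2 : F) ≠ 0) (l : F) (hl : l ^ (q + 1) = 1)
    (hln : l ^ n = -1) (hv : padicValNat 2 (q + 1) ≤ padicValNat 2 n) : False := by
  have hq1 : q + 1 ≠ 0 := Nat.succ_ne_zero q
  have hd1 : 2 ^ padicValNat 2 (q + 1) ∣ q + 1 := pow_padicValNat_dvd
  have hd2 : ¬ 2 ^ (padicValNat 2 (q + 1) + 1) ∣ q + 1 := pow_succ_padicValNat_not_dvd hq1
  have hd3 : 2 ^ padicValNat 2 (q + 1) ∣ n := (pow_dvd_pow 2 hv).trans pow_padicValNat_dvd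
  obtain ⟨a, ha⟩ : ∃ a, a = padicValNat 2 (q + 1) := ⟨_, rfl⟩
  rw [← ha] at hd1 hd2 hd3
  obtain ⟨u, hu⟩ := hd1
  obtain ⟨m, hm⟩ := hd3
  have hu_odd : Odd u := by
    rw [← Nat.not_even_iff_odd]
    rintro ⟨w, hw⟩
    apply hd2
    refine ⟨w, ?_⟩
    rw [hu, hw, pow_succ]
    ring
  have h1 : l ^ (n * u) = 1 := by
    have h3 : n * u = (q + 1) * m := by
      rw [hm, hu]
      ring
    rw [h3, pow_mul, hl, one_pow]
  have h4 : l ^ (n * u) = -1 := by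
    rw [pow_mul, hln, hu_odd.neg_one_pow]
  rw [h4] at h1
  apply h2
  linear_combination (-1 : F) * h1

end Cfsg.Agent.Helper31
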