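import Mathlib
import Cfsg.Agent.Helper94.ULag
import Cfsg.Agent.Helper94.USub
import Cfsg.Agent.Helper94.UK
import Cfsg.Agent.Helper97.UNot
import Cfsg.Agent.Helper5.UnitSU

set_option autoImplicit false
open Cfsg Cfsg.Geo Matrix
open Cfsg.Agent.Helper94
open scoped MatrixGroups

namespace Cfsg.Agent.Helper31

universe u

variable {F : Type u} [Field F] {ι : Type} [Fintype ι] [DecidableEq ι]
variable {σ : F ≃+* F} {f : (ι → F) → (ι → F) → F}


/-- REFL -/
theorem bu_reflection {q n : ℕ} (hq : Odd q) (hn : 2 ≤ n) (h2 : (2 : F) ≠ 0) (l : F)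
    (hl : l ^ (q + 1) = 1) (hln : l ^ n = -1) :
    ∃ (x : GL (Fin n) F) (c : Fin n → F), c ≠ 0 ∧ x ∈ GU n F q ∧ x ∈ specialLinear (Fin n) F ∧
      ((x ^ 2 : GL (Fin n) F) : Matrix (Fin n) (Fin n) F) = (l ^ 2) • (1 : Matrix (Fin n) (Fin n) F) ∧
      (∀ z : F, (x : Matrix (Fin n) (Fin n) F) ≠ z • (1 : Matrix (Fin n) (Fin n) F)) ∧
      ∀ v, (x : Matrix (Fin n) (Fin n) F) *ᵥ v = l • v + hermForm n F q v c • ((-2 * l) • c) := by
  classical
  have hq0 : q ≠ 0 := by
    rintro rfl
    exact absurd hq (by decide)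
  have hl0 : l ≠ 0 := by
    rintro rfl
    rw [zero_pow (Nat.succ_ne_zero q)] at hl
    exact zero_ne_one hl
  obtain ⟨i0, hi0⟩ : ∃ i0 : Fin n, i0 = ⟨0, by omega⟩ := ⟨_, rfl⟩
  obtain ⟨i1, hi1⟩ : ∃ i1 : Fin n, i1 = ⟨1, by omega⟩ := ⟨_, rfl⟩
  have hi01 : i1 ≠ i0 := by
    rw [hi0, hi1]
    intro h
    have := congrArg Fin.val h
    simp at this
  obtain ⟨d, hd⟩ : ∃ d : Fin n → F, d = fun i => if i = i0 then -l else l := ⟨_, rfl⟩
  have hd0 : d i0 = -l := by rw [hd]; simp
  have hd1 : ∀ i, i ≠ i0 → d i = l := by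
    intro i hi
    rw [hd]
    simp [hi]
  have hdet : (Matrix.diagonal d).det = 1 := by
    rw [Matrix.det_diagonal, hd, Finset.prod_ite, Finset.prod_const, Finset.prod_const,
      Finset.filter_eq', if_pos (Finset.mem_univ i0), Finset.card_singleton, pow_one,
      Finset.filter_ne', Finset.card_erase_of_mem (Finset.mem_univ i0), Finset.card_univ,
      Fintype.card_fin]
    have h1 : -l * l ^ (n - 1) = -(l ^ n) := by
      have h3 : n = (n - 1) + 1 := by omega
      conv_rhs => rw [h3, pow_succ]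
      ring
    rw [h1, hln, neg_neg]
  have hdetne : (Matrix.diagonal d).det ≠ 0 := by
    rw [hdet]
    exact one_ne_zero
  obtain ⟨x, hx⟩ : ∃ x : GL (Fin n) F, (x : Matrix (Fin n) (Fin n) F) = Matrix.diagonal d :=
    ⟨Matrix.GeneralLinearGroup.mkOfDetNeZero (Matrix.diagonal d) hdetne, rfl⟩
  have hdpow : ∀ i, d i ^ (q + 1) = 1 := by
    intro i
    by_cases hi : i = i0
    · rw [hi, hd0]
      obtain ⟨k, hk⟩ := hq
      have h3 : q + 1 = 2 * (k + 1) := by omega
      have h4 : (-l) ^ (q + 1) = l ^ (q + 1) := by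
        rw [h3, pow_mul, pow_mul, neg_sq]
      rw [h4, hl]
    · rw [hd1 i hi, hl]
  have hsingle : ∀ v : Fin n → F, hermForm n F q v (Pi.single i0 1) = v i0 := by
    intro v
    unfold Cfsg.hermForm
    rw [Finset.sum_eq_single i0]
    · rw [Pi.single_eq_same, one_pow, mul_one]
    · intro j _ hj
      rw [Pi.single_eq_of_ne hj, zero_pow hq0, mul_zero]
    · intro hcon
      exact absurd (Finset.mem_univ i0) hcon
  have hGU : x ∈ GU n F q := by
    show ∀ u v : Fin n → F, hermForm n F q ((x : Matrix (Fin n) (Fin n) F) *ᵥ u)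
      ((x : Matrix (Fin n) (Fin n) F) *ᵥ v) = hermForm n F q u v
    intro u v
    rw [hx]
    unfold Cfsg.hermForm
    refine Finset.sum_congr rfl (fun i _ => ?_)
    rw [Matrix.mulVec_diagonal, Matrix.mulVec_diagonal, mul_pow]
    have h3 : d i * u i * (d i ^ q * v i ^ q) = d i ^ (q + 1) * (u i * v i ^ q) := by ring
    rw [h3, hdpow i, one_mul]
  have hmv : ∀ v, (x : Matrix (Fin n) (Fin n) F) *ᵥ v
      = l • v + hermForm n F q v (Pi.single i0 1) • ((-2 * l) • (Pi.single i0 1 : Fin n → F)) := by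
    intro v
    rw [hx, hsingle]
    ext j
    rw [Matrix.mulVec_diagonal]
    by_cases hj : j = i0
    · rw [hj, hd0]
      simp
      ring
    · rw [hd1 j hj]
      simp [hj]
  refine ⟨x, Pi.single i0 1, ?_, hGU, ?_, ?_, ?_, hmv⟩
  · intro h
    have h1 := congrFun h i0
    simp at h1
  · apply mem_SL_of_det
    rw [hx]
    exact hdet
  · rw [Units.val_pow_eq_pow_val, hx, Matrix.diagonal_pow]
    ext i j
    by_cases hij : i = j
    · subst hij
      rw [Matrix.diagonal_apply_eq, Matrix.smul_apply, Matrix.one_apply_eq, smul_eq_mul, mul_one,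
        Pi.pow_apply]
      by_cases hi : i = i0
      · rw [hi, hd0, neg_sq]
      · rw [hd1 i hi]
    · rw [Matrix.diagonal_apply_ne _ hij, Matrix.smul_apply, Matrix.one_apply_ne hij, smul_zero]
  · intro z hz
    rw [hx] at hz
    have h3 := congrFun (congrFun hz i0) i0
    have h4 := congrFun (congrFun hz i1) i1
    rw [Matrix.diagonal_apply_eq, Matrix.smul_apply, Matrix.one_apply_eq, smul_eq_mul, mul_one]
      at h3 h4
    rw [hd0] at h3
    rw [hd1 i1 hi01] at h4
    apply hl0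
    have h5 : (2 : F) * l = 0 := by linear_combination h4 - h3
    rcases mul_eq_zero.1 h5 with h6 | h6
    · exact absurd h6 h2
    · exact h6

end Cfsg.Agent.Helper31
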