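import Mathlib
import Cfsg.Agent.Helper94.ULag
import Cfsg.Agent.Helper94.USub
import Cfsg.Agent.Helper94.UK
import Cfsg.Agent.Helper97.UNot
import Cfsg.Agent.Helper5.UnitSU

set_option autoImplicit false
open Cfsg Cfsg.Geo Matrix
open Cfsg.Agent.Helper94
open scoped MatrixGroups

namespace Cfsg.Agent.Helper31

universe u

variable {F : Type u} [Field F] {ι : Type} [Fintype ι] [DecidableEq ι]
variable {σ : F ≃+* F} {f : (ι → F) → (ι → F) → F}


/-- RK1 -/
theorem bu_rank_one (h : UF σ f) (hn : 2 < Fintype.card ι) {c : ι → F} (hc0 : c ≠ 0) {l μ : F}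
    (hl : l ≠ 0) (hμ : μ ≠ 0) (x : Matrix ι ι F) (hx : ∀ v, x *ᵥ v = l • v + f v c • (μ • c))
    {W W' : Submodule F (ι → F)} (p : ULagPair f W W') :
    ¬ (((∀ a ∈ W, x *ᵥ a ∈ W) ∧ (∀ b ∈ W', x *ᵥ b ∈ W')) ∨
       ((∀ a ∈ W, x *ᵥ a ∈ W') ∧ (∀ b ∈ W', x *ᵥ b ∈ W))) := by
  classical
  -- the two generic halves, for a ULagPair `(A, B)`
  have fixhalf : ∀ {A B : Submodule F (ι → F)}, ULagPair f A B → (∀ a ∈ A, x *ᵥ a ∈ A) →
      ∀ a ∈ A, f a c = 0 := by
    intro A B q hA a ha
    by_contra hne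
    have h1 : f a c • (μ • c) ∈ A := by
      have h2 : f a c • (μ • c) = x *ᵥ a - l • a := by
        rw [hx a]
        abel
      rw [h2]
      exact A.sub_mem (hA a ha) (A.smul_mem l ha)
    have hcA : c ∈ A := by
      have h3 : c = (f a c * μ)⁻¹ • (f a c • (μ • c)) := by
        rw [smul_smul, smul_smul, mul_assoc, inv_mul_cancel₀ (mul_ne_zero hne hμ), one_smul]
      rw [h3]
      exact A.smul_mem _ h1
    exact hne (q.isoA a ha c hcA)
  have swaphalf : ∀ {A B : Submodule F (ι → F)}, ULagPair f A B → (∀ a ∈ A, x *ᵥ a ∈ B) →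
      Module.finrank F A ≤ 1 := by
    intro A B q hA
    let φ : (ι → F) →ₗ[F] F :=
      { toFun := fun v => f v c
        map_add' := fun v w => h.add_left v w c
        map_smul' := fun t v => h.smul_left t v c }
    have hinj : Function.Injective (φ.comp A.subtype) := by
      rw [← LinearMap.ker_eq_bot, LinearMap.ker_eq_bot']
      intro a ha0
      have ha0' : f (a : ι → F) c = 0 := ha0
      have h1 : l • (a : ι → F) ∈ B := by
        have h2 := hA a a.2
        rw [hx, ha0', zero_smul, add_zero] at h2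
        exact h2
      have h3 : (a : ι → F) ∈ B := by
        have h4 : (a : ι → F) = l⁻¹ • (l • (a : ι → F)) := by
          rw [smul_smul, inv_mul_cancel₀ hl, one_smul]
        rw [h4]
        exact B.smul_mem _ h1
      exact Subtype.ext (q.disj _ a.2 h3)
    have h5 := LinearMap.finrank_le_finrank_of_injective hinj
    rw [Module.finrank_self] at h5
    exact h5
  rintro (⟨hW, hW'⟩ | ⟨hW, hW'⟩)
  · obtain ⟨v, hv⟩ := h.nondeg c hc0
    obtain ⟨a, ha, b, hb, rfl⟩ := p.dec v
    apply hv
    rw [h.add_left, fixhalf p hW a ha, fixhalf p.symm hW' b hb, add_zero]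
  · have h1 := swaphalf p hW
    have h2 := swaphalf p.symm hW'
    have htop : W ⊔ W' = ⊤ := by
      rw [eq_top_iff]
      intro v _
      obtain ⟨a, ha, b, hb, rfl⟩ := p.dec v
      exact Submodule.add_mem_sup ha hb
    have h3 := Submodule.finrank_add_le_finrank_add_finrank W W'
    rw [htop, finrank_top, Module.finrank_fintype_fun_eq_card] at h3
    omega

end Cfsg.Agent.Helper31
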