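import Mathlib
import Cfsg.Agent.Helper94.ULag
import Cfsg.Agent.Helper94.USub
import Cfsg.Agent.Helper94.UK
import Cfsg.Agent.Helper97.UNot
import Cfsg.Agent.Helper5.UnitSU

set_option autoImplicit false
open Cfsg Cfsg.Geo Matrix
open Cfsg.Agent.Helper94
open scoped MatrixGroups

namespace Cfsg.Agent.Helper31

universe u

variable {F : Type u} [Field F] {ι : Type} [Fintype ι] [DecidableEq ι]
variable {σ : F ≃+* F} {f : (ι → F) → (ι → F) → F}


/-- TVX -/
theorem bu_transvection (h : UF σ f) {p : ℕ} [CharP F p] {c : ι → F} (hc0 : c ≠ 0)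
    (hc : f c c = 0) :
    ∃ (x : GL ι F) (ν : F), ν ≠ 0 ∧ x ∈ isoGL f ∧ x ∈ specialLinear ι F ∧ x ^ p = 1 ∧
      (∀ z : F, (x : Matrix ι ι F) ≠ z • (1 : Matrix ι ι F)) ∧
      ∀ v, (x : Matrix ι ι F) *ᵥ v = (1 : F) • v + f v c • (ν • c) := by
  classical
  obtain ⟨ν', hν'0, hν'⟩ := uf_exists_tr0 σ h.invol h.ne_id
  have hσν0 : σ ν' ≠ 0 := (map_ne_zero σ).2 hν'0
  have h0 : f c (ν' • c) = 0 := by rw [h.smul_right, hc, mul_zero]
  have hmv : ∀ v, ((tvh f c (ν' • c) : GL ι F) : Matrix ι ι F) *ᵥ v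
      = (1 : F) • v + f v c • (σ ν' • c) := by
    intro v
    rw [h.tvh_mulVec h0, h.smul_right, one_smul, smul_smul, mul_comm]
  have hpow : ∀ j : ℕ, (tvh f c (ν' • c)) ^ j = tvh f c ((j : F) • (ν' • c)) := by
    intro j
    induction j with
    | zero => rw [pow_zero, Nat.cast_zero, zero_smul, h.tvh_zero]
    | succ j ih =>
      have h1 : f c ((j : F) • (ν' • c)) = 0 := by rw [h.smul_right, h0, mul_zero]
      rw [pow_succ, ih, h.tvh_mul h1 h0, Nat.cast_succ, add_smul, one_smul]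
  refine ⟨tvh f c (ν' • c), σ ν', hσν0, h.tvh_unitary_iso hc hν', tvh_mem_SL _ _ _, ?_, ?_, hmv⟩
  · rw [hpow, CharP.cast_eq_zero, zero_smul, h.tvh_zero]
  · intro z hz
    obtain ⟨v, hv⟩ := h.exists_eq_one hc0
    have h1 := hmv c
    rw [hz, hc, zero_smul, add_zero, one_smul, Matrix.smul_mulVec, Matrix.one_mulVec] at h1
    have hz1 : z = 1 := by
      by_contra hne
      apply hc0
      have h2 : (z - 1) • c = 0 := by rw [sub_smul, one_smul, h1, sub_self]
      rcases smul_eq_zero.1 h2 with h3 | h3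
      · exact absurd (sub_eq_zero.1 h3) hne
      · exact h3
    have h4 := hmv v
    rw [hz, hz1, hv] at h4
    simp only [one_smul, Matrix.one_mulVec] at h4
    have h5 : σ ν' • c = 0 := by
      have h6 : v + σ ν' • c = v + 0 := by rw [add_zero]; exact h4.symm
      exact add_left_cancel h6
    rcases smul_eq_zero.1 h5 with h7 | h7
    · exact hσν0 h7
    · exact hc0 h7

end Cfsg.Agent.Helper31
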