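import Mathlib
import Cfsg.Agent.Helper98.C2Defs

set_option autoImplicit false

namespace Cfsg.Agent.Helper31.C2B3

open Matrix Cfsg.Agent.Helper98.C2
open scoped MatrixGroups

variable {K : Type*} [Field K]

theorem tv01 (c : K) : Matrix.transvection (0 : Fin 3) 1 c = !![1, c, 0; 0, 1, 0; 0, 0, 1] := by
  ext i j; fin_cases i <;> fin_cases j <;> simp [Matrix.transvection]

theorem tv02 (c : K) : Matrix.transvection (0 : Fin 3) 2 c = !![1, 0, c; 0, 1, 0; 0, 0, 1] := by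
  ext i j; fin_cases i <;> fin_cases j <;> simp [Matrix.transvection]

/-- If `g = U * h` with `g h ∈ X`, then `g * h⁻¹ ∈ X` has matrix `U`. -/
theorem quot_val (X : Subgroup (GL (Fin 3) K)) (g h : GL (Fin 3) K) (hg : g ∈ X) (hh : h ∈ X)
    (U : Matrix (Fin 3) (Fin 3) K) (e : g.1 = U * h.1) :
    g * h⁻¹ ∈ X ∧ (g * h⁻¹).1 = U := by
  refine ⟨X.mul_mem hg (X.inv_mem hh), ?_⟩
  have h1 : ((g * h⁻¹ : GL (Fin 3) K)).1 = g.1 * (h⁻¹).1 := rfl
  have h2 : h.1 * (h⁻¹).1 = 1 := h.mul_inv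
  rw [h1, e, Matrix.mul_assoc, h2, Matrix.mul_one]

/-- diagonal elements of `GL₃`. -/
def dg (a b c : K) (ha : a ≠ 0) (hb : b ≠ 0) (hc : c ≠ 0) : GL (Fin 3) K :=
  ⟨!![a, 0, 0; 0, b, 0; 0, 0, c], !![a⁻¹, 0, 0; 0, b⁻¹, 0; 0, 0, c⁻¹], by
    ext i j; fin_cases i <;> fin_cases j <;>
      simp [Matrix.mul_apply, Fin.sum_univ_three, ha, hb, hc], by
    ext i j; fin_cases i <;> fin_cases j <;>
      simp [Matrix.mul_apply, Fin.sum_univ_three, ha, hb, hc]⟩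

theorem dg_val (a b c : K) (ha : a ≠ 0) (hb : b ≠ 0) (hc : c ≠ 0) :
    (dg a b c ha hb hc).1 = !![a, 0, 0; 0, b, 0; 0, 0, c] := rfl

theorem dg_mono (a b c : K) (ha : a ≠ 0) (hb : b ≠ 0) (hc : c ≠ 0) :
    IsMono (dg a b c ha hb hc).1 := by
  refine ⟨1, ?_⟩
  intro i j hij
  rw [dg_val]
  fin_cases i <;> fin_cases j <;> simp_all

/-- monomiality is preserved by entrywise ring homomorphisms. -/
theorem isMono_map (f : ZMod 5 →+* K) (N : Matrix (Fin 3) (Fin 3) (ZMod 5))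
    (σ : Equiv.Perm (Fin 3)) (hσ : ∀ i j, i ≠ σ j → N i j = 0) : IsMono (N.map f) := by
  refine ⟨σ, fun i j hij => ?_⟩
  rw [Matrix.map_apply, hσ i j hij, map_zero]

/-- explicit units of the matrix ring over `ZMod 5`. -/
def zN0 : GL (Fin 3) (ZMod 5) :=
  ⟨!![0, 0, 1; 0, 1, 0; 1, 0, 0], !![0, 0, 1; 0, 1, 0; 1, 0, 0], by decide, by decide⟩
def zN1 : GL (Fin 3) (ZMod 5) :=
  ⟨!![0, 1, 0; 1, 0, 0; 0, 0, 4], !![0, 1, 0; 1, 0, 0; 0, 0, 4], by decide, by decide⟩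
def zN3 : GL (Fin 3) (ZMod 5) :=
  ⟨!![0, 0, 1; 0, 3, 0; 3, 0, 0], !![0, 0, 2; 0, 2, 0; 1, 0, 0], by decide, by decide⟩
def zN4 : GL (Fin 3) (ZMod 5) :=
  ⟨!![0, 1, 0; 0, 0, 3; 1, 0, 0], !![0, 0, 1; 1, 0, 0; 0, 2, 0], by decide, by decide⟩
def zN6 : GL (Fin 3) (ZMod 5) :=
  ⟨!![0, 0, 1; 0, 1, 0; 4, 0, 0], !![0, 0, 4; 0, 1, 0; 1, 0, 0], by decide, by decide⟩
def zD : GL (Fin 3) (ZMod 5) :=
  ⟨!![1, 0, 0; 0, 0, 4; 0, 4, 0], !![1, 0, 0; 0, 0, 4; 0, 4, 0], by decide, by decide⟩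
def zH : GL (Fin 3) (ZMod 5) :=
  ⟨!![1, 0, 0; 0, 1, 1; 0, 1, 4], !![1, 0, 0; 0, 3, 3; 0, 3, 2], by decide, by decide⟩
def zT : GL (Fin 3) (ZMod 5) :=
  ⟨!![1, 2, 0; 0, 1, 0; 0, 0, 1], !![1, 3, 0; 0, 1, 0; 0, 0, 1], by decide, by decide⟩

theorem zN0_mono : ∀ p : Fin 3 × Fin 3,
    p.1 ≠ Equiv.swap (0 : Fin 3) 2 p.2 → zN0.1 p.1 p.2 = 0 := by decide
theorem zN1_mono : ∀ p : Fin 3 × Fin 3,
    p.1 ≠ Equiv.swap (0 : Fin 3) 1 p.2 → zN1.1 p.1 p.2 = 0 := by decide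
theorem zN3_mono : ∀ p : Fin 3 × Fin 3,
    p.1 ≠ Equiv.swap (0 : Fin 3) 2 p.2 → zN3.1 p.1 p.2 = 0 := by decide
theorem zN4_mono : ∀ p : Fin 3 × Fin 3,
    p.1 ≠ (Equiv.swap (0 : Fin 3) 2 * Equiv.swap (1 : Fin 3) 2) p.2 → zN4.1 p.1 p.2 = 0 := by
  decide
theorem zN6_mono : ∀ p : Fin 3 × Fin 3,
    p.1 ≠ Equiv.swap (0 : Fin 3) 2 p.2 → zN6.1 p.1 p.2 = 0 := by decide
theorem zD_mono : ∀ p : Fin 3 × Fin 3,
    p.1 ≠ Equiv.swap (1 : Fin 3) 2 p.2 → zD.1 p.1 p.2 = 0 := by decide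

/-- the certificate over `ZMod 5`. -/
theorem zcert :
    zN0 * zH * zN1 * zH * zN1 * zH * zN3 * zH * zN4 * zH * zN1 * zH * zN6 * zH = zD * zT := by
  apply Units.ext
  have s1 : zN0.1 * zH.1 = !![0, 1, 4; 0, 1, 1; 1, 0, 0] := by decide
  have s2 : (!![0, 1, 4; 0, 1, 1; 1, 0, 0] : Matrix (Fin 3) (Fin 3) (ZMod 5)) * zN1.1
      = !![1, 0, 1; 1, 0, 4; 0, 1, 0] := by decide
  have s3 : (!![1, 0, 1; 1, 0, 4; 0, 1, 0] : Matrix (Fin 3) (Fin 3) (ZMod 5)) * zH.1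
      = !![1, 1, 4; 1, 4, 1; 0, 1, 1] := by decide
  have s4 : (!![1, 1, 4; 1, 4, 1; 0, 1, 1] : Matrix (Fin 3) (Fin 3) (ZMod 5)) * zN1.1
      = !![1, 1, 1; 4, 1, 4; 1, 0, 4] := by decide
  have s5 : (!![1, 1, 1; 4, 1, 4; 1, 0, 4] : Matrix (Fin 3) (Fin 3) (ZMod 5)) * zH.1
      = !![1, 2, 0; 4, 0, 2; 1, 4, 1] := by decide
  have s6 : (!![1, 2, 0; 4, 0, 2; 1, 4, 1] : Matrix (Fin 3) (Fin 3) (ZMod 5)) * zN3.1
      = !![0, 1, 1; 1, 0, 4; 3, 2, 1] := by decide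
  have s7 : (!![0, 1, 1; 1, 0, 4; 3, 2, 1] : Matrix (Fin 3) (Fin 3) (ZMod 5)) * zH.1
      = !![0, 2, 0; 1, 4, 1; 3, 3, 1] := by decide
  have s8 : (!![0, 2, 0; 1, 4, 1; 3, 3, 1] : Matrix (Fin 3) (Fin 3) (ZMod 5)) * zN4.1
      = !![0, 0, 1; 1, 1, 2; 1, 3, 4] := by decide
  have s9 : (!![0, 0, 1; 1, 1, 2; 1, 3, 4] : Matrix (Fin 3) (Fin 3) (ZMod 5)) * zH.1
      = !![0, 1, 4; 1, 3, 4; 1, 2, 4] := by decide
  have s10 : (!![0, 1, 4; 1, 3, 4; 1, 2, 4] : Matrix (Fin 3) (Fin 3) (ZMod 5)) * zN1.1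
      = !![1, 0, 1; 3, 1, 1; 2, 1, 1] := by decide
  have s11 : (!![1, 0, 1; 3, 1, 1; 2, 1, 1] : Matrix (Fin 3) (Fin 3) (ZMod 5)) * zH.1
      = !![1, 1, 4; 3, 2, 0; 2, 2, 0] := by decide
  have s12 : (!![1, 1, 4; 3, 2, 0; 2, 2, 0] : Matrix (Fin 3) (Fin 3) (ZMod 5)) * zN6.1
      = !![1, 1, 1; 0, 2, 3; 0, 2, 2] := by decide
  have s13 : (!![1, 1, 1; 0, 2, 3; 0, 2, 2] : Matrix (Fin 3) (Fin 3) (ZMod 5)) * zH.1
      = !![1, 2, 0; 0, 0, 4; 0, 4, 0] := by decide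
  have s14 : zD.1 * zT.1 = !![1, 2, 0; 0, 0, 4; 0, 4, 0] := by decide
  simp only [Units.val_mul]
  rw [s1, s2, s3, s4, s5, s6, s7, s8, s9, s10, s11, s12, s13, s14]

/-- PIECE B3 -/
theorem b3_cert [Fintype K] (hq : Fintype.card K = 5)
    (X : Subgroup (GL (Fin 3) K)) (hX : MonLE X)
    (k : GL (Fin 3) K) (hk : k ∈ X) (hk0 : ∀ i, i ≠ 0 → k.1 i 0 = 0)
    (hblk : k.1.submatrix Fin.succ Fin.succ = !![1, 1; 1, -1]) : HasTv X := by
  classical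
  have hp5 : Fact (Nat.Prime 5) := ⟨by norm_num⟩
  have hchar : CharP K 5 := charP_of_card_eq_prime hq
  have h5 : (5 : K) = 0 := by
    have := CharP.cast_eq_zero K 5
    exact_mod_cast this
  have h2 : (2 : K) ≠ 0 := fun h =>
    one_ne_zero (α := K) (by linear_combination h5 - 2 * h)
  have h3 : (3 : K) ≠ 0 := fun h =>
    one_ne_zero (α := K) (by linear_combination 2 * h - h5)
  have h1 : (1 : K) ≠ 0 := one_ne_zero
  -- entries of k
  have e10 : k.1 1 0 = 0 := hk0 1 (by decide)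
  have e20 : k.1 2 0 = 0 := hk0 2 (by decide)
  have e11 : k.1 1 1 = 1 := by
    have := congrFun (congrFun hblk 0) 0
    simpa using this
  have e12 : k.1 1 2 = 1 := by
    have := congrFun (congrFun hblk 0) 1
    simpa using this
  have e21 : k.1 2 1 = 1 := by
    have := congrFun (congrFun hblk 1) 0
    simpa using this
  have e22 : k.1 2 2 = -1 := by
    have := congrFun (congrFun hblk 1) 1
    simpa using this
  obtain ⟨c, hcdef⟩ : ∃ c : K, c = k.1 0 0 := ⟨_, rfl⟩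
  obtain ⟨b1, hb1def⟩ : ∃ b : K, b = k.1 0 1 := ⟨_, rfl⟩
  obtain ⟨b2, hb2def⟩ : ∃ b : K, b = k.1 0 2 := ⟨_, rfl⟩
  have hkmat : k.1 = !![c, b1, b2; 0, 1, 1; 0, 1, -1] := by
    ext i j; fin_cases i <;> fin_cases j <;>
      simp [e10, e20, e11, e12, e21, e22, hcdef, hb1def, hb2def]
  have hc : c ≠ 0 := by
    intro hc0
    have hdet : (k.1).det ≠ 0 := (Matrix.isUnits_det_units k).ne_zero
    apply hdet
    rw [hkmat, Matrix.det_fin_three]
    simp [hc0]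
  -- normalise the corner
  have hd1 : dg c⁻¹ 1 1 (inv_ne_zero hc) h1 h1 ∈ X := hX _ (dg_mono _ _ _ _ _ _)
  obtain ⟨k', hk'X, hk'⟩ : ∃ k' ∈ X, k'.1 = !![1, b1, b2; 0, 1, 1; 0, 1, -1] := by
    refine ⟨k * dg c⁻¹ 1 1 (inv_ne_zero hc) h1 h1, X.mul_mem hk hd1, ?_⟩
    rw [Units.val_mul, hkmat, dg_val]
    ext i j; fin_cases i <;> fin_cases j <;>
      simp [Matrix.mul_apply, Fin.sum_univ_three, hc]
  by_cases hβ : b1 = 0 ∧ b2 = 0
  · -- the certificate case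
    obtain ⟨hb1, hb2⟩ := hβ
    let f : ZMod 5 →+* K := ZMod.castHom (dvd_refl 5) K
    let F : GL (Fin 3) (ZMod 5) →* GL (Fin 3) K := Matrix.GeneralLinearGroup.map f
    have hFval : ∀ g : GL (Fin 3) (ZMod 5), (F g).1 = g.1.map f := fun g => rfl
    have hFH : F zH = k' := by
      apply Units.ext
      rw [hFval, hk', hb1, hb2]
      have hf4 : f 4 = 4 := map_ofNat f 4
      ext i j; fin_cases i <;> fin_cases j <;> simp [zH, hf4]
      -- remaining goal: (4 : K) = -1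
      linear_combination h5
    have hmem : ∀ (g : GL (Fin 3) (ZMod 5)) (σ : Equiv.Perm (Fin 3)),
        (∀ p : Fin 3 × Fin 3, p.1 ≠ σ p.2 → g.1 p.1 p.2 = 0) → F g ∈ X := by
      intro g σ hg
      apply hX
      rw [hFval]
      exact isMono_map f _ σ (fun i j hij => hg (i, j) hij)
    have hprod : F (zD * zT) ∈ X := by
      rw [← zcert]
      simp only [map_mul, hFH]
      have m0 := hmem _ _ zN0_mono
      have m1 := hmem _ _ zN1_mono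
      have m3 := hmem _ _ zN3_mono
      have m4 := hmem _ _ zN4_mono
      have m6 := hmem _ _ zN6_mono
      exact X.mul_mem (X.mul_mem (X.mul_mem (X.mul_mem (X.mul_mem (X.mul_mem (X.mul_mem
        (X.mul_mem (X.mul_mem (X.mul_mem (X.mul_mem (X.mul_mem (X.mul_mem m0 hk'X) m1) hk'X)
        m1) hk'X) m3) hk'X) m4) hk'X) m1) hk'X) m6) hk'X
    have hT : F zT ∈ X := by
      have hD := hmem _ _ zD_mono
      have : F zT = (F zD)⁻¹ * F (zD * zT) := by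
        rw [map_mul, inv_mul_cancel_left]
      rw [this]
      exact X.mul_mem (X.inv_mem hD) hprod
    refine ⟨F zT, hT, 0, 1, by decide, 2, h2, ?_⟩
    rw [hFval, tv01]
    have hf2 : f 2 = 2 := map_ofNat f 2
    ext i j; fin_cases i <;> fin_cases j <;> simp [zT, hf2]
  · -- the commutator case
    have hd2 : dg 2 1 1 h2 h1 h1 ∈ X := hX _ (dg_mono _ _ _ _ _ _)
    obtain ⟨u, huX, hu⟩ : ∃ u ∈ X,
        u.1 = !![1, 2 * (b1 + b2), 2 * (b1 - b2); 0, 1, 0; 0, 0, 1] := by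
      obtain ⟨hm, hv⟩ := quot_val X (k' * dg 2 1 1 h2 h1 h1) (dg 2 1 1 h2 h1 h1 * k')
        (X.mul_mem hk'X hd2) (X.mul_mem hd2 hk'X)
        !![1, 2 * (b1 + b2), 2 * (b1 - b2); 0, 1, 0; 0, 0, 1] (by
          rw [Units.val_mul, Units.val_mul, hk', dg_val]
          ext i j; fin_cases i <;> fin_cases j <;>
            simp [Matrix.mul_apply, Fin.sum_univ_three]
          · linear_combination (-b1) * h5
          · linear_combination (-b2) * h5)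
      exact ⟨_, hm, hv⟩
    by_cases hx : 2 * (b1 + b2) = 0
    · have hy : 2 * (b1 - b2) ≠ 0 := by
        intro hy
        apply hβ
        have hs : b1 + b2 = 0 := by
          rcases mul_eq_zero.1 hx with h | h
          · exact absurd h h2
          · exact h
        have hd : b1 - b2 = 0 := by
          rcases mul_eq_zero.1 hy with h | h
          · exact absurd h h2
          · exact h
        have hb1 : 2 * b1 = 0 := by linear_combination hs + hd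
        have hb1' : b1 = 0 := by
          rcases mul_eq_zero.1 hb1 with h | h
          · exact absurd h h2
          · exact h
        refine ⟨hb1', ?_⟩
        rw [hb1'] at hs
        simpa using hs
      refine ⟨u, huX, 0, 2, by decide, 2 * (b1 - b2), hy, ?_⟩
      rw [hu, tv02, hx]
    · have hd3 : dg 1 2 1 h1 h2 h1 ∈ X := hX _ (dg_mono _ _ _ _ _ _)
      obtain ⟨hm, hv⟩ := quot_val X (u * dg 1 2 1 h1 h2 h1) (dg 1 2 1 h1 h2 h1 * u)
        (X.mul_mem huX hd3) (X.mul_mem hd3 huX)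
        (Matrix.transvection 0 1 (3 * (2 * (b1 + b2)))) (by
          rw [Units.val_mul, Units.val_mul, hu, dg_val, tv01]
          ext i j; fin_cases i <;> fin_cases j <;>
            simp [Matrix.mul_apply, Fin.sum_univ_three]
          linear_combination (-2 * (b1 + b2)) * h5)
      exact ⟨_, hm, 0, 1, by decide, _, mul_ne_zero h3 hx, hv⟩

end Cfsg.Agent.Helper31.C2B3
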