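import Mathlib
import Cfsg.Agent.Helper43.C3ODefs
import Cfsg.Agent.Helper69.C3OJEX

/-!
# helper31: CALL C3O piece JSUB (JEX on a nondegenerate subspace).
-/

set_option autoImplicit false
set_option linter.unusedSectionVars false

namespace Cfsg.Agent.Helper31

open Matrix Module Polynomial
open Cfsg.Agent.Helper43.C3O

universe u

section quad

variable {F : Type u} [Field F] [Fintype F] {ι : Type} [Fintype ι] [DecidableEq ι]

/-- PIECE JSUB -/
theorem c3o_jsub (h2 : (2 : F) ≠ 0) (Q : QuadraticForm F (ι → F)) (W : Submodule F (ι → F))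
    (hW : ∀ w ∈ W, (∀ w' ∈ W, QuadraticMap.polar ⇑Q w w' = 0) → w = 0)
    (hev : Even (Module.finrank F W)) (n : F) :
    ∃ J : W →ₗ[F] W, (∀ w, J (J w) = n • w) ∧
      ∀ u v : W, QuadraticMap.polar ⇑Q (J u : ι → F) (v : ι → F) =
        QuadraticMap.polar ⇑Q (u : ι → F) (J v : ι → F) := by
  obtain ⟨B, hB⟩ : ∃ B : LinearMap.BilinForm F W, ∀ x y : W, B x y
      = QuadraticMap.polar ⇑Q (x : ι → F) (y : ι → F) :=
    ⟨LinearMap.BilinForm.restrict (QuadraticMap.polarBilin Q : LinearMap.BilinForm F (ι → F)) W,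
      fun x y => rfl⟩
  have hsep : ∀ x : W, (∀ y : W, B x y = 0) → x = 0 := by
    intro x hx
    apply Subtype.ext
    apply hW x.1 x.2
    intro w' hw'
    have h := hx ⟨w', hw'⟩
    rw [hB] at h
    exact h
  have hsymm : ∀ x y : W, B x y = B y x := by
    intro x y
    rw [hB, hB, QuadraticMap.polar_comm]
  have hnd : B.Nondegenerate := by
    refine ⟨hsep, ?_⟩
    intro y hy
    apply hsep
    intro x
    rw [hsymm]
    exact hy x
  have hs : B.IsSymm := LinearMap.BilinForm.isSymm_def.mpr hsymm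
  obtain ⟨J, hJ1, hJ2⟩ := Helper69.c3o_jex h2 B hnd hs hev n
  refine ⟨J, hJ1, ?_⟩
  intro u v
  have h := hJ2 u v
  rw [hB, hB] at h
  exact h

end quad

end Cfsg.Agent.Helper31
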