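import Mathlib
import Cfsg.Agent.Helper43.C3ODefs
import Cfsg.Agent.Helper45.Spinor

/-!
# helper31: CALL C3O piece OMODD (an isometry of odd order lies in `Ω`).
-/

set_option autoImplicit false

namespace Cfsg.Agent.Helper31

open Matrix Module Polynomial
open Cfsg.Agent.Helper43.C3O

universe u

section quad

variable {F : Type u} [Field F] [Fintype F] {ι : Type} [Fintype ι] [DecidableEq ι]

/-- PIECE OMODD -/
theorem c3o_omodd (h2 : (2 : F) ≠ 0) (Q : QuadraticForm F (ι → F))
    (hQ : (QuadraticMap.polarBilin Q).Nondegenerate) (hcard : 2 ≤ Fintype.card ι)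
    (g : ↥(Cfsg.isometryGroup F ⇑Q)) (r : ℕ) (hr : Odd r) (hg : g ^ r = 1) :
    g ∈ Cfsg.Omega F ⇑Q := by
  obtain ⟨ε, hε⟩ := FiniteField.exists_nonsquare (Helper45.ringChar_ne_two h2)
  rw [Helper45.mem_omega_iff Q h2 hQ hcard ε hε]
  have key : ∀ φ : ↥(Cfsg.isometryGroup F ⇑Q) →* ℤˣ, φ g = 1 := by
    intro φ
    have h1 : φ g ^ r = 1 := by rw [← map_pow, hg, map_one]
    rcases Int.units_eq_one_or (φ g) with h | h
    · exact h
    · rw [h, Odd.neg_one_pow hr] at h1
      exact absurd h1 (by decide)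
  exact ⟨key _, key _⟩

end quad

end Cfsg.Agent.Helper31
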