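import Mathlib
import Cfsg.Prelude.Def_ClassicalGeometry
import Cfsg.Agent.Helper94.SpGen

/-!
# helper31: CALL S5976 piece ONB1 (a `J`-invariant nondegenerate subspace contains a vector of
`J`-norm `1`).
-/

set_option autoImplicit false

namespace Cfsg.Agent.Helper31

open Matrix Module

/-- PIECE ONB1 -/
theorem c3u_onb1 {F : Type*} [Field F] [Fintype F] (h2 : (2 : F) ≠ 0) (d : ℕ) (n : F)
    (hn : ¬ IsSquare n) (J : Matrix (Fin d ⊕ Fin d) (Fin d ⊕ Fin d) F)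
    (hJ2 : J * J = n • (1 : Matrix (Fin d ⊕ Fin d) (Fin d ⊕ Fin d) F))
    (hJs : ∀ u v, Cfsg.sympForm d F (J *ᵥ u) v = - Cfsg.sympForm d F u (J *ᵥ v))
    (W : Submodule F (Fin d ⊕ Fin d → F)) (hJW : ∀ w ∈ W, J *ᵥ w ∈ W)
    (hWnd : ∀ w ∈ W, (∀ w' ∈ W, Cfsg.sympForm d F w w' = 0) → w = 0) (hW : W ≠ ⊥) :
    ∃ e ∈ W, Cfsg.sympForm d F e (J *ᵥ e) = 1 := by
  classical
  have hn0 : n ≠ 0 := by
    rintro rfl
    exact hn ⟨0, by ring⟩
  have hJJ : ∀ v, J *ᵥ (J *ᵥ v) = n • v := by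
    intro v
    rw [Matrix.mulVec_mulVec, hJ2, Matrix.smul_mulVec, Matrix.one_mulVec]
  have hsym : ∀ u v, Cfsg.sympForm d F u (J *ᵥ v) = Cfsg.sympForm d F v (J *ᵥ u) := by
    intro u v
    have h1 := hJs u v
    have h2' := Helper94.sf_swap (J *ᵥ u) v
    linear_combination h1 - h2'
  obtain ⟨v, hvW, hv⟩ : ∃ v ∈ W, Cfsg.sympForm d F v (J *ᵥ v) ≠ 0 := by
    by_contra hcon
    have hiso : ∀ v ∈ W, Cfsg.sympForm d F v (J *ᵥ v) = 0 := by
      intro v hv
      by_contra h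
      exact hcon ⟨v, hv, h⟩
    have hpol : ∀ u ∈ W, ∀ v ∈ W, Cfsg.sympForm d F u (J *ᵥ v) = 0 := by
      intro u hu v hv
      have h1 := hiso (u + v) (W.add_mem hu hv)
      rw [Matrix.mulVec_add, Helper94.sf_add_left, Helper94.sf_add_right, Helper94.sf_add_right,
        hiso u hu, hiso v hv, hsym v u] at h1
      have h3 : (2 : F) * Cfsg.sympForm d F u (J *ᵥ v) = 0 := by linear_combination h1
      rcases mul_eq_zero.mp h3 with h | h
      · exact absurd h h2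
      · exact h
    obtain ⟨w, hwW, hw0⟩ := (Submodule.ne_bot_iff W).mp hW
    apply hw0
    apply hWnd w hwW
    intro w' hw'
    have h1 : w' = J *ᵥ (n⁻¹ • (J *ᵥ w')) := by
      rw [Matrix.mulVec_smul, hJJ, smul_smul, inv_mul_cancel₀ hn0, one_smul]
    rw [h1]
    exact hpol w hwW _ (W.smul_mem _ (hJW w' hw'))
  have hodd : Fintype.card F % 2 = 1 := FiniteField.odd_card_of_char_ne_two (by
    intro h
    apply h2
    have h5 := CharP.cast_eq_zero F (ringChar F)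
    rw [h] at h5
    exact_mod_cast h5)
  obtain ⟨c, hc⟩ : ∃ c : F, c = Cfsg.sympForm d F v (J *ᵥ v) := ⟨_, rfl⟩
  rw [← hc] at hv
  obtain ⟨a, b, hab⟩ := FiniteField.exists_root_sum_quadratic
    (f := Polynomial.X ^ 2 - Polynomial.C c⁻¹) (g := Polynomial.C (-n) * Polynomial.X ^ 2)
    (Polynomial.degree_X_pow_sub_C (by norm_num) _)
    (Polynomial.degree_C_mul_X_pow 2 (neg_ne_zero.mpr hn0)) hodd
  simp only [Polynomial.eval_sub, Polynomial.eval_pow, Polynomial.eval_X, Polynomial.eval_C,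
    Polynomial.eval_mul] at hab
  refine ⟨a • v + b • (J *ᵥ v), W.add_mem (W.smul_mem _ hvW) (W.smul_mem _ (hJW v hvW)), ?_⟩
  rw [Matrix.mulVec_add, Matrix.mulVec_smul, Matrix.mulVec_smul, hJJ]
  simp only [Helper94.sf_add_left, Helper94.sf_add_right, Helper94.sf_smul_left,
    Helper94.sf_smul_right, Helper94.sf_self]
  have h4 : Cfsg.sympForm d F (J *ᵥ v) v = - Cfsg.sympForm d F v (J *ᵥ v) := hJs v v
  rw [h4, ← hc]
  have hcc : c * c⁻¹ = 1 := mul_inv_cancel₀ hv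
  linear_combination c * hab + hcc

end Cfsg.Agent.Helper31
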