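import Mathlib
import Cfsg.Prelude.Def_GeometricClasses
import Cfsg.Prelude.Def_ClassicalGeometry
import Cfsg.Agent.Helper94.SpGen
import Cfsg.Agent.Helper94.SpSwap

/-!
# helper31: CALL S5976 piece R1 (a symplectic involution commutes with a skew-adjoint square
root of `n`).
-/

set_option autoImplicit false

namespace Cfsg.Agent.Helper31

open Matrix Module

theorem r1_mat_ext {ι : Type*} [Fintype ι] [DecidableEq ι] {F : Type*} [Field F]
    (M N : Matrix ι ι F) (h : ∀ v, M *ᵥ v = N *ᵥ v) : M = N :=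
  Matrix.mulVec_injective (funext h)

theorem r1_core {F : Type*} [Field F] (d : ℕ) (n : F) {I : Type} [Fintype I] [DecidableEq I]
    (X : Matrix (Fin d ⊕ Fin d) (Fin d ⊕ Fin d) F) (E Fv : I → Fin d ⊕ Fin d → F) (ε : I → F)
    (hEF : ∀ i j, Cfsg.sympForm d F (E i) (Fv j) = if i = j then 1 else 0)
    (hEE : ∀ i j, Cfsg.sympForm d F (E i) (E j) = 0)
    (hFF : ∀ i j, Cfsg.sympForm d F (Fv i) (Fv j) = 0)
    (hrec : ∀ y, y = ∑ i, (Cfsg.sympForm d F y (Fv i) • E i - Cfsg.sympForm d F y (E i) • Fv i))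
    (hadj : ∀ u v, Cfsg.sympForm d F (X *ᵥ u) v = Cfsg.sympForm d F u (X *ᵥ v))
    (hXE : ∀ i, X *ᵥ E i = ε i • E i) (hXF : ∀ i, X *ᵥ Fv i = ε i • Fv i) :
    ∃ J' : Matrix (Fin d ⊕ Fin d) (Fin d ⊕ Fin d) F,
      J' * J' = n • (1 : Matrix (Fin d ⊕ Fin d) (Fin d ⊕ Fin d) F) ∧
      (∀ u v, Cfsg.sympForm d F (J' *ᵥ u) v = - Cfsg.sympForm d F u (J' *ᵥ v)) ∧
      X * J' = J' * X := by
  classical
  have hFE : ∀ i j, Cfsg.sympForm d F (Fv i) (E j) = if i = j then -1 else 0 := by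
    intro i j
    rw [Helper94.sf_swap, hEF j i]
    by_cases h : i = j
    · subst h
      simp
    · rw [if_neg h, if_neg (fun h' => h h'.symm), neg_zero]
  obtain ⟨J', hJ'⟩ : ∃ J' : Matrix (Fin d ⊕ Fin d) (Fin d ⊕ Fin d) F, ∀ y, J' *ᵥ y =
      ∑ i, (Cfsg.sympForm d F y (Fv i) • Fv i - (n * Cfsg.sympForm d F y (E i)) • E i) := by
    refine ⟨∑ i, (Matrix.vecMulVec (Fv i) (Matrix.J (Fin d) F *ᵥ Fv i)
      - n • Matrix.vecMulVec (E i) (Matrix.J (Fin d) F *ᵥ E i)), ?_⟩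
    intro y
    rw [Matrix.sum_mulVec]
    refine Finset.sum_congr rfl fun i _ => ?_
    rw [Matrix.sub_mulVec, Matrix.smul_mulVec, Matrix.vecMulVec_mulVec, Matrix.vecMulVec_mulVec,
      op_smul_eq_smul, op_smul_eq_smul, smul_smul,
      dotProduct_comm (Matrix.J (Fin d) F *ᵥ Fv i) y, dotProduct_comm (Matrix.J (Fin d) F *ᵥ E i) y]
    rfl
  have hfJF : ∀ y i, Cfsg.sympForm d F (J' *ᵥ y) (Fv i) = -(n * Cfsg.sympForm d F y (E i)) := by
    intro y i
    rw [hJ', Helper94.sf_sum_left]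
    simp [Helper94.sf_sub_left, Helper94.sf_smul_left, hFF, hEF]
  have hfJE : ∀ y i, Cfsg.sympForm d F (J' *ᵥ y) (E i) = -Cfsg.sympForm d F y (Fv i) := by
    intro y i
    rw [hJ', Helper94.sf_sum_left]
    simp [Helper94.sf_sub_left, Helper94.sf_smul_left, hEE, hFE]
  refine ⟨J', ?_, ?_, ?_⟩
  · apply r1_mat_ext
    intro y
    rw [← Matrix.mulVec_mulVec, hJ' (J' *ᵥ y), Matrix.smul_mulVec, Matrix.one_mulVec]
    simp only [hfJF, hfJE]
    conv_rhs => rw [hrec y]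
    rw [Finset.smul_sum]
    refine Finset.sum_congr rfl fun i _ => ?_
    module
  · intro u v
    rw [hJ' u, hJ' v, Helper94.sf_sum_left, Helper94.sf_sum_right, ← Finset.sum_neg_distrib]
    refine Finset.sum_congr rfl fun i _ => ?_
    simp only [Helper94.sf_sub_left, Helper94.sf_sub_right, Helper94.sf_smul_left,
      Helper94.sf_smul_right]
    rw [Helper94.sf_swap v (Fv i), Helper94.sf_swap v (E i)]
    ring
  · apply r1_mat_ext
    intro y
    rw [← Matrix.mulVec_mulVec, ← Matrix.mulVec_mulVec, hJ' y, hJ' (X *ᵥ y), Matrix.mulVec_sum]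
    refine Finset.sum_congr rfl fun i _ => ?_
    rw [Matrix.mulVec_sub, Matrix.mulVec_smul, Matrix.mulVec_smul, hXE, hXF, hadj, hadj, hXE, hXF,
      Helper94.sf_smul_right, Helper94.sf_smul_right]
    module

/-- The eigenspace `{v | X v = ε v}`. -/
def r1Eig {F : Type*} [Field F] (d : ℕ) (X : Matrix (Fin d ⊕ Fin d) (Fin d ⊕ Fin d) F) (ε : F) :
    Submodule F (Fin d ⊕ Fin d → F) where
  carrier := {v | X *ᵥ v = ε • v}
  add_mem' := by
    intro a b ha hb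
    have ha' : X *ᵥ a = ε • a := ha
    have hb' : X *ᵥ b = ε • b := hb
    show X *ᵥ (a + b) = ε • (a + b)
    rw [Matrix.mulVec_add, ha', hb', smul_add]
  zero_mem' := by
    show X *ᵥ 0 = ε • 0
    rw [Matrix.mulVec_zero, smul_zero]
  smul_mem' := by
    intro c a ha
    have ha' : X *ᵥ a = ε • a := ha
    show X *ᵥ (c • a) = ε • (c • a)
    rw [Matrix.mulVec_smul, ha', smul_comm]

theorem r1Eig_nondeg {F : Type*} [Field F] (h2 : (2 : F) ≠ 0) (d : ℕ)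
    (X : Matrix (Fin d ⊕ Fin d) (Fin d ⊕ Fin d) F)
    (hXv : ∀ v, X *ᵥ (X *ᵥ v) = v)
    (hadj : ∀ u v, Cfsg.sympForm d F (X *ᵥ u) v = Cfsg.sympForm d F u (X *ᵥ v))
    (ε : F) (hε : ε * ε = 1) :
    Cfsg.Geo.IsNondegenerateOn (Cfsg.sympForm d F) (r1Eig d X ε) := by
  intro w hw hw0
  have hw' : X *ᵥ w = ε • w := hw
  obtain ⟨y, hy⟩ := Helper94.sf_exists_ne w hw0
  have hz : (2⁻¹ : F) • (y + ε • X *ᵥ y) ∈ r1Eig d X ε := by
    show X *ᵥ ((2⁻¹ : F) • (y + ε • X *ᵥ y)) = ε • ((2⁻¹ : F) • (y + ε • X *ᵥ y))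
    rw [Matrix.mulVec_smul, Matrix.mulVec_add, Matrix.mulVec_smul, hXv]
    rw [smul_comm ε, smul_add ε, smul_smul, hε, one_smul, add_comm]
  have hval : Cfsg.sympForm d F w ((2⁻¹ : F) • (y + ε • X *ᵥ y)) = Cfsg.sympForm d F w y := by
    rw [Helper94.sf_smul_right, Helper94.sf_add_right, Helper94.sf_smul_right, ← hadj, hw',
      Helper94.sf_smul_left]
    have h2' : (2⁻¹ : F) * 2 = 1 := inv_mul_cancel₀ h2
    linear_combination (Cfsg.sympForm d F w y) * h2' + (2⁻¹ * Cfsg.sympForm d F w y) * hε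
  refine ⟨⟨_, hz, ?_⟩, ⟨_, hz, ?_⟩⟩
  · rw [Helper94.sf_swap, hval]
    exact neg_ne_zero.mpr hy
  · rw [hval]
    exact hy

/-- PIECE R1: involutions -/
theorem c3u_r1 {F : Type*} [Field F] (h2 : (2 : F) ≠ 0) (d : ℕ) (n : F)
    (x : GL (Fin d ⊕ Fin d) F) (hx : x ∈ Cfsg.spGL d F)
    (hx2 : ((x ^ 2 : GL (Fin d ⊕ Fin d) F) : Matrix (Fin d ⊕ Fin d) (Fin d ⊕ Fin d) F) = 1) :
    ∃ J' : Matrix (Fin d ⊕ Fin d) (Fin d ⊕ Fin d) F,
      J' * J' = n • (1 : Matrix (Fin d ⊕ Fin d) (Fin d ⊕ Fin d) F) ∧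
      (∀ u v, Cfsg.sympForm d F (J' *ᵥ u) v = - Cfsg.sympForm d F u (J' *ᵥ v)) ∧
      (x : Matrix (Fin d ⊕ Fin d) (Fin d ⊕ Fin d) F) * J' =
        J' * (x : Matrix (Fin d ⊕ Fin d) (Fin d ⊕ Fin d) F) := by
  classical
  obtain ⟨X, hXdef⟩ : ∃ X : Matrix (Fin d ⊕ Fin d) (Fin d ⊕ Fin d) F,
      X = (x : Matrix (Fin d ⊕ Fin d) (Fin d ⊕ Fin d) F) := ⟨_, rfl⟩
  rw [← hXdef]
  have hXX : X * X = 1 := by rw [hXdef, ← hx2, pow_two, Units.val_mul]
  have hXv : ∀ v, X *ᵥ (X *ᵥ v) = v := fun v => by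
    rw [Matrix.mulVec_mulVec, hXX, Matrix.one_mulVec]
  have hpres : ∀ u v, Cfsg.sympForm d F (X *ᵥ u) (X *ᵥ v) = Cfsg.sympForm d F u v := by
    rw [hXdef]
    exact (Helper94.mem_spGL_iff x).mp hx
  have hadj : ∀ u v, Cfsg.sympForm d F (X *ᵥ u) v = Cfsg.sympForm d F u (X *ᵥ v) := by
    intro u v
    have h := hpres u (X *ᵥ v)
    rw [hXv] at h
    exact h
  have hneg : (-1 : F) * (-1) = 1 := by ring
  obtain ⟨np, ep, fp, hepV, hfpV, hefp, heep, hffp, hrecp, -⟩ :=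
    Helper94.exists_hyp_basis (r1Eig d X 1) (r1Eig_nondeg h2 d X hXv hadj 1 (one_mul 1))
  obtain ⟨nm, em, fm, hemV, hfmV, hefm, heem, hffm, hrecm, -⟩ :=
    Helper94.exists_hyp_basis (r1Eig d X (-1)) (r1Eig_nondeg h2 d X hXv hadj (-1) hneg)
  have horth : ∀ a ∈ r1Eig d X 1, ∀ b ∈ r1Eig d X (-1), Cfsg.sympForm d F a b = 0 := by
    intro a ha b hb
    have ha' : X *ᵥ a = (1 : F) • a := ha
    have hb' : X *ᵥ b = (-1 : F) • b := hb
    have h := hpres a b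
    rw [ha', hb', one_smul, neg_one_smul, Helper94.sf_neg_right] at h
    have h3 : (2 : F) * Cfsg.sympForm d F a b = 0 := by linear_combination -h
    rcases mul_eq_zero.mp h3 with h' | h'
    · exact absurd h' h2
    · exact h'
  have horth' : ∀ a ∈ r1Eig d X 1, ∀ b ∈ r1Eig d X (-1), Cfsg.sympForm d F b a = 0 := by
    intro a ha b hb
    rw [Helper94.sf_swap, horth a ha b hb, neg_zero]
  have hdec : ∀ y : Fin d ⊕ Fin d → F, ∃ yp ∈ r1Eig d X 1, ∃ ym ∈ r1Eig d X (-1),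
      y = yp + ym := by
    intro y
    refine ⟨(2⁻¹ : F) • (y + X *ᵥ y), ?_, (2⁻¹ : F) • (y - X *ᵥ y), ?_, ?_⟩
    · show X *ᵥ ((2⁻¹ : F) • (y + X *ᵥ y)) = (1 : F) • ((2⁻¹ : F) • (y + X *ᵥ y))
      rw [Matrix.mulVec_smul, Matrix.mulVec_add, hXv, one_smul, add_comm]
    · show X *ᵥ ((2⁻¹ : F) • (y - X *ᵥ y)) = (-1 : F) • ((2⁻¹ : F) • (y - X *ᵥ y))
      rw [Matrix.mulVec_smul, Matrix.mulVec_sub, hXv, neg_one_smul, ← smul_neg, neg_sub]
    · rw [← smul_add, add_add_sub_cancel, ← two_smul F y, smul_smul, inv_mul_cancel₀ h2, one_smul]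
  have hrec : ∀ y : Fin d ⊕ Fin d → F, y =
      ∑ i : Fin np ⊕ Fin nm, (Cfsg.sympForm d F y (Sum.elim fp fm i) • Sum.elim ep em i
        - Cfsg.sympForm d F y (Sum.elim ep em i) • Sum.elim fp fm i) := by
    intro y
    obtain ⟨yp, hyp, ym, hym, rfl⟩ := hdec y
    rw [Fintype.sum_sum_type]
    simp only [Sum.elim_inl, Sum.elim_inr]
    have h1 := hrecp yp hyp
    have h2' := hrecm ym hym
    have e1 : ∀ r, Cfsg.sympForm d F (yp + ym) (fp r) = Cfsg.sympForm d F yp (fp r) := fun r => by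
      rw [Helper94.sf_add_left, horth' (fp r) (hfpV r) ym hym, add_zero]
    have e2 : ∀ r, Cfsg.sympForm d F (yp + ym) (ep r) = Cfsg.sympForm d F yp (ep r) := fun r => by
      rw [Helper94.sf_add_left, horth' (ep r) (hepV r) ym hym, add_zero]
    have e3 : ∀ r, Cfsg.sympForm d F (yp + ym) (fm r) = Cfsg.sympForm d F ym (fm r) := fun r => by
      rw [Helper94.sf_add_left, horth yp hyp (fm r) (hfmV r), zero_add]
    have e4 : ∀ r, Cfsg.sympForm d F (yp + ym) (em r) = Cfsg.sympForm d F ym (em r) := fun r => by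
      rw [Helper94.sf_add_left, horth yp hyp (em r) (hemV r), zero_add]
    simp only [e1, e2, e3, e4]
    exact congrArg₂ (· + ·) h1 h2'
  refine r1_core d n X (Sum.elim ep em) (Sum.elim fp fm)
    (Sum.elim (fun _ => (1 : F)) (fun _ => (-1 : F))) ?_ ?_ ?_ hrec hadj ?_ ?_
  · rintro (r | r) (s | s)
    · simpa using hefp r s
    · simpa using horth (ep r) (hepV r) (fm s) (hfmV s)
    · simpa using horth' (fp s) (hfpV s) (em r) (hemV r)
    · simpa using hefm r s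
  · rintro (r | r) (s | s)
    · simpa using heep r s
    · simpa using horth (ep r) (hepV r) (em s) (hemV s)
    · simpa using horth' (ep s) (hepV s) (em r) (hemV r)
    · simpa using heem r s
  · rintro (r | r) (s | s)
    · simpa using hffp r s
    · simpa using horth (fp r) (hfpV r) (fm s) (hfmV s)
    · simpa using horth' (fp s) (hfpV s) (fm r) (hfmV r)
    · simpa using hffm r s
  · rintro (r | r)
    · exact hepV r
    · exact hemV r
  · rintro (r | r)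
    · exact hfpV r
    · exact hfmV r

end Cfsg.Agent.Helper31
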