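import Mathlib

/-!
# helper31: CALL S5976 piece TH (the quadratic extension `K' = F(θ)`, `θ² = n` a non-square).
-/

set_option autoImplicit false

namespace Cfsg.Agent.Helper31

open Matrix Module

/-- PIECE TH -/
theorem c3u_th {F : Type*} [Field F] [Fintype F] (n : F) (hn : ¬ IsSquare n)
    (K' : Type*) [Field K'] [Fintype K'] [Algebra F K']
    (hK' : Fintype.card K' = Fintype.card F ^ 2) (θ : K') (hθ : θ * θ = algebraMap F K' n) :
    (∀ c : K', ∃ a b : F, c = algebraMap F K' a + algebraMap F K' b * θ) ∧
    (∀ a b : F, algebraMap F K' a + algebraMap F K' b * θ = 0 → a = 0 ∧ b = 0) ∧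
    θ ^ Fintype.card F = -θ := by
  classical
  have hinj : Function.Injective (algebraMap F K') := (algebraMap F K').injective
  have h2 : ∀ a b : F, algebraMap F K' a + algebraMap F K' b * θ = 0 → a = 0 ∧ b = 0 := by
    intro a b hab
    have hb : b = 0 := by
      by_contra hb
      apply hn
      refine ⟨-a / b, ?_⟩
      apply hinj
      have hb' : algebraMap F K' b ≠ 0 := fun h => hb (hinj (by rw [h, map_zero]))
      have hθe : θ = algebraMap F K' (-a / b) := by
        rw [map_div₀, map_neg]
        field_simp
        linear_combination hab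
      rw [map_mul, ← hθe, hθ]
    subst hb
    rw [map_zero, zero_mul, add_zero] at hab
    exact ⟨hinj (by rw [hab, map_zero]), rfl⟩
  have h1 : ∀ c : K', ∃ a b : F, c = algebraMap F K' a + algebraMap F K' b * θ := by
    have hφ : Function.Injective
        (fun p : F × F => algebraMap F K' p.1 + algebraMap F K' p.2 * θ) := by
      rintro ⟨a, b⟩ ⟨a', b'⟩ h
      have h' : algebraMap F K' (a - a') + algebraMap F K' (b - b') * θ = 0 := by
        simp only at h
        rw [map_sub, map_sub]
        linear_combination h
      obtain ⟨e1, e2⟩ := h2 _ _ h'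
      rw [sub_eq_zero] at e1 e2
      rw [e1, e2]
    have hbij : Function.Bijective
        (fun p : F × F => algebraMap F K' p.1 + algebraMap F K' p.2 * θ) := by
      rw [Fintype.bijective_iff_injective_and_card]
      refine ⟨hφ, ?_⟩
      rw [Fintype.card_prod, hK', sq]
    intro c
    obtain ⟨⟨a, b⟩, hab⟩ := hbij.2 c
    exact ⟨a, b, hab.symm⟩
  refine ⟨h1, h2, ?_⟩
  have hsq : (θ ^ Fintype.card F) * (θ ^ Fintype.card F) = θ * θ := by
    rw [← mul_pow, hθ, ← map_pow, FiniteField.pow_card]
  have hfac : (θ ^ Fintype.card F - θ) * (θ ^ Fintype.card F + θ) = 0 := by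
    linear_combination hsq
  rcases mul_eq_zero.mp hfac with h | h
  · exfalso
    have hq1 : 1 < Fintype.card F := Fintype.one_lt_card
    have hp0 : (Polynomial.X ^ Fintype.card F - Polynomial.X : Polynomial K') ≠ 0 :=
      FiniteField.X_pow_card_sub_X_ne_zero K' hq1
    have hdeg := FiniteField.X_pow_card_sub_X_natDegree_eq K' hq1
    have hθnot : θ ∉ Finset.univ.image (algebraMap F K') := by
      intro hmem
      obtain ⟨a, -, ha⟩ := Finset.mem_image.mp hmem
      have h4 := h2 (-a) 1 (by rw [map_neg, map_one, one_mul, ha]; ring)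
      exact one_ne_zero h4.2
    have hsub : (insert θ (Finset.univ.image (algebraMap F K'))).val ⊆
        (Polynomial.X ^ Fintype.card F - Polynomial.X : Polynomial K').roots := by
      intro z hz
      rw [Finset.mem_val, Finset.mem_insert] at hz
      rw [Polynomial.mem_roots hp0, Polynomial.IsRoot.def, Polynomial.eval_sub,
        Polynomial.eval_pow, Polynomial.eval_X]
      rcases hz with rfl | hz
      · exact h
      · obtain ⟨a, -, rfl⟩ := Finset.mem_image.mp hz
        rw [← map_pow, FiniteField.pow_card, sub_self]
    have hcard := Polynomial.card_le_degree_of_subset_roots hsub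
    rw [Finset.card_insert_of_notMem hθnot, Finset.card_image_of_injective _ hinj,
      Finset.card_univ, hdeg] at hcard
    omega
  · exact eq_neg_of_add_eq_zero_left h

end Cfsg.Agent.Helper31
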