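import Cfsg.Agent.Helper46.Gross2ClaimA

set_option autoImplicit false

namespace Cfsg.Agent.Helper31

open Cfsg.Agent.Helper46 Cfsg.Agent.Helper63.Gross2 Cfsg.Agent.Helper63.Gross
  Cfsg.Agent.Helper63.Fpf4 Cfsg.Agent.Helper63.Shult

universe u

attribute [local instance] Cfsg.Agent.Helper46.g2c_fit_normal

/-- COMBINE -/
theorem g2c_combine {G : Type u} [Group G] [Finite G] (M C : Subgroup G) [M.Normal] [C.Normal]
    (hMC : ∀ c ∈ C, ∀ x ∈ M, x * c = c * x) :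
    (Cfsg.fittingSubgroup (G ⧸ C)).comap (QuotientGroup.mk' C) ⊓
      (g2cFit2 (G ⧸ M)).comap (QuotientGroup.mk' M) ≤ g2cFit2 G := by
  haveI hF2n : (g2cFit2 (G ⧸ M)).Normal := g2c_fit2_normal (G ⧸ M)
  obtain ⟨N, hN⟩ : ∃ N : Subgroup G, N = (Cfsg.fittingSubgroup (G ⧸ C)).comap (QuotientGroup.mk' C) ⊓
      (g2cFit2 (G ⧸ M)).comap (QuotientGroup.mk' M) := ⟨_, rfl⟩
  rw [← hN]
  haveI hNn : N.Normal := by
    rw [hN]
    infer_instance
  obtain ⟨N₁, hN₁def⟩ : ∃ N₁ : Subgroup G,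
      N₁ = C ⊓ (Cfsg.fittingSubgroup (G ⧸ M)).comap (QuotientGroup.mk' M) := ⟨_, rfl⟩
  have hN₁mem : ∀ g, g ∈ N₁ ↔ g ∈ C ∧ (g : G ⧸ M) ∈ Cfsg.fittingSubgroup (G ⧸ M) := by
    intro g
    rw [hN₁def]
    rfl
  have hN₁n : N₁.Normal := by
    rw [hN₁def]
    infer_instance
  have hnilF : Group.IsNilpotent ↥(Cfsg.fittingSubgroup (G ⧸ M)) :=
    Cfsg.Agent.Helper22.fittingSubgroup_isNilpotent (G ⧸ M)
  have hN₁nil : Group.IsNilpotent ↥N₁ := by
    let f : ↥N₁ →* ↥(Cfsg.fittingSubgroup (G ⧸ M)) :=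
      ((QuotientGroup.mk' M).comp N₁.subtype).codRestrict _ (fun x => ((hN₁mem x).mp x.2).2)
    haveI := hnilF
    refine Subgroup.isNilpotent_of_ker_le_center f ?_
    intro x hx
    rw [MonoidHom.mem_ker] at hx
    have hxM : (x : G) ∈ M := by
      have h1 := congrArg Subtype.val hx
      exact (QuotientGroup.eq_one_iff _).mp h1
    rw [Subgroup.mem_center_iff]
    intro y
    have hyC : (y : G) ∈ C := ((hN₁mem y).mp y.2).1
    have h2 := hMC _ hyC _ hxM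
    exact Subtype.ext h2.symm
  have hN₁F : N₁ ≤ Cfsg.fittingSubgroup G :=
    Cfsg.Agent.Helper22.le_fittingSubgroup_of_isSubnormal hN₁n.isSubnormal hN₁nil
  obtain ⟨k₁, hk₁⟩ : ∃ k₁, ((Cfsg.fittingSubgroup (G ⧸ C)).comap
      (QuotientGroup.mk' C)).lowerCentralSeries k₁ ≤ C := by
    obtain ⟨k, hk⟩ := (Subgroup.isNilpotent_iff_lowerCentralSeries _).mp
      (Cfsg.Agent.Helper22.fittingSubgroup_isNilpotent (G ⧸ C))
    refine ⟨k, ?_⟩
    have h1 := g2c_lcs_comap (QuotientGroup.mk' C) (Cfsg.fittingSubgroup (G ⧸ C)) ⊥ k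
      (le_of_eq hk)
    rw [MonoidHom.comap_bot, QuotientGroup.ker_mk'] at h1
    exact h1
  obtain ⟨k₂, hk₂⟩ : ∃ k₂, ((g2cFit2 (G ⧸ M)).comap (QuotientGroup.mk' M)).lowerCentralSeries k₂ ≤
      (Cfsg.fittingSubgroup (G ⧸ M)).comap (QuotientGroup.mk' M) := by
    obtain ⟨k, hk⟩ := g2c_fit2_lcs (G := G ⧸ M)
    exact ⟨k, g2c_lcs_comap (QuotientGroup.mk' M) _ _ k hk⟩
  have hiv : N.lowerCentralSeries (max k₁ k₂) ≤ N₁ := by
    rw [hN₁def]
    apply le_inf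
    · refine ((Subgroup.lowerCentralSeries_antitone N (le_max_left k₁ k₂)).trans
        (g2c_lcs_mono ?_ k₁)).trans hk₁
      rw [hN]
      exact inf_le_left
    · refine ((Subgroup.lowerCentralSeries_antitone N (le_max_right k₁ k₂)).trans
        (g2c_lcs_mono ?_ k₂)).trans hk₂
      rw [hN]
      exact inf_le_right
  exact g2c_le_fit2 N N₁ hN₁F (max k₁ k₂) hiv

end Cfsg.Agent.Helper31
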