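import Cfsg.Agent.Helper46.Gross2ClaimA

set_option autoImplicit false

namespace Cfsg.Agent.Helper31

open Cfsg.Agent.Helper46 Cfsg.Agent.Helper63.Gross2 Cfsg.Agent.Helper63.Gross
  Cfsg.Agent.Helper63.Fpf4 Cfsg.Agent.Helper63.Shult

universe u

attribute [local instance] Cfsg.Agent.Helper46.g2c_fit_normal

/-- the three-layer input in the quotient by the centralizer -/
theorem g2c_comm_of_group (HG : GroupStmt.{u}) {G : Type u} [Group G] [Finite G]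
    (σ : MulAut G) (n : ℕ) (hσ : σ ^ 2 ^ (n + 1) = 1) (hfpf : ∀ g, σ g = g → g = 1)
    (M : Subgroup G) [M.Normal] (hMσ : ∀ x ∈ M, σ x ∈ M)
    (hMab : ∀ x ∈ M, ∀ y ∈ M, x * y = y * x)
    (ℓ : ℕ) (hℓ : ℓ.Prime) (hℓ2 : ℓ ≠ 2) (hMℓ : ∀ x ∈ M, x ^ ℓ = 1)
    (C : Subgroup G) [C.Normal] (hC : C = Subgroup.centralizer (M : Set G))
    (hCmap : C.map σ.toMonoidHom = C)
    (q r : ℕ) (hq : q.Prime) (hr : r.Prime) (hq2 : q ≠ 2) (hr2 : r ≠ 2) (hqr : q ≠ r)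
    (hqℓ : q ≠ ℓ)
    (S : Subgroup (G ⧸ C)) (hS : IsPGroup r S)
    (hSσ : ∀ s ∈ S, QuotientGroup.congr C C σ hCmap s ∈ S)
    (s : G ⧸ C) (hs : s ∈ S) (t : G ⧸ C) (ht : t ∈ Cfsg.pCore q (G ⧸ C)) :
    (s⁻¹ * ((QuotientGroup.congr C C σ hCmap : MulAut (G ⧸ C)) ^ 2 ^ n) s) * t =
      t * (s⁻¹ * ((QuotientGroup.congr C C σ hCmap : MulAut (G ⧸ C)) ^ 2 ^ n) s) := by
  obtain ⟨g, rfl⟩ := QuotientGroup.mk_surjective s
  obtain ⟨u, rfl⟩ := QuotientGroup.mk_surjective t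
  have hσCmk : ∀ x : G, QuotientGroup.congr C C σ hCmap (x : G ⧸ C) = ((σ x : G) : G ⧸ C) :=
    fun x => congr_mk' σ C hCmap x
  have hCmem : ∀ c, c ∈ C ↔ ∀ x ∈ M, x * c = c * x := by
    intro c
    rw [hC, Subgroup.mem_centralizer_iff]
    rfl
  have hpn : (Cfsg.pCore q (G ⧸ C)).Normal := by
    haveI := Cfsg.Agent.Helper22.pCore_characteristic q (G ⧸ C)
    exact Subgroup.normal_of_characteristic _
  have hMn : M.Normal := inferInstance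
  have hnorm : ∀ x : G, x ∈ Subgroup.normalizer (M : Set G) := by
    intro x
    rw [Subgroup.mem_normalizer_iff]
    intro h
    constructor
    · intro hh
      exact hMn.conj_mem h hh x
    · intro hh
      have h1 := hMn.conj_mem _ hh x⁻¹
      have h2 : x⁻¹ * (x * h * x⁻¹) * x⁻¹⁻¹ = h := by group
      rwa [h2] at h1
  have hQc : ∀ x ∈ (Cfsg.pCore q (G ⧸ C)).comap (QuotientGroup.mk' C),
      ∃ k : ℕ, x ^ q ^ k ∈ Subgroup.centralizer (M : Set G) := by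
    intro x hx
    obtain ⟨k, hk⟩ := (Cfsg.Agent.Helper22.pCore_isPGroup q (G ⧸ C)) ⟨(x : G ⧸ C), hx⟩
    refine ⟨k, ?_⟩
    rw [← hC]
    have h1 : ((x : G ⧸ C)) ^ q ^ k = 1 := congrArg Subtype.val hk
    exact (QuotientGroup.eq_one_iff _).mp h1
  have hRc : ∀ x ∈ S.comap (QuotientGroup.mk' C),
      ∃ k : ℕ, x ^ r ^ k ∈ Subgroup.centralizer (M : Set G) := by
    intro x hx
    obtain ⟨k, hk⟩ := hS ⟨(x : G ⧸ C), hx⟩
    refine ⟨k, ?_⟩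
    rw [← hC]
    have h1 : ((x : G ⧸ C)) ^ r ^ k = 1 := congrArg Subtype.val hk
    exact (QuotientGroup.eq_one_iff _).mp h1
  have hRQ : ∀ a ∈ S.comap (QuotientGroup.mk' C),
      ∀ b ∈ (Cfsg.pCore q (G ⧸ C)).comap (QuotientGroup.mk' C),
      a * b * a⁻¹ ∈ (Cfsg.pCore q (G ⧸ C)).comap (QuotientGroup.mk' C) := by
    intro a _ b hb
    show QuotientGroup.mk' C (a * b * a⁻¹) ∈ Cfsg.pCore q (G ⧸ C)
    rw [map_mul, map_mul, map_inv]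
    exact hpn.conj_mem _ hb _
  have hQσ : ∀ x ∈ (Cfsg.pCore q (G ⧸ C)).comap (QuotientGroup.mk' C),
      σ x ∈ (Cfsg.pCore q (G ⧸ C)).comap (QuotientGroup.mk' C) := by
    intro x hx
    show ((σ x : G) : G ⧸ C) ∈ Cfsg.pCore q (G ⧸ C)
    rw [← hσCmk]
    exact g2c_pcore_aut q (QuotientGroup.congr C C σ hCmap : MulAut (G ⧸ C)) _ hx
  have hRσ : ∀ x ∈ S.comap (QuotientGroup.mk' C), σ x ∈ S.comap (QuotientGroup.mk' C) := by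
    intro x hx
    show ((σ x : G) : G ⧸ C) ∈ S
    rw [← hσCmk]
    exact hSσ _ hx
  have key := HG G ℓ q r hℓ hq hr hℓ2 hq2 hr2 (Ne.symm hqℓ) hqr σ n hσ hfpf
    ((Cfsg.pCore q (G ⧸ C)).comap (QuotientGroup.mk' C)) (S.comap (QuotientGroup.mk' C)) M
    hMab hMℓ (fun x _ => hnorm x) (fun x _ => hnorm x) hQc hRc hRQ hQσ hRσ hMσ g hs u ht
  have hcC : (g⁻¹ * (σ ^ 2 ^ n) g) * u * (g⁻¹ * (σ ^ 2 ^ n) g)⁻¹ * u⁻¹ ∈ C :=
    (hCmem _).mpr (fun x hx => (key x hx).symm)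
  have hc1 : (((g⁻¹ * (σ ^ 2 ^ n) g) * u * (g⁻¹ * (σ ^ 2 ^ n) g)⁻¹ * u⁻¹ : G) : G ⧸ C) = 1 :=
    (QuotientGroup.eq_one_iff _).mpr hcC
  rw [congr_pow_mk σ C hCmap (2 ^ n) g]
  obtain ⟨k, hk⟩ : ∃ k : G ⧸ C, k = (g : G ⧸ C)⁻¹ * (((σ ^ 2 ^ n) g : G) : G ⧸ C) := ⟨_, rfl⟩
  have hc2 : k * (u : G ⧸ C) * k⁻¹ * (u : G ⧸ C)⁻¹ = 1 := by
    rw [hk]
    exact hc1
  rw [← hk]
  calc k * (u : G ⧸ C) = (k * (u : G ⧸ C) * k⁻¹ * (u : G ⧸ C)⁻¹) * ((u : G ⧸ C) * k) := by group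
    _ = (u : G ⧸ C) * k := by rw [hc2, one_mul]

end Cfsg.Agent.Helper31
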