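import Mathlib
import Cfsg.Agent.Lead.H581Defs

/-!
# CALL S4221 (lead), PIECE A1: degrees 4 and 5
-/

set_option autoImplicit false

namespace Cfsg.Agent.Helper31.H581A1

open Cfsg.Agent.Lead.H581 Equiv

variable {α : Type*} [Fintype α] [DecidableEq α]

/-- PIECE A1 -/
theorem eq_top_of_card_le_five (G : Subgroup (Perm α)) (h : ℕ) (H : Hyp G h)
    (hn : Fintype.card α = 4 ∨ Fintype.card α = 5) : G = ⊤ := by
  classical
  rw [eq_top_iff]
  intro σ _
  have hn4 : 4 ≤ Fintype.card α := by omega
  obtain ⟨x⟩ : Nonempty (Fin 4 ↪ α) := Function.Embedding.nonempty_of_card_le (by simpa using hn4)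
  have hne : ∀ i j : Fin 4, i ≠ j → x i ≠ x j := fun i j hij h => hij (x.injective h)
  have hd : Dist4 (x 0) (x 1) (x 2) (x 3) := by
    refine ⟨?_, ?_, ?_, ?_, ?_, ?_⟩ <;> exact hne _ _ (by decide)
  have hd' : Dist4 (σ (x 0)) (σ (x 1)) (σ (x 2)) (σ (x 3)) := by
    refine ⟨?_, ?_, ?_, ?_, ?_, ?_⟩ <;> intro h <;> exact hne _ _ (by decide) (σ.injective h)
  obtain ⟨g, hg, h0, h1, h2, h3⟩ := H.trans _ _ _ _ _ _ _ _ hd hd'
  have hagree : ∀ i : Fin 4, g (x i) = σ (x i) := by
    intro i
    fin_cases i
    · exact h0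
    · exact h1
    · exact h2
    · exact h3
  -- the complement of the four points has at most one element
  have hAcard : (Finset.univ.map x).card = 4 := by
    rw [Finset.card_map, Finset.card_univ, Fintype.card_fin]
  have hBcard : (Finset.univ \ Finset.univ.map x).card ≤ 1 := by
    rw [Finset.card_sdiff_of_subset (Finset.subset_univ _), hAcard, Finset.card_univ]
    omega
  have hmemA : ∀ y : α, y ∈ Finset.univ.map x ↔ ∃ i, x i = y := by
    intro y
    simp
  have key : ∀ y : α, g y = σ y := by
    intro y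
    by_cases hy : y ∈ Finset.univ.map x
    · obtain ⟨i, rfl⟩ := (hmemA y).mp hy
      exact hagree i
    · -- both `g y` and `σ y` lie outside the image of the four points under `σ`
      have hgy : σ⁻¹ (g y) ∉ Finset.univ.map x := by
        intro hmem
        obtain ⟨i, hi⟩ := (hmemA _).mp hmem
        apply hy
        rw [hmemA]
        refine ⟨i, ?_⟩
        apply g.injective
        rw [hagree, hi]
        simp
      have e := Finset.card_le_one.mp hBcard (σ⁻¹ (g y))
        (Finset.mem_sdiff.mpr ⟨Finset.mem_univ _, hgy⟩) y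
        (Finset.mem_sdiff.mpr ⟨Finset.mem_univ _, hy⟩)
      have := congrArg σ e
      simpa using this
  have : g = σ := Equiv.ext key
  rw [← this]
  exact hg

end Cfsg.Agent.Helper31.H581A1
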