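import Mathlib
import Cfsg.Agent.Lead.H581Defs

/-!
# CALL S4221 (lead), PIECE A3c: counting the points of a four-group of permutations
-/

set_option autoImplicit false

namespace Cfsg.Agent.Helper31.H581A3c

open Cfsg.Agent.Lead.H581 Equiv

variable {α : Type*} [Fintype α] [DecidableEq α]

/-- PIECE A3c -/
theorem four_group_count (y₁ y₂ : Perm α) (h1 : y₁ * y₁ = 1) (h2 : y₂ * y₂ = 1) (hc : y₁ * y₂ = y₂ * y₁) :
    ∃ r : ℕ, Fintype.card α + 2 * (Finset.univ.filter (fun x => y₁ x = x ∧ y₂ x = x)).card =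
        nfix y₁ + nfix y₂ + nfix (y₁ * y₂) + 4 * r ∧ 4 * r = (regPts y₁ y₂).card := by
  have a1 : ∀ x, y₁ (y₁ x) = x := fun x => by
    have := congrArg (fun f : Perm α => f x) h1
    simpa using this
  have a2 : ∀ x, y₂ (y₂ x) = x := fun x => by
    have := congrArg (fun f : Perm α => f x) h2
    simpa using this
  have cm : ∀ x, y₁ (y₂ x) = y₂ (y₁ x) := fun x => by
    have := congrArg (fun f : Perm α => f x) hc
    simpa using this
  have m12 : ∀ x, (y₁ * y₂) x = y₁ (y₂ x) := fun x => rfl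
  -- the pointwise count
  have key : ∀ x : α, 1 + 2 * (if (y₁ x = x ∧ y₂ x = x) then 1 else 0) =
      (if y₁ x = x then 1 else 0) + (if y₂ x = x then 1 else 0) +
        (if (y₁ * y₂) x = x then 1 else 0) +
        (if (y₁ x ≠ x ∧ y₂ x ≠ x ∧ (y₁ * y₂) x ≠ x) then 1 else 0) := by
    intro x
    simp only [m12]
    by_cases hx1 : y₁ x = x
    · by_cases hx2 : y₂ x = x
      · have hx3 : y₁ (y₂ x) = x := by rw [hx2, hx1]
        simp [hx1, hx2, hx3]
      · have hx3 : y₁ (y₂ x) ≠ x := by
          intro h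
          apply hx2
          have : y₁ (y₁ (y₂ x)) = y₁ x := by rw [h]
          rw [a1, hx1] at this
          exact this
        simp [hx1, hx2, hx3]
    · by_cases hx2 : y₂ x = x
      · have hx3 : y₁ (y₂ x) ≠ x := by
          rw [hx2]
          exact hx1
        simp [hx1, hx2, hx3]
      · by_cases hx3 : y₁ (y₂ x) = x
        · simp [hx1, hx2, hx3]
        · simp [hx1, hx2, hx3]
  have hcount : Fintype.card α + 2 * (Finset.univ.filter (fun x => y₁ x = x ∧ y₂ x = x)).card =
      nfix y₁ + nfix y₂ + nfix (y₁ * y₂) + (regPts y₁ y₂).card := by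
    unfold nfix regPts
    rw [← Finset.card_univ, Finset.card_eq_sum_ones, Finset.card_filter, Finset.card_filter,
      Finset.card_filter, Finset.card_filter, Finset.card_filter, Finset.mul_sum,
      ← Finset.sum_add_distrib, ← Finset.sum_add_distrib, ← Finset.sum_add_distrib,
      ← Finset.sum_add_distrib]
    exact Finset.sum_congr rfl (fun x _ => key x)
  -- the regular points come in orbits of length four
  have hmemR : ∀ x, x ∈ regPts y₁ y₂ ↔ y₁ x ≠ x ∧ y₂ x ≠ x ∧ y₁ (y₂ x) ≠ x := by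
    intro x
    constructor
    · intro h
      exact (Finset.mem_filter.mp h).2
    · intro h
      exact Finset.mem_filter.mpr ⟨Finset.mem_univ _, h⟩
  obtain ⟨orb, horb⟩ : ∃ orb : α → Finset α, ∀ x, orb x = {x, y₁ x, y₂ x, y₁ (y₂ x)} := ⟨_, fun _ => rfl⟩
  have horb1 : ∀ x, orb (y₁ x) = orb x := by
    intro x
    rw [horb, horb, a1, ← cm, a1]
    ext z
    simp only [Finset.mem_insert, Finset.mem_singleton]
    tauto
  have horb2 : ∀ x, orb (y₂ x) = orb x := by
    intro x
    rw [horb, horb, a2]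
    ext z
    simp only [Finset.mem_insert, Finset.mem_singleton]
    tauto
  have hR1 : ∀ x, x ∈ regPts y₁ y₂ → y₁ x ∈ regPts y₁ y₂ := by
    intro x hx
    rw [hmemR] at hx ⊢
    obtain ⟨p1, p2, p3⟩ := hx
    refine ⟨?_, ?_, ?_⟩
    · rw [a1]; exact fun h => p1 h.symm
    · rw [← cm]
      intro h
      exact p2 (y₁.injective h)
    · rw [← cm, a1]
      intro h
      apply p3
      rw [h, a1]
  have hR2 : ∀ x, x ∈ regPts y₁ y₂ → y₂ x ∈ regPts y₁ y₂ := by
    intro x hx
    rw [hmemR] at hx ⊢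
    obtain ⟨p1, p2, p3⟩ := hx
    refine ⟨?_, ?_, ?_⟩
    · intro h
      rw [cm] at h
      exact p1 (y₂.injective h)
    · rw [a2]; exact fun h => p2 h.symm
    · rw [a2]
      intro h
      apply p3
      rw [cm, h, a2]
  have hcard4 : ∀ x, x ∈ regPts y₁ y₂ → (orb x).card = 4 := by
    intro x hx
    rw [hmemR] at hx
    obtain ⟨p1, p2, p3⟩ := hx
    rw [horb]
    have n1 : x ∉ ({y₁ x, y₂ x, y₁ (y₂ x)} : Finset α) := by
      simp only [Finset.mem_insert, Finset.mem_singleton, not_or]
      exact ⟨fun h => p1 h.symm, fun h => p2 h.symm, fun h => p3 h.symm⟩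
    have n2 : y₁ x ∉ ({y₂ x, y₁ (y₂ x)} : Finset α) := by
      simp only [Finset.mem_insert, Finset.mem_singleton, not_or]
      refine ⟨?_, ?_⟩
      · intro h
        apply p3
        rw [← h, a1]
      · intro h
        exact p2 (y₁.injective h).symm
    have n3 : y₂ x ∉ ({y₁ (y₂ x)} : Finset α) := by
      simp only [Finset.mem_singleton]
      intro h
      rw [cm] at h
      exact p1 (y₂.injective h).symm
    rw [Finset.card_insert_of_notMem n1, Finset.card_insert_of_notMem n2,
      Finset.card_insert_of_notMem n3, Finset.card_singleton]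
  have hfib : ∀ x₀, x₀ ∈ regPts y₁ y₂ →
      (regPts y₁ y₂).filter (fun x => orb x = orb x₀) = orb x₀ := by
    intro x₀ hx₀
    ext x
    rw [Finset.mem_filter]
    constructor
    · rintro ⟨-, hx⟩
      rw [← hx, horb]
      simp
    · intro hx
      rw [horb] at hx
      simp only [Finset.mem_insert, Finset.mem_singleton] at hx
      rcases hx with rfl | rfl | rfl | rfl
      · exact ⟨hx₀, rfl⟩
      · exact ⟨hR1 _ hx₀, horb1 _⟩
      · exact ⟨hR2 _ hx₀, horb2 _⟩
      · exact ⟨hR1 _ (hR2 _ hx₀), by rw [horb1, horb2]⟩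
  have hR4 : 4 * ((regPts y₁ y₂).image orb).card = (regPts y₁ y₂).card := by
    rw [Finset.card_eq_sum_card_fiberwise (f := orb) (t := (regPts y₁ y₂).image orb)
      (fun x hx => Finset.mem_image_of_mem orb hx)]
    have : ∀ O ∈ (regPts y₁ y₂).image orb, ((regPts y₁ y₂).filter (fun x => orb x = O)).card = 4 := by
      intro O hO
      obtain ⟨x₀, hx₀, rfl⟩ := Finset.mem_image.mp hO
      rw [hfib x₀ hx₀, hcard4 x₀ hx₀]
    rw [Finset.sum_congr rfl this, Finset.sum_const, smul_eq_mul, mul_comm]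
  exact ⟨((regPts y₁ y₂).image orb).card, by rw [hR4]; exact hcount, hR4⟩

end Cfsg.Agent.Helper31.H581A3c
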