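import Mathlib
import Cfsg.Agent.Lead.H581Defs

/-!
# CALL S4221 (lead), PIECE E0: the order of a sharply-4-transitive-like group
-/

set_option autoImplicit false

namespace Cfsg.Agent.Helper31.H581E0

open Cfsg.Agent.Lead.H581 Equiv

variable {α : Type*} [Fintype α] [DecidableEq α]

theorem dist4_of_emb (x : Fin 4 ↪ α) : Dist4 (x 0) (x 1) (x 2) (x 3) := by
  refine ⟨?_, ?_, ?_, ?_, ?_, ?_⟩ <;> intro h <;> exact absurd (x.injective h) (by decide)

/-- PIECE E0 -/
theorem card_eq (G : Subgroup (Perm α)) (h : ℕ) (H : Hyp G h) (hn : 4 ≤ Fintype.card α) :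
    Nat.card G = Fintype.card α * (Fintype.card α - 1) * (Fintype.card α - 2) * (Fintype.card α - 3) * h := by
  classical
  obtain ⟨x₀⟩ : Nonempty (Fin 4 ↪ α) := Function.Embedding.nonempty_of_card_le (by simpa using hn)
  have hd := dist4_of_emb x₀
  have hsm : ∀ (g : G) (x : Fin 4 ↪ α) (i : Fin 4), (g • x) i = (g : Perm α) (x i) := fun g x i => rfl
  have horb : MulAction.orbit G x₀ = Set.univ := by
    ext x
    simp only [Set.mem_univ, iff_true]
    obtain ⟨g, hg, h0, h1, h2, h3⟩ := H.trans _ _ _ _ _ _ _ _ hd (dist4_of_emb x)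
    refine ⟨⟨g, hg⟩, ?_⟩
    ext i
    show ((⟨g, hg⟩ : G) • x₀) i = x i
    rw [hsm]
    fin_cases i
    · exact h0
    · exact h1
    · exact h2
    · exact h3
  have hstab : Nat.card (MulAction.stabilizer G x₀) = h := by
    rw [← H.card _ _ _ _ hd]
    apply Nat.card_congr
    refine
      { toFun := fun g => ⟨(g.1 : Perm α), ⟨g.1.2, ?_, ?_, ?_, ?_⟩⟩
        invFun := fun g => ⟨⟨g.1, (mem_stab4.mp g.2).1⟩, ?_⟩
        left_inv := fun g => rfl
        right_inv := fun g => rfl }
    · have := congrArg (fun x : Fin 4 ↪ α => x 0) (MulAction.mem_stabilizer_iff.mp g.2)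
      exact this
    · have := congrArg (fun x : Fin 4 ↪ α => x 1) (MulAction.mem_stabilizer_iff.mp g.2)
      exact this
    · have := congrArg (fun x : Fin 4 ↪ α => x 2) (MulAction.mem_stabilizer_iff.mp g.2)
      exact this
    · have := congrArg (fun x : Fin 4 ↪ α => x 3) (MulAction.mem_stabilizer_iff.mp g.2)
      exact this
    · rw [MulAction.mem_stabilizer_iff]
      ext i
      show (g.1 : Perm α) (x₀ i) = x₀ i
      obtain ⟨-, h0, h1, h2, h3⟩ := mem_stab4.mp g.2
      fin_cases i
      · exact h0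
      · exact h1
      · exact h2
      · exact h3
  have h1 : Nat.card G = Nat.card (G ⧸ MulAction.stabilizer G x₀) * Nat.card (MulAction.stabilizer G x₀) :=
    Subgroup.card_eq_card_quotient_mul_card_subgroup _
  have h2 : Nat.card (G ⧸ MulAction.stabilizer G x₀) = Nat.card (MulAction.orbit G x₀) :=
    Nat.card_congr (MulAction.orbitEquivQuotientStabilizer G x₀).symm
  have h3 : Nat.card (MulAction.orbit G x₀) = (Fintype.card α).descFactorial 4 := by
    rw [horb, Nat.card_coe_set_eq, Set.ncard_univ, Nat.card_eq_fintype_card, Fintype.card_embedding_eq,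
      Fintype.card_fin]
  rw [h1, h2, h3, hstab]
  congr 1
  simp only [Nat.descFactorial_succ, Nat.descFactorial_zero, Nat.sub_zero]
  ring

end Cfsg.Agent.Helper31.H581E0
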