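import Mathlib
import Cfsg.Agent.Lead.H581Defs
import Cfsg.Agent.Helper91.H581P2

/-!
# CALL S4221 (lead), PIECE F: an involution in the coset `tY` commuting with `s`
-/

set_option autoImplicit false

namespace Cfsg.Agent.Helper31.H581F

open Cfsg.Agent.Lead.H581 Equiv Cfsg.Agent.Helper91.H581P2

variable {α : Type*} [Fintype α] [DecidableEq α]

/-- PIECE F (uses P2) -/
theorem exists_comm_invol {G : Type*} [Group G] [Finite G] (Y : Subgroup G) (hY : Odd (Nat.card Y)) (t s : G)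
    (ht : t * t = 1) (hs : s * s = 1) (hnt : ∀ y ∈ Y, t * y * t⁻¹ ∈ Y) (hns : ∀ y ∈ Y, s * y * s⁻¹ ∈ Y)
    (hts : t * s * t⁻¹ * s⁻¹ ∈ Y) : ∃ u : G, u * u = 1 ∧ t⁻¹ * u ∈ Y ∧ u * s = s * u := by
  classical
  have hcard := coset_inv_card Y hY t ht hnt
  have hIodd : Odd ({u : G | u * u = 1 ∧ t⁻¹ * u ∈ Y}.ncard) := by
    rw [← hcard] at hY
    exact (Nat.odd_mul.mp hY).1
  have htinv : t⁻¹ = t := inv_eq_of_mul_eq_one_left ht
  have hsinv : s⁻¹ = s := inv_eq_of_mul_eq_one_left hs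
  have hmap : ∀ u : G, u ∈ {u : G | u * u = 1 ∧ t⁻¹ * u ∈ Y} →
      s * u * s⁻¹ ∈ {u : G | u * u = 1 ∧ t⁻¹ * u ∈ Y} := by
    rintro u ⟨hu2, huY⟩
    refine ⟨?_, ?_⟩
    · calc s * u * s⁻¹ * (s * u * s⁻¹) = s * (u * u) * s⁻¹ := by group
        _ = 1 := by rw [hu2]; group
    · have e : t⁻¹ * (s * u * s⁻¹) = (t * s * t⁻¹ * s⁻¹) * (s * (t⁻¹ * u) * s⁻¹) := by
        rw [htinv]
        calc t * (s * u * s⁻¹) = t * s * (t * t) * u * s⁻¹ := by rw [ht]; group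
          _ = t * s * t * s⁻¹ * (s * (t * u) * s⁻¹) := by group
      rw [e]
      exact Y.mul_mem hts (hns _ huY)
  have hinvol : ∀ u : G, s * (s * u * s⁻¹) * s⁻¹ = u := by
    intro u
    calc s * (s * u * s⁻¹) * s⁻¹ = (s * s) * u * (s * s)⁻¹ := by group
      _ = u := by rw [hs]; group
  have instI : Fintype {u : G | u * u = 1 ∧ t⁻¹ * u ∈ Y} := Fintype.ofFinite _
  obtain ⟨σ, hσ⟩ : ∃ σ : Perm {u : G | u * u = 1 ∧ t⁻¹ * u ∈ Y},
      ∀ u, (σ u : G) = s * (u : G) * s⁻¹ :=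
    ⟨{ toFun := fun u => ⟨s * u.1 * s⁻¹, hmap u.1 u.2⟩
       invFun := fun u => ⟨s * u.1 * s⁻¹, hmap u.1 u.2⟩
       left_inv := fun u => Subtype.ext (hinvol u.1)
       right_inv := fun u => Subtype.ext (hinvol u.1) }, fun u => rfl⟩
  have hσ2 : σ ^ 2 ^ 1 = 1 := by
    ext u
    rw [pow_one, pow_two, Perm.mul_apply, hσ, hσ, hinvol]
    rfl
  have hnd : ¬ 2 ∣ Fintype.card {u : G | u * u = 1 ∧ t⁻¹ * u ∈ Y} := by
    rw [← Nat.card_eq_fintype_card, Nat.card_coe_set_eq]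
    exact hIodd.not_two_dvd_nat
  have : Fact (Nat.Prime 2) := ⟨Nat.prime_two⟩
  obtain ⟨u, hu⟩ := Equiv.Perm.exists_fixed_point_of_prime (p := 2) (n := 1) hnd hσ2
  refine ⟨u.1, u.2.1, u.2.2, ?_⟩
  have h1 : s * u.1 * s⁻¹ = u.1 := by rw [← hσ, hu]
  exact (mul_inv_eq_iff_eq_mul.mp h1).symm

end Cfsg.Agent.Helper31.H581F
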