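import Mathlib
import Cfsg.Agent.Helper90.HTDefs
import Cfsg.Agent.Helper5.UnitCard
import Cfsg.Agent.Helper33.HTSCAL
import Cfsg.Agent.Helper5.HTBLK
import Cfsg.Agent.Helper5.HTCAUCHY

/-!
# helper31: CALL S5953 piece BAB, core: `bad_ab_u` with FPF (`ht_fpf`) as a hypothesis.
-/

set_option autoImplicit false
set_option linter.unusedSectionVars false
set_option linter.unusedVariables false

namespace Cfsg.Agent.Helper31.HT5953

open Module Polynomial Cfsg.Agent.Helper90.HT

section models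

variable {F : Type*} [Field F] [Fintype F] (q : ℕ) (hq : Fintype.card F = q ^ 2)

include hq

/-- BAB with FPF as a hypothesis (`hfpf0` is exactly the statement of `ht_fpf` for `c`, `r`). -/
theorem bad_ab_u_of_fpf (r : ℕ) [Fact r.Prime] (hr2 : 2 < r) (hrq : ¬ r ∣ q) (c : ℕ) (hc2 : 2 ≤ c)
    (hcr : r ∣ (if Even c then q ^ c - 1 else q ^ c + 1))
    (hcmin : ∀ j, 1 ≤ j → j < c → ¬ r ∣ (if Even j then q ^ j - 1 else q ^ j + 1))
    (hfpf0 : ∀ g : Matrix.SpecialLinearGroup (Fin c) F, g ∈ Cfsg.SU c F q → g ^ r = 1 → g ≠ 1 →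
      LinearMap.ker (Matrix.toLin' (g : Matrix (Fin c) (Fin c) F) - 1) = ⊥)
    (n u e : ℕ) (hu : 1 ≤ u) (hdim : n = c * u + e) :
    ∃ x : Matrix.SpecialLinearGroup (Fin n) F, x ∈ Cfsg.SU n F q ∧ x ^ r = 1 ∧
      (∀ z : F, (x : Matrix (Fin n) (Fin n) F) ≠ z • 1) ∧
      finrank F (LinearMap.ker (Matrix.toLin' (x : Matrix (Fin n) (Fin n) F) - 1)) = e := by
  classical
  have h1 : ¬ r ∣ q + 1 := by
    have h := hcmin 1 le_rfl (by omega)
    simpa using h
  obtain ⟨g₀, hg₀, hg₀r, hg₀1⟩ := Cfsg.Agent.Helper5.HT5953.ht_cauchy q hq c hc2 r hr2 hrq hcr h1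
  have hfpf := hfpf0 g₀ hg₀ hg₀r hg₀1
  obtain ⟨M, Φ, hB1, hB2, hB3⟩ := Cfsg.Agent.Helper5.HT5953.ht_block q c u e n hdim
    (fun _ : Fin u => (g₀ : Matrix (Fin c) (Fin c) F))
  have hdetM : M.det = 1 := by
    rw [hB3]
    simp
  have hpres0 : ∀ v w : Fin c → F, Cfsg.hermForm c F q
      ((g₀ : Matrix (Fin c) (Fin c) F).mulVec v) ((g₀ : Matrix (Fin c) (Fin c) F).mulVec w)
      = Cfsg.hermForm c F q v w := (mem_SU_iff c g₀).mp hg₀
  have hMpres : ∀ a b, Cfsg.hermForm n F q (M.mulVec a) (M.mulVec b) = Cfsg.hermForm n F q a b := by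
    intro a b
    rw [hB1 (M.mulVec a) (M.mulVec b), hB1 a b, hB2 a, hB2 b]
    simp only [hpres0]
  obtain ⟨x, hxSU, hxM⟩ := exists_SU_of_matrix n M hdetM hMpres
  -- powers
  have hpow : ∀ (k : ℕ) (a : Fin n → F), Φ ((M ^ k).mulVec a) =
      (fun j => ((g₀ : Matrix (Fin c) (Fin c) F) ^ k).mulVec ((Φ a).1 j), (Φ a).2) := by
    intro k
    induction k with
    | zero =>
      intro a
      simp only [pow_zero, Matrix.one_mulVec]
    | succ k ih =>
      intro a
      rw [pow_succ, ← Matrix.mulVec_mulVec, ih (M.mulVec a), hB2 a]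
      refine Prod.ext ?_ rfl
      funext j
      show ((g₀ : Matrix (Fin c) (Fin c) F) ^ k).mulVec
        ((g₀ : Matrix (Fin c) (Fin c) F).mulVec ((Φ a).1 j)) = _
      rw [Matrix.mulVec_mulVec, ← pow_succ]
  have hg₀r' : (g₀ : Matrix (Fin c) (Fin c) F) ^ r = 1 := by
    have h := congrArg (fun s : Matrix.SpecialLinearGroup (Fin c) F =>
      (s : Matrix (Fin c) (Fin c) F)) hg₀r
    simpa using h
  have hMr : M ^ r = 1 := by
    apply Matrix.mulVec_injective
    funext a
    apply Φ.injective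
    rw [hpow r a, hg₀r', Matrix.one_mulVec]
    refine Prod.ext ?_ rfl
    funext j
    show (1 : Matrix (Fin c) (Fin c) F).mulVec ((Φ a).1 j) = (Φ a).1 j
    rw [Matrix.one_mulVec]
  refine ⟨x, hxSU, ?_, ?_, ?_⟩
  · apply Subtype.ext
    show ((x ^ r : Matrix.SpecialLinearGroup (Fin n) F) : Matrix (Fin n) (Fin n) F) = 1
    rw [Matrix.SpecialLinearGroup.coe_pow, hxM, hMr]
  · intro z hz
    rw [hxM] at hz
    have hg₀z : ∀ v : Fin c → F, (g₀ : Matrix (Fin c) (Fin c) F).mulVec v = z • v := by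
      intro v
      have h := hB2 (Φ.symm (fun _ => v, 0))
      rw [hz, Matrix.smul_mulVec, Matrix.one_mulVec, map_smul, LinearEquiv.apply_symm_apply] at h
      have h' := congrFun (congrArg Prod.fst h) ⟨0, hu⟩
      exact h'.symm
    have hg₀z' : (g₀ : Matrix (Fin c) (Fin c) F) = z • 1 := by
      apply Matrix.mulVec_injective
      funext v
      rw [hg₀z v, Matrix.smul_mulVec, Matrix.one_mulVec]
    have hsc := Cfsg.Agent.Helper33.HT5953.ht_scal q hq (Cfsg.Agent.Helper5.frobQ hq)
      (Cfsg.Agent.Helper5.frobQ_apply hq) c (by omega) g₀ hg₀ 1 z (by rw [pow_one]; exact hg₀z')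
    rw [Cfsg.Agent.Helper5.frobQ_apply] at hsc
    have hzq : z ^ (q + 1) = 1 := by
      rw [pow_succ, mul_comm]
      exact hsc.1
    have hzr : z ^ r = 1 := by
      have h := hg₀r'
      rw [hg₀z', _root_.smul_pow, one_pow] at h
      have h' := congrFun (congrFun h ⟨0, by omega⟩) ⟨0, by omega⟩
      simpa using h'
    have hz1 : z ≠ 1 := by
      rintro rfl
      apply hg₀1
      apply Subtype.ext
      rw [hg₀z', one_smul]
      rfl
    have hord : orderOf z = r := by
      rcases (Nat.dvd_prime (Fact.out : r.Prime)).mp (orderOf_dvd_of_pow_eq_one hzr) with h | h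
      · exact absurd (orderOf_eq_one_iff.mp h) hz1
      · exact h
    apply h1
    rw [← hord]
    exact orderOf_dvd_of_pow_eq_one hzq
  · have hker : LinearMap.ker (Matrix.toLin' (x : Matrix (Fin n) (Fin n) F) - 1)
        = (LinearMap.range (LinearMap.inr F (Fin u → Fin c → F) (Fin e → F))).map
            (Φ.symm : ((Fin u → (Fin c → F)) × (Fin e → F)) →ₗ[F] (Fin n → F)) := by
      ext a
      rw [LinearMap.mem_ker, LinearMap.sub_apply, Matrix.toLin'_apply, Module.End.one_apply,
        sub_eq_zero, hxM, Submodule.mem_map]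
      constructor
      · intro ha
        have h := hB2 a
        rw [ha] at h
        have hfst : ∀ j, (Φ a).1 j = 0 := by
          intro j
          have hj := congrFun (congrArg Prod.fst h) j
          have hmem : (Φ a).1 j ∈ LinearMap.ker
              (Matrix.toLin' (g₀ : Matrix (Fin c) (Fin c) F) - 1) := by
            rw [LinearMap.mem_ker, LinearMap.sub_apply, Matrix.toLin'_apply, Module.End.one_apply,
              sub_eq_zero]
            exact hj.symm
          rw [hfpf] at hmem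
          exact (Submodule.mem_bot F).mp hmem
        refine ⟨Φ a, ⟨(Φ a).2, ?_⟩, Φ.symm_apply_apply a⟩
        refine Prod.ext ?_ rfl
        funext j
        exact (hfst j).symm
      · rintro ⟨y, ⟨w, rfl⟩, rfl⟩
        apply Φ.injective
        rw [hB2, LinearEquiv.coe_coe, LinearEquiv.apply_symm_apply]
        refine Prod.ext ?_ rfl
        funext j
        show (g₀ : Matrix (Fin c) (Fin c) F).mulVec 0 = 0
        rw [Matrix.mulVec_zero]
    rw [hker, LinearEquiv.finrank_map_eq, LinearMap.finrank_range_of_inj LinearMap.inr_injective,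
      Module.finrank_fin_fun]

end models

end Cfsg.Agent.Helper31.HT5953
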