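import Mathlib
import Cfsg.Agent.Helper90.IMDefs

set_option autoImplicit false

/-! helper31: CALL S5958 (helper90), piece LOW, core: given orbit representatives `R` of `σ`,
the averaged vectors `∑_{i<r} T^i v_ρ` (`ρ ∈ R`) are independent fixed vectors. -/

namespace Cfsg.Agent.Helper31

open Module Polynomial Cfsg.Agent.Helper90.IM

variable {F : Type*} [Field F] {V : Type*} [AddCommGroup V] [Module F V] [FiniteDimensional F V]

omit [FiniteDimensional F V] in
/-- `T ^ i` maps `D j` onto `D (σ ^ i j)`. -/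
theorem imlow_map_pow (T : V →ₗ[F] V) {t : ℕ} (D : Fin t → Submodule F V)
    (σ : Equiv.Perm (Fin t)) (hDmap : ∀ j, (D j).map T = D (σ j)) (i : ℕ) (j : Fin t) :
    (D j).map (T ^ i) = D ((σ ^ i) j) := by
  induction i with
  | zero =>
    rw [pow_zero, pow_zero, Equiv.Perm.one_apply]
    exact Submodule.map_id _
  | succ i ih =>
    rw [pow_succ', pow_succ', Equiv.Perm.mul_apply, ← hDmap, ← ih, ← Submodule.map_comp]
    rfl

/-- the permutation `σ` of a decomposition into lines permuted by `T`, `T ^ r = 1`, has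
`σ ^ r = 1`. -/
theorem imlow_sigma_pow (T : V →ₗ[F] V) (r : ℕ) (hT : T ^ r = 1)
    {t : ℕ} (D : Fin t → Submodule F V) (σ : Equiv.Perm (Fin t)) (hD : IsDec T 1 D σ) :
    σ ^ r = 1 := by
  obtain ⟨hD1, hDind, hDsup, hDmap⟩ := hD
  have hinj : Function.Injective D := by
    apply hDind.injective
    intro i h
    have h1 := hD1 i
    rw [h, finrank_bot] at h1
    exact absurd h1 (by norm_num)
  ext j
  have h := imlow_map_pow T D σ hDmap r j
  rw [hT] at h
  have h' : D j = D ((σ ^ r) j) := by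
    rw [← h]
    exact (Submodule.map_id _).symm
  rw [← hinj h']
  rfl

theorem lines_le_of_reps (T : V →ₗ[F] V) (r : ℕ) (hr : r.Prime) (hrF : (r : F) ≠ 0)
    (hT : T ^ r = 1)
    {t : ℕ} (D : Fin t → Submodule F V) (σ : Equiv.Perm (Fin t)) (hD : IsDec T 1 D σ)
    (hfix : ∀ j, σ j = j → D j ≤ LinearMap.ker (T - 1))
    (R : Finset (Fin t))
    (hR2 : ∀ ρ ∈ R, ∀ ρ' ∈ R, ∀ i : ℕ, (σ ^ i) ρ = ρ' → ρ = ρ') (hR3 : t ≤ r * R.card) :
    t ≤ r * finrank F (LinearMap.ker (T - 1)) := by
  classical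
  have hσr : σ ^ r = 1 := imlow_sigma_pow T r hT D σ hD
  obtain ⟨hD1, hDind, hDsup, hDmap⟩ := hD
  have hex : ∀ i, ∃ v : V, v ∈ D i ∧ v ≠ 0 := by
    intro i
    have h1 : 0 < finrank F (D i) := by
      rw [hD1 i]
      norm_num
    obtain ⟨x, hx⟩ := Module.finrank_pos_iff_exists_ne_zero.1 h1
    exact ⟨x, x.2, fun h => hx (Subtype.ext h)⟩
  choose v hvD hv0 using hex
  have hli : LinearIndependent F v := hDind.linearIndependent D hvD hv0
  have hspan1 : ∀ i, D i = Submodule.span F {v i} := by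
    intro i
    symm
    apply Submodule.eq_of_le_of_finrank_eq
    · rw [Submodule.span_singleton_le_iff_mem]
      exact hvD i
    · rw [finrank_span_singleton (hv0 i), hD1 i]
  have hspan : ⊤ ≤ Submodule.span F (Set.range v) := by
    rw [← hDsup]
    apply iSup_le
    intro i
    rw [hspan1 i]
    apply Submodule.span_mono
    intro x hx
    rw [Set.mem_singleton_iff] at hx
    exact ⟨i, hx.symm⟩
  obtain ⟨b, hb⟩ : ∃ b : Basis (Fin t) F V, ∀ i, b i = v i :=
    ⟨Basis.mk hli hspan, fun i => Basis.mk_apply hli hspan i⟩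
  have hcoord : ∀ (k j : Fin t) (x : V), x ∈ D j → j ≠ k → b.coord k x = 0 := by
    intro k j x hx hjk
    rw [hspan1 j, Submodule.mem_span_singleton] at hx
    obtain ⟨c, rfl⟩ := hx
    rw [map_smul, ← hb j, Basis.coord_apply, Basis.repr_self, Finsupp.single_apply, if_neg hjk,
      smul_zero]
  have hcoord1 : ∀ k, b.coord k (v k) = 1 := by
    intro k
    rw [← hb k, Basis.coord_apply, Basis.repr_self, Finsupp.single_apply, if_pos rfl]
  have hpow : ∀ (i : ℕ) (j : Fin t) (x : V), x ∈ D j → (T ^ i) x ∈ D ((σ ^ i) j) := by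
    intro i j x hx
    rw [← imlow_map_pow T D σ hDmap i j]
    exact Submodule.mem_map_of_mem hx
  obtain ⟨w, hw⟩ : ∃ w : Fin t → V, ∀ ρ, w ρ = ∑ i ∈ Finset.range r, (T ^ i) (v ρ) :=
    ⟨fun ρ => ∑ i ∈ Finset.range r, (T ^ i) (v ρ), fun _ => rfl⟩
  have hwker : ∀ ρ, w ρ ∈ LinearMap.ker (T - 1) := by
    intro ρ
    rw [LinearMap.mem_ker, LinearMap.sub_apply, Module.End.one_apply, sub_eq_zero, hw, map_sum]
    have h1 : ∀ i, T ((T ^ i) (v ρ)) = (T ^ (i + 1)) (v ρ) := by
      intro i
      rw [pow_succ', Module.End.mul_apply]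
    simp only [h1]
    have e1 : ∑ i ∈ Finset.range (r + 1), (T ^ i) (v ρ)
        = ∑ i ∈ Finset.range r, (T ^ (i + 1)) (v ρ) + (T ^ 0) (v ρ) :=
      Finset.sum_range_succ' (fun i => (T ^ i) (v ρ)) r
    have e2 : ∑ i ∈ Finset.range (r + 1), (T ^ i) (v ρ)
        = ∑ i ∈ Finset.range r, (T ^ i) (v ρ) + (T ^ r) (v ρ) :=
      Finset.sum_range_succ (fun i => (T ^ i) (v ρ)) r
    rw [e1, hT, pow_zero] at e2
    exact add_right_cancel e2
  have hval_ne : ∀ ρ ∈ R, ∀ ρ' ∈ R, ρ ≠ ρ' → b.coord ρ' (w ρ) = 0 := by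
    intro ρ hρ ρ' hρ' hne
    rw [hw, map_sum]
    apply Finset.sum_eq_zero
    intro i _
    apply hcoord ρ' _ _ (hpow i ρ (v ρ) (hvD ρ))
    intro h
    exact hne (hR2 ρ hρ ρ' hρ' i h)
  have hval_eq : ∀ ρ, b.coord ρ (w ρ) ≠ 0 := by
    intro ρ
    rw [hw, map_sum]
    by_cases hσ : σ ρ = ρ
    · have hTv : T (v ρ) = v ρ := by
        have h := hfix ρ hσ (hvD ρ)
        rw [LinearMap.mem_ker, LinearMap.sub_apply, Module.End.one_apply, sub_eq_zero] at h
        exact h
      have hTi : ∀ i : ℕ, (T ^ i) (v ρ) = v ρ := by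
        intro i
        induction i with
        | zero => rw [pow_zero, Module.End.one_apply]
        | succ i ih => rw [pow_succ, Module.End.mul_apply, hTv, ih]
      simp only [hTi, hcoord1]
      rw [Finset.sum_const, Finset.card_range, nsmul_eq_mul, mul_one]
      exact hrF
    · rw [Finset.sum_eq_single 0]
      · rw [pow_zero, Module.End.one_apply, hcoord1]
        exact one_ne_zero
      · intro i hi hi0
        apply hcoord ρ _ _ (hpow i ρ (v ρ) (hvD ρ))
        intro h
        apply hσ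
        have hper : Function.IsPeriodicPt σ i ρ := by
          show (σ^[i]) ρ = ρ
          rw [← Equiv.Perm.coe_pow]
          exact h
        have hperr : Function.IsPeriodicPt σ r ρ := by
          show (σ^[r]) ρ = ρ
          rw [← Equiv.Perm.coe_pow, hσr]
          rfl
        have hd1 := hper.minimalPeriod_dvd
        have hd2 := hperr.minimalPeriod_dvd
        rcases (Nat.dvd_prime hr).1 hd2 with h1 | h1
        · exact Function.minimalPeriod_eq_one_iff_isFixedPt.1 h1
        · exfalso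
          rw [h1] at hd1
          have h2 := Nat.le_of_dvd (Nat.pos_of_ne_zero hi0) hd1
          have h3 := Finset.mem_range.1 hi
          omega
      · intro h
        exact absurd (Finset.mem_range.2 hr.pos) h
  have hwli : LinearIndependent F
      (fun ρ : R => (⟨w ρ, hwker ρ⟩ : LinearMap.ker (T - 1))) := by
    rw [linearIndependent_iff']
    intro s g hsum ρ' hρ'
    have hsum' : ∑ ρ ∈ s, g ρ • w (ρ : Fin t) = 0 := by
      have h := congrArg Subtype.val hsum
      simpa using h
    have h1 := congrArg (b.coord (ρ' : Fin t)) hsum'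
    rw [map_sum, map_zero, Finset.sum_eq_single ρ'] at h1
    · rw [map_smul, smul_eq_mul] at h1
      exact (mul_eq_zero.1 h1).resolve_right (hval_eq ρ')
    · intro ρ _ hne
      rw [map_smul, hval_ne ρ ρ.2 ρ' ρ'.2 (fun h => hne (Subtype.ext h)), smul_zero]
    · intro h
      exact absurd hρ' h
  have hcard := hwli.fintype_card_le_finrank
  rw [Fintype.card_coe] at hcard
  calc t ≤ r * R.card := hR3
    _ ≤ r * finrank F (LinearMap.ker (T - 1)) := Nat.mul_le_mul_left r hcard

end Cfsg.Agent.Helper31
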