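import Mathlib
import Cfsg.Agent.Helper90.IMDefs
import Cfsg.Agent.Helper31.IMLOWAux

set_option autoImplicit false

/-! helper31: CALL S5958 (helper90), piece LOW (`lines_le`), with an inline copy of the orbit
representatives statement (`imlow_perm_reps`, piece ORB without primality). -/

namespace Cfsg.Agent.Helper31

open Module Polynomial Cfsg.Agent.Helper90.IM

/-- orbit representatives for a permutation with `σ ^ r = 1`, `0 < r`. -/
theorem imlow_perm_reps {α : Type*} [Fintype α] [DecidableEq α] (σ : Equiv.Perm α) (r : ℕ)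
    (hr : 0 < r) (hσ : σ ^ r = 1) :
    ∃ R : Finset α, (∀ j, ∃ ρ ∈ R, ∃ i < r, (σ ^ i) ρ = j) ∧
      (∀ ρ ∈ R, ∀ ρ' ∈ R, ∀ i : ℕ, (σ ^ i) ρ = ρ' → ρ = ρ') ∧ Fintype.card α ≤ r * R.card := by
  classical
  let s : Setoid α := Equiv.Perm.SameCycle.setoid σ
  let R : Finset α := Finset.univ.image (fun q : Quotient s => q.out)
  have h1 : ∀ j, ∃ ρ ∈ R, ∃ i < r, (σ ^ i) ρ = j := by
    intro j
    refine ⟨(Quotient.mk s j).out, Finset.mem_image.2 ⟨_, Finset.mem_univ _, rfl⟩, ?_⟩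
    have hsc : Equiv.Perm.SameCycle σ (Quotient.mk s j).out j := Quotient.mk_out (s := s) j
    obtain ⟨k, hk⟩ := hsc
    refine ⟨(k % (r : ℤ)).toNat, ?_, ?_⟩
    · have h2 : k % (r : ℤ) < r := Int.emod_lt_of_pos k (by exact_mod_cast hr)
      have h3 : 0 ≤ k % (r : ℤ) := Int.emod_nonneg k (by exact_mod_cast hr.ne')
      omega
    · have h3 : 0 ≤ k % (r : ℤ) := Int.emod_nonneg k (by exact_mod_cast hr.ne')
      have h4 : σ ^ k = σ ^ (k % (r : ℤ)) := by
        conv_lhs => rw [← Int.mul_ediv_add_emod k r]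
        rw [zpow_add, zpow_mul, zpow_natCast, hσ, one_zpow, one_mul]
      have h5 : σ ^ (k % (r : ℤ)) = σ ^ (k % (r : ℤ)).toNat := by
        conv_lhs => rw [← Int.toNat_of_nonneg h3]
        rw [zpow_natCast]
      rw [← h5, ← h4]
      exact hk
  have h2 : ∀ ρ ∈ R, ∀ ρ' ∈ R, ∀ i : ℕ, (σ ^ i) ρ = ρ' → ρ = ρ' := by
    intro ρ hρ ρ' hρ' i hi
    obtain ⟨q, -, rfl⟩ := Finset.mem_image.1 hρ
    obtain ⟨q', -, rfl⟩ := Finset.mem_image.1 hρ'
    have hsc : Equiv.Perm.SameCycle σ q.out q'.out := ⟨(i : ℤ), by rw [zpow_natCast]; exact hi⟩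
    have hq : q = q' := by
      rw [← Quotient.out_eq q, ← Quotient.out_eq q']
      exact Quotient.sound hsc
    rw [hq]
  refine ⟨R, h1, h2, ?_⟩
  have hsub : (Finset.univ : Finset α) ⊆
      (Finset.range r ×ˢ R).image (fun p : ℕ × α => (σ ^ p.1) p.2) := by
    intro j _
    obtain ⟨ρ, hρ, i, hi, hij⟩ := h1 j
    exact Finset.mem_image.2 ⟨(i, ρ), Finset.mem_product.2 ⟨Finset.mem_range.2 hi, hρ⟩, hij⟩
  calc Fintype.card α = (Finset.univ : Finset α).card := Finset.card_univ.symm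
    _ ≤ ((Finset.range r ×ˢ R).image (fun p : ℕ × α => (σ ^ p.1) p.2)).card :=
      Finset.card_le_card hsub
    _ ≤ (Finset.range r ×ˢ R).card := Finset.card_image_le
    _ = r * R.card := by rw [Finset.card_product, Finset.card_range]

section
variable {F : Type*} [Field F] {V : Type*} [AddCommGroup V] [Module F V] [FiniteDimensional F V]

/-! ## PIECE LOW -/

theorem lines_le (T : V →ₗ[F] V) (r : ℕ) (hr : r.Prime) (hrF : (r : F) ≠ 0) (hT : T ^ r = 1)
    {t : ℕ} (D : Fin t → Submodule F V) (σ : Equiv.Perm (Fin t)) (hD : IsDec T 1 D σ)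
    (hfix : ∀ j, σ j = j → D j ≤ LinearMap.ker (T - 1)) :
    t ≤ r * finrank F (LinearMap.ker (T - 1)) := by
  obtain ⟨R, -, hR2, hR3⟩ := imlow_perm_reps σ r hr.pos (imlow_sigma_pow T r hT D σ hD)
  rw [Fintype.card_fin] at hR3
  exact lines_le_of_reps T r hr hrF hT D σ hD hfix R hR2 hR3

end

end Cfsg.Agent.Helper31
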