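import Mathlib
import Cfsg.Agent.Helper57.J1oDefs

set_option autoImplicit false

/-! helper31: CALL S4274 (helper57), piece P13: no simple group of order 7980. -/

namespace Cfsg.Agent.Helper31

open Subgroup Cfsg.Agent.Helper57

universe u

/-- P13. -/
theorem j1o_no_simple_7980 (SD : J1oSylData.{u}) {H : Type u} [Group H] [Finite H]
    [IsSimpleGroup H]
    (h : Nat.card H = 7980) : False := by
  have h19 : Fact (Nat.Prime 19) := ⟨by norm_num⟩
  have h5 : Fact (Nat.Prime 5) := ⟨by norm_num⟩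
  have h7 : Fact (Nat.Prime 7) := ⟨by norm_num⟩
  -- p = 19
  obtain ⟨hE19, hc19⟩ : 3780 ≤ Nat.card {g : H // 19 ∣ orderOf g} ∧
      ∀ q : ℕ, q.Prime → q ≠ 19 → ¬ ∃ g : H, orderOf g = 19 * q := by
    obtain ⟨n, e, c, a1, a2, a3, a4, a5, a6, a7, a8, a9, a10, a11⟩ :=
      SD H 19 (by rw [h]; norm_num) (by rw [h]; norm_num) (by rw [h]; norm_num)
    rw [h] at a1 a4
    have hm := j1o_mem_opts (by norm_num) a1 a2 a3 a5 a6
    rw [show j1oOpts 7980 19 = [(20, 3, 7), (210, 2, 1)] from by decide +kernel] at hm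
    simp only [List.mem_cons, Prod.mk.injEq, List.not_mem_nil, or_false] at hm
    rcases hm with ⟨rfl, rfl, rfl⟩ | ⟨rfl, rfl, rfl⟩
    · have := a7 7 (by norm_num) (by norm_num)
      omega
    · refine ⟨by omega, ?_⟩
      intro q hq hq19 hg
      have h1 := (a11 q hq hq19).2 hg
      have h2 := Nat.le_of_dvd (by norm_num) h1
      have h3 := hq.two_le
      omega
  -- p = 5
  obtain ⟨hE5, hc5⟩ : 3192 ≤ Nat.card {g : H // 5 ∣ orderOf g} ∧
      ¬ ∃ g : H, orderOf g = 5 * 7 := by
    obtain ⟨n, e, c, a1, a2, a3, a4, a5, a6, a7, a8, a9, a10, a11⟩ :=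
      SD H 5 (by rw [h]; norm_num) (by rw [h]; norm_num) (by rw [h]; norm_num)
    rw [h] at a1 a4
    have hm := j1o_mem_opts (by norm_num) a1 a2 a3 a5 a6
    rw [show j1oOpts 7980 5 = [(6, 2, 133), (21, 2, 38), (21, 4, 19), (266, 2, 3)]
      from by decide +kernel] at hm
    simp only [List.mem_cons, Prod.mk.injEq, List.not_mem_nil, or_false] at hm
    rcases hm with ⟨rfl, rfl, rfl⟩ | ⟨rfl, rfl, rfl⟩ | ⟨rfl, rfl, rfl⟩ | ⟨rfl, rfl, rfl⟩
    · have := a4 7 (by norm_num) (by norm_num)
      omega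
    · have := a7 19 (by norm_num) (by norm_num)
      omega
    · have := a7 19 (by norm_num) (by norm_num)
      omega
    · refine ⟨by omega, ?_⟩
      intro hg
      have h1 := (a11 7 (by norm_num) (by norm_num)).2 hg
      omega
  -- p = 7
  have hO7 : 1140 ≤ Nat.card {g : H // orderOf g = 7} := by
    obtain ⟨n, e, c, a1, a2, a3, a4, a5, a6, a7, a8, a9, a10, a11⟩ :=
      SD H 7 (by rw [h]; norm_num) (by rw [h]; norm_num) (by rw [h]; norm_num)
    rw [h] at a1 a4
    have hm := j1o_mem_opts (by norm_num) a1 a2 a3 a5 a6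
    rw [show j1oOpts 7980 7 = [(15, 2, 38), (57, 2, 10), (190, 2, 3), (190, 3, 2), (190, 6, 1)]
      from by decide +kernel] at hm
    simp only [List.mem_cons, Prod.mk.injEq, List.not_mem_nil, or_false] at hm
    rcases hm with ⟨rfl, rfl, rfl⟩ | ⟨rfl, rfl, rfl⟩ | ⟨rfl, rfl, rfl⟩ | ⟨rfl, rfl, rfl⟩ |
      ⟨rfl, rfl, rfl⟩
    · have := a4 19 (by norm_num) (by norm_num)
      omega
    · exfalso
      obtain ⟨g, hg⟩ := (a11 5 (by norm_num) (by norm_num)).1 (by norm_num)
      exact hc5 ⟨g, by omega⟩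
    · omega
    · omega
    · omega
  -- count
  have hcount := j1o_count4 (α := H) (fun g => 19 ∣ orderOf g) (fun g => 5 ∣ orderOf g)
    (fun g => orderOf g = 7) (fun _ => False) 1
    (by rw [orderOf_one]; norm_num) (by rw [orderOf_one]; norm_num)
    (by rw [orderOf_one]; norm_num) (by simp)
    (by
      intro g hA hB
      exact hc19 5 (by norm_num) (by norm_num)
        (j1o_exists_orderOf_mul (by norm_num) (by norm_num) (by norm_num) g hA hB))
    (by
      intro g hA hC
      rw [hC] at hA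
      omega)
    (by
      intro g _ hD
      exact hD)
    (by
      intro g hB hC
      rw [hC] at hB
      omega)
    (by
      intro g _ hD
      exact hD)
    (by
      intro g _ hD
      exact hD)
  rw [h] at hcount
  omega

end Cfsg.Agent.Helper31
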