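import Mathlib
import Cfsg.Agent.Helper57.J1oDefs

set_option autoImplicit false

/-! helper31: CALL S4274 (helper57), piece P16: no simple group of order 58520. -/

namespace Cfsg.Agent.Helper31

open Subgroup Cfsg.Agent.Helper57

universe u

/-- P16. -/
theorem j1o_no_simple_58520 (SD : J1oSylData.{u}) {H : Type u} [Group H] [Finite H]
    [IsSimpleGroup H]
    (h : Nat.card H = 58520) : False := by
  have h19 : Fact (Nat.Prime 19) := ⟨by norm_num⟩
  have h11 : Fact (Nat.Prime 11) := ⟨by norm_num⟩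
  have h5 : Fact (Nat.Prime 5) := ⟨by norm_num⟩
  have h7 : Fact (Nat.Prime 7) := ⟨by norm_num⟩
  -- p = 19
  obtain ⟨hE19, hc19⟩ : 27720 ≤ Nat.card {g : H // 19 ∣ orderOf g} ∧
      ∀ q : ℕ, q.Prime → q ≠ 19 → ¬ ∃ g : H, orderOf g = 19 * q := by
    obtain ⟨n, e, c, a1, a2, a3, a4, a5, a6, a7, a8, a9, a10, a11⟩ :=
      SD H 19 (by rw [h]; norm_num) (by rw [h]; norm_num) (by rw [h]; norm_num)
    rw [h] at a1 a4
    have hm := j1o_mem_opts (by norm_num) a1 a2 a3 a5 a6
    rw [show j1oOpts 58520 19 = [(20, 2, 77), (77, 2, 20), (1540, 2, 1)]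
      from by decide +kernel] at hm
    simp only [List.mem_cons, Prod.mk.injEq, List.not_mem_nil, or_false] at hm
    rcases hm with ⟨rfl, rfl, rfl⟩ | ⟨rfl, rfl, rfl⟩ | ⟨rfl, rfl, rfl⟩
    · have := a7 7 (by norm_num) (by norm_num)
      omega
    · have := a7 5 (by norm_num) (by norm_num)
      omega
    · refine ⟨by omega, ?_⟩
      intro q hq hq19 hg
      have h1 := (a11 q hq hq19).2 hg
      have h2 := Nat.le_of_dvd (by norm_num) h1
      have h3 := hq.two_le
      omega
  -- p = 11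
  obtain ⟨hE11, hc11⟩ : 5320 ≤ Nat.card {g : H // 11 ∣ orderOf g} ∧
      ¬ ∃ g : H, orderOf g = 11 * 7 := by
    obtain ⟨n, e, c, a1, a2, a3, a4, a5, a6, a7, a8, a9, a10, a11⟩ :=
      SD H 11 (by rw [h]; norm_num) (by rw [h]; norm_num) (by rw [h]; norm_num)
    rw [h] at a1 a4
    have hm := j1o_mem_opts (by norm_num) a1 a2 a3 a5 a6
    rw [show j1oOpts 58520 11 = [(56, 5, 19), (133, 2, 20), (133, 5, 8), (133, 10, 4)]
      from by decide +kernel] at hm
    simp only [List.mem_cons, Prod.mk.injEq, List.not_mem_nil, or_false] at hm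
    rcases hm with ⟨rfl, rfl, rfl⟩ | ⟨rfl, rfl, rfl⟩ | ⟨rfl, rfl, rfl⟩ | ⟨rfl, rfl, rfl⟩
    · have := a7 19 (by norm_num) (by norm_num)
      omega
    · refine ⟨by omega, ?_⟩
      intro hg
      have h1 := (a11 7 (by norm_num) (by norm_num)).2 hg
      omega
    · refine ⟨by omega, ?_⟩
      intro hg
      have h1 := (a11 7 (by norm_num) (by norm_num)).2 hg
      omega
    · refine ⟨by omega, ?_⟩
      intro hg
      have h1 := (a11 7 (by norm_num) (by norm_num)).2 hg
      omega
  -- p = 7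
  obtain ⟨hE7, hc7⟩ : 25080 ≤ Nat.card {g : H // 7 ∣ orderOf g} ∧
      ∀ q : ℕ, q.Prime → q ≠ 7 → ¬ ∃ g : H, orderOf g = 7 * q := by
    obtain ⟨n, e, c, a1, a2, a3, a4, a5, a6, a7, a8, a9, a10, a11⟩ :=
      SD H 7 (by rw [h]; norm_num) (by rw [h]; norm_num) (by rw [h]; norm_num)
    rw [h] at a1 a4
    have hm := j1o_mem_opts (by norm_num) a1 a2 a3 a5 a6
    rw [show j1oOpts 58520 7 = [(22, 2, 190), (190, 2, 22), (4180, 2, 1)]
      from by decide +kernel] at hm
    simp only [List.mem_cons, Prod.mk.injEq, List.not_mem_nil, or_false] at hm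
    rcases hm with ⟨rfl, rfl, rfl⟩ | ⟨rfl, rfl, rfl⟩ | ⟨rfl, rfl, rfl⟩
    · have := a7 5 (by norm_num) (by norm_num)
      omega
    · exfalso
      obtain ⟨g, hg⟩ := (a11 11 (by norm_num) (by norm_num)).1 (by norm_num)
      exact hc11 ⟨g, by omega⟩
    · refine ⟨by omega, ?_⟩
      intro q hq hq7 hg
      have h1 := (a11 q hq hq7).2 hg
      have h2 := Nat.le_of_dvd (by norm_num) h1
      have h3 := hq.two_le
      omega
  -- p = 5
  have hO5 : 1064 ≤ Nat.card {g : H // orderOf g = 5} := by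
    obtain ⟨n, e, c, a1, a2, a3, a4, a5, a6, a7, a8, a9, a10, a11⟩ :=
      SD H 5 (by rw [h]; norm_num) (by rw [h]; norm_num) (by rw [h]; norm_num)
    rw [h] at a1 a4
    have hm := j1o_mem_opts (by norm_num) a1 a2 a3 a5 a6
    rw [show j1oOpts 58520 5 = [(11, 2, 532), (11, 4, 266), (76, 2, 77), (266, 2, 22),
      (266, 4, 11), (836, 2, 7), (2926, 2, 2), (2926, 4, 1)] from by decide +kernel] at hm
    simp only [List.mem_cons, Prod.mk.injEq, List.not_mem_nil, or_false] at hm
    rcases hm with ⟨rfl, rfl, rfl⟩ | ⟨rfl, rfl, rfl⟩ | ⟨rfl, rfl, rfl⟩ | ⟨rfl, rfl, rfl⟩ |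
      ⟨rfl, rfl, rfl⟩ | ⟨rfl, rfl, rfl⟩ | ⟨rfl, rfl, rfl⟩ | ⟨rfl, rfl, rfl⟩
    · have := a4 19 (by norm_num) (by norm_num)
      omega
    · have := a4 19 (by norm_num) (by norm_num)
      omega
    · exfalso
      obtain ⟨g, hg⟩ := (a11 7 (by norm_num) (by norm_num)).1 (by norm_num)
      exact hc7 5 (by norm_num) (by norm_num) ⟨g, by omega⟩
    · omega
    · omega
    · exfalso
      obtain ⟨g, hg⟩ := (a11 7 (by norm_num) (by norm_num)).1 (by norm_num)
      exact hc7 5 (by norm_num) (by norm_num) ⟨g, by omega⟩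
    · omega
    · omega
  -- count
  have hcount := j1o_count4 (α := H) (fun g => 19 ∣ orderOf g) (fun g => 11 ∣ orderOf g)
    (fun g => 7 ∣ orderOf g) (fun g => orderOf g = 5) 1
    (by rw [orderOf_one]; norm_num) (by rw [orderOf_one]; norm_num)
    (by rw [orderOf_one]; norm_num) (by rw [orderOf_one]; norm_num)
    (by
      intro g hA hB
      exact hc19 11 (by norm_num) (by norm_num)
        (j1o_exists_orderOf_mul (by norm_num) (by norm_num) (by norm_num) g hA hB))
    (by
      intro g hA hC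
      exact hc19 7 (by norm_num) (by norm_num)
        (j1o_exists_orderOf_mul (by norm_num) (by norm_num) (by norm_num) g hA hC))
    (by
      intro g hA hD
      rw [hD] at hA
      omega)
    (by
      intro g hB hC
      exact hc11 (j1o_exists_orderOf_mul (by norm_num) (by norm_num) (by norm_num) g hB hC))
    (by
      intro g hB hD
      rw [hD] at hB
      omega)
    (by
      intro g hC hD
      rw [hD] at hC
      omega)
  rw [h] at hcount
  omega

end Cfsg.Agent.Helper31
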