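import Mathlib
import Cfsg.Agent.Helper9.OrdTools
import Cfsg.Agent.Helper9.OrdCount

set_option autoImplicit false

/-! helper31: CALL S4274 (helper57), pieces P2, P3, P5. -/

namespace Cfsg.Agent.Helper31

open Subgroup

/-- P2. A Sylow subgroup inside a normal subgroup all of whose Sylow `p`-subgroups are normal
is normal. -/
theorem j1o_normal_of_le {G : Type*} [Group G] [Finite G] {p : ℕ} [Fact p.Prime]
    (N : Subgroup G) [N.Normal] (P : Sylow p G) (hPN : (P : Subgroup G) ≤ N)
    (hN : ∀ Q : Sylow p N, (Q : Subgroup N).Normal) : (P : Subgroup G).Normal := by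
  have hQ : ((P.subtype hPN : Sylow p N) : Subgroup N).Normal := hN _
  have hchar : ((P.subtype hPN : Sylow p N) : Subgroup N).Characteristic :=
    Sylow.characteristic_of_normal _ hQ
  have hnorm := ConjAct.normal_of_characteristic_of_normal (H := N)
    (K := ((P.subtype hPN : Sylow p N) : Subgroup N))
  rw [Sylow.coe_subtype, Subgroup.map_subgroupOf_eq_of_le hPN] at hnorm
  exact hnorm

/-- P3. If the Sylow `p`-subgroups of `G ⧸ N` are normal, then `P ⊔ N` is normal. -/
theorem j1o_sup_normal {G : Type*} [Group G] [Finite G] {p : ℕ} [Fact p.Prime]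
    (N : Subgroup G) [N.Normal]
    (h : ∀ Q : Sylow p (G ⧸ N), (Q : Subgroup (G ⧸ N)).Normal) (P : Sylow p G) :
    ((P : Subgroup G) ⊔ N).Normal := by
  have hQ := h (P.mapSurjective (QuotientGroup.mk'_surjective N))
  rw [Sylow.coe_mapSurjective] at hQ
  have hc : (((P : Subgroup G).map (QuotientGroup.mk' N)).comap (QuotientGroup.mk' N)).Normal :=
    hQ.comap _
  rw [QuotientGroup.comap_map_mk', sup_comm] at hc
  exact hc

/-- P5. If the Sylow `p`-subgroups have order `p`, there are at least `n_p (p - 1)` elements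
of order `p`. -/
theorem j1o_card_orderOf_ge {G : Type*} [Group G] [Finite G] {p : ℕ} [Fact p.Prime]
    (hS : ∀ P : Sylow p G, Nat.card (P : Subgroup G) = p) :
    Nat.card (Sylow p G) * (p - 1) ≤ Nat.card {g : G // orderOf g = p} := by
  have hp : p.Prime := Fact.out
  have h1 := Cfsg.Agent.Helper9.OrdTools.card_ti_ge (fun P : Sylow p G => (P : Subgroup G)) p hS
    (by
      intro P Q hPQ g hgP hgQ
      by_contra hg1
      apply hPQ
      have e1 := Cfsg.Agent.Helper9.OrdTools.zpowers_eq_sylow P (hS P) hgP hg1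
      have e2 := Cfsg.Agent.Helper9.OrdTools.zpowers_eq_sylow Q (hS Q) hgQ hg1
      exact Sylow.ext (e1.symm.trans e2))
  refine h1.trans (Cfsg.Agent.Helper9.OrdTools.card_mono _ _ ?_)
  rintro g ⟨hg1, P, hgP⟩
  have hdvd : orderOf g ∣ p := by
    have h := Subgroup.orderOf_dvd_natCard _ hgP
    rwa [hS P] at h
  rcases (Nat.dvd_prime hp).1 hdvd with h | h
  · exact absurd (orderOf_eq_one_iff.1 h) hg1
  · exact h

end Cfsg.Agent.Helper31
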