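import Mathlib
import Cfsg.Agent.Lead.LWDefs
import Cfsg.Agent.Helper12.LWC1
import Cfsg.Agent.Helper37.LWC2

set_option autoImplicit false

namespace Cfsg.Agent.Helper31.LWC3

open Cfsg.Agent.Lead.LW

variable {α : Type*} [Fintype α] [DecidableEq α]

-- PIECE C3  (assembly: C1 C2 + maximality)
theorem invol_on_fix (G : Subgroup (Equiv.Perm α)) (k : ℕ) (hG : KTrans G k) (Γ : Finset α)
    (hΓ : Γ.card = k) (P : Subgroup (Equiv.Perm α)) (hP : P ≤ pstab G Γ)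
    (hcard : Nat.card P = 2 ^ (Nat.card (pstab G Γ)).factorization 2)
    (hnofix : ∀ δ, δ ∉ Γ → ∃ g ∈ P, g δ ≠ δ)
    (Q : Subgroup (Equiv.Perm α)) (hQ : MaxQ G k Q)
    (Γ' : Finset α) (hΓ' : Γ'.card = k) (hsub : Γ' ⊆ fixF Q) :
    ∃ x ∈ nrm G Q, x * x ∈ Q ∧ (∀ a ∈ Γ', x a = a) ∧ ∀ a ∈ fixF Q, a ∉ Γ' → x a ≠ a := by
  classical
  obtain ⟨hQ2, ⟨Δ₀, hΔ₀c, hQΔ₀⟩, hmax⟩ := hQ
  have hQG : Q ≤ G := fun q hq => (mem_pstab.1 (hQΔ₀ hq)).1
  have hQL : Q ≤ pstab G Γ' := by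
    intro q hq
    exact mem_pstab.2 ⟨hQG hq, fun a ha => mem_fixF.1 (hsub ha) q hq⟩
  -- Q is not a Sylow 2-subgroup of L
  have hns : Nat.card Q ≠ 2 ^ (Nat.card (pstab G Γ')).factorization 2 := by
    intro hc
    have hmv := Cfsg.Agent.Helper12.LWC1.syl_moves G k hG Γ hΓ P hP hcard hnofix Γ' hΓ' Q hQL hc
    -- a point of Δ₀ outside Γ'
    obtain ⟨δ, hδΔ, hδΓ⟩ : ∃ δ ∈ Δ₀, δ ∉ Γ' := by
      by_contra hcon
      have hsub' : Δ₀ ⊆ Γ' := by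
        intro d hd
        by_contra h
        exact hcon ⟨d, hd, h⟩
      have := Finset.card_le_card hsub'
      omega
    obtain ⟨g, hgQ, hgδ⟩ := hmv δ hδΓ
    exact hgδ ((mem_pstab.1 (hQΔ₀ hgQ)).2 δ hδΔ)
  obtain ⟨x, hxL, hxQ, hxx, hxn, hx2⟩ := Cfsg.Agent.Helper37.LWC2.exists_normalizing (pstab G Γ') Q hQL hQ2 hns
  have hxG : x ∈ G := (mem_pstab.1 hxL).1
  refine ⟨x, mem_nrm.2 ⟨hxG, hxn⟩, hxx, (mem_pstab.1 hxL).2, ?_⟩
  intro a haF haΓ hxa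
  apply hxQ
  -- the enlarged 2-group fixes `insert a Γ'` pointwise
  have hle : Q ⊔ Subgroup.zpowers x ≤ pstab G (insert a Γ') := by
    apply sup_le
    · intro q hq
      refine mem_pstab.2 ⟨hQG hq, fun c hc => ?_⟩
      rcases Finset.mem_insert.1 hc with rfl | hc
      · exact mem_fixF.1 haF q hq
      · exact mem_fixF.1 (hsub hc) q hq
    · rw [Subgroup.zpowers_le]
      refine mem_pstab.2 ⟨hxG, fun c hc => ?_⟩
      rcases Finset.mem_insert.1 hc with rfl | hc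
      · exact hxa
      · exact (mem_pstab.1 hxL).2 c hc
  have hcard' : (insert a Γ').card = k + 1 := by
    rw [Finset.card_insert_of_notMem haΓ, hΓ']
  have hle2 := hmax (insert a Γ') (Q ⊔ Subgroup.zpowers x) hcard' hle hx2
  have heq : Q = Q ⊔ Subgroup.zpowers x := Subgroup.eq_of_le_of_card_ge le_sup_left hle2
  rw [heq]
  exact (le_sup_right : Subgroup.zpowers x ≤ Q ⊔ Subgroup.zpowers x) (Subgroup.mem_zpowers x)

end Cfsg.Agent.Helper31.LWC3
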