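import Mathlib
import Cfsg.Agent.Lead.LWDefs
import Cfsg.Agent.Helper37.LWC4m
import Cfsg.Agent.Helper28.LWC5
import Cfsg.Agent.Helper28.LWC6

set_option autoImplicit false

namespace Cfsg.Agent.Helper31.LWC7

open Cfsg.Agent.Lead.LW

variable {α : Type*} [Fintype α] [DecidableEq α]

-- PIECE C7  (assembly: C4m C5 C6 + maximality)
theorem swap_of_maxQ (G : Subgroup (Equiv.Perm α)) (k : ℕ) (Q : Subgroup (Equiv.Perm α))
    (hQ : MaxQ G k Q) (Θ : Finset α) (a b : α) (hΘ : Θ ⊆ fixF Q) (ha : a ∈ fixF Q)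
    (hb : b ∈ fixF Q) (haΘ : a ∉ Θ) (hbΘ : b ∉ Θ) (hab : a ≠ b) (hΘc : Θ.card + 1 = k)
    (x₁ x₂ : Equiv.Perm α) (h₁ : x₁ ∈ nrm G Q) (h₂ : x₂ ∈ nrm G Q)
    (hx₁ : x₁ * x₁ ∈ Q) (hx₂ : x₂ * x₂ ∈ Q)
    (hf₁ : ∀ c ∈ insert a Θ, x₁ c = c) (hm₁ : ∀ c ∈ fixF Q, c ∉ insert a Θ → x₁ c ≠ c)
    (hf₂ : ∀ c ∈ insert b Θ, x₂ c = c) (hm₂ : ∀ c ∈ fixF Q, c ∉ insert b Θ → x₂ c ≠ c) :
    ∃ g ∈ G, g a = b ∧ g b = a ∧ ∀ c ∈ Θ, g c = c := by
  classical
  obtain ⟨hQ2, ⟨Δ₀, hΔ₀c, hQΔ₀⟩, hmax⟩ := hQ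
  have hQG : Q ≤ G := fun q hq => (mem_pstab.1 (hQΔ₀ hq)).1
  -- the normaliser permutes the fixed points
  have F1 : ∀ n ∈ nrm G Q, ∀ c ∈ fixF Q, n c ∈ fixF Q := by
    intro n hn c hc
    rw [mem_fixF]
    intro q hq
    have hq' : n⁻¹ * q * n ∈ Q := by
      rw [(mem_nrm.1 hn).2 (n⁻¹ * q * n)]
      have e : n * (n⁻¹ * q * n) * n⁻¹ = q := by group
      rw [e]
      exact hq
    have h1 := mem_fixF.1 hc _ hq'
    have e2 : q (n c) = n ((n⁻¹ * q * n) c) := by simp [Equiv.Perm.mul_apply]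
    rw [e2, h1]
  -- the kernel of the action on the fixed points
  obtain ⟨T, hTdef⟩ : ∃ T : Subgroup (Equiv.Perm α), T = pstab (nrm G Q) (fixF Q) := ⟨_, rfl⟩
  have hTmem : ∀ t, t ∈ T ↔ t ∈ nrm G Q ∧ ∀ c ∈ fixF Q, t c = c := by
    intro t
    rw [hTdef]
    exact mem_pstab
  have hTN : T ≤ nrm G Q := fun t ht => ((hTmem t).1 ht).1
  have hnorm : ∀ n ∈ nrm G Q, ∀ t ∈ T, n * t * n⁻¹ ∈ T := by
    intro n hn t ht
    rw [hTmem]
    refine ⟨(nrm G Q).mul_mem ((nrm G Q).mul_mem hn (hTN ht)) ((nrm G Q).inv_mem hn), ?_⟩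
    intro c hc
    have h1 : n⁻¹ c ∈ fixF Q := F1 _ ((nrm G Q).inv_mem hn) c hc
    have h2 := ((hTmem t).1 ht).2 _ h1
    rw [Equiv.Perm.mul_apply, Equiv.Perm.mul_apply, h2]
    exact Equiv.apply_symm_apply n c
  have hQT : Q ≤ T := by
    intro q hq
    rw [hTmem]
    refine ⟨mem_nrm.2 ⟨hQG hq, fun h => ?_⟩, fun c hc => mem_fixF.1 hc q hq⟩
    constructor
    · intro hh
      exact Q.mul_mem (Q.mul_mem hq hh) (Q.inv_mem hq)
    · intro hh
      have h3 := Q.mul_mem (Q.mul_mem (Q.inv_mem hq) hh) hq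
      have e : q⁻¹ * (q * h * q⁻¹) * q = h := by group
      rwa [e] at h3
  -- the closure lies in `N` and fixes `Θ` pointwise
  have hcl : Subgroup.closure ({x₁, x₂} : Set (Equiv.Perm α)) ≤ pstab (nrm G Q) Θ := by
    rw [Subgroup.closure_le]
    intro y hy
    rcases hy with rfl | hy
    · exact mem_pstab.2 ⟨h₁, fun c hc => hf₁ c (Finset.mem_insert_of_mem hc)⟩
    · rw [Set.mem_singleton_iff] at hy
      rw [hy]
      exact mem_pstab.2 ⟨h₂, fun c hc => hf₂ c (Finset.mem_insert_of_mem hc)⟩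
  -- a point fixed by `x₁` (resp. `x₂`) inside the fixed points
  have fix₁ : ∀ c ∈ fixF Q, x₁ c = c → c ∈ insert a Θ := by
    intro c hc hxc
    by_contra h
    exact hm₁ c hc h hxc
  have fix₂ : ∀ c ∈ fixF Q, x₂ c = c → c ∈ insert b Θ := by
    intro c hc hxc
    by_contra h
    exact hm₂ c hc h hxc
  rcases Cfsg.Agent.Helper37.LWC4m.dihedral_mod (nrm G Q) T hTN hnorm x₁ x₂ h₁ h₂ (hQT hx₁) (hQT hx₂) with
    ⟨s, hscl, hss, hsx⟩ | ⟨z, hzcl, hzT, hzz, hzx₁, hzx₂⟩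
  · -- the reflection swaps `a` and `b`
    have hsN : s ∈ nrm G Q := (mem_pstab.1 (hcl hscl)).1
    have hsΘ : ∀ c ∈ Θ, s c = c := (mem_pstab.1 (hcl hscl)).2
    have hsa : s a = b := by
      -- `x₂ (s a) = s a`
      have hsaF : s a ∈ fixF Q := F1 s hsN a ha
      have h3 : (s * x₁ * s⁻¹ * x₂⁻¹) (x₂ (s a)) = s a := by
        simp [Equiv.Perm.mul_apply, hf₁ a (Finset.mem_insert_self a Θ)]
      have h4 : x₂ (s a) ∈ fixF Q := F1 x₂ h₂ _ hsaF
      have h5 := ((hTmem _).1 hsx).2 _ h4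
      rw [h5] at h3
      have h6 := fix₂ _ hsaF h3
      rcases Finset.mem_insert.1 h6 with h | h
      · exact h
      · exfalso
        have h7 := hsΘ _ h
        have h8 : s a = a := s.injective h7
        rw [h8] at h
        exact haΘ h
    have hsb : s b = a := by
      have h3 := ((hTmem _).1 hss).2 a ha
      rw [Equiv.Perm.mul_apply, hsa] at h3
      exact h3
    exact ⟨s, (mem_nrm.1 hsN).1, hsa, hsb, hsΘ⟩
  · -- the central involution enlarges `Q`: impossible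
    exfalso
    have hzN : z ∈ nrm G Q := (mem_pstab.1 (hcl hzcl)).1
    have hzΘ : ∀ c ∈ Θ, z c = c := (mem_pstab.1 (hcl hzcl)).2
    have hza : z a = a := by
      have hzaF : z a ∈ fixF Q := F1 z hzN a ha
      have h3 : (z * x₁ * z⁻¹ * x₁⁻¹) (x₁ (z a)) = z a := by
        simp [Equiv.Perm.mul_apply, hf₁ a (Finset.mem_insert_self a Θ)]
      have h4 : x₁ (z a) ∈ fixF Q := F1 x₁ h₁ _ hzaF
      have h5 := ((hTmem _).1 hzx₁).2 _ h4
      rw [h5] at h3
      have h6 := fix₁ _ hzaF h3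
      rcases Finset.mem_insert.1 h6 with h | h
      · exact h
      · exfalso
        have h7 := hzΘ _ h
        have h8 : z a = a := z.injective h7
        rw [h8] at h
        exact haΘ h
    have hzb : z b = b := by
      have hzbF : z b ∈ fixF Q := F1 z hzN b hb
      have h3 : (z * x₂ * z⁻¹ * x₂⁻¹) (x₂ (z b)) = z b := by
        simp [Equiv.Perm.mul_apply, hf₂ b (Finset.mem_insert_self b Θ)]
      have h4 : x₂ (z b) ∈ fixF Q := F1 x₂ h₂ _ hzbF
      have h5 := ((hTmem _).1 hzx₂).2 _ h4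
      rw [h5] at h3
      have h6 := fix₂ _ hzbF h3
      rcases Finset.mem_insert.1 h6 with h | h
      · exact h
      · exfalso
        have h7 := hzΘ _ h
        have h8 : z b = b := z.injective h7
        rw [h8] at h
        exact hbΘ h
    obtain ⟨c, hc, e, he⟩ := Cfsg.Agent.Helper28.LWC5.exists_odd_pow z
    have hwN : z ^ c ∈ nrm G Q := (nrm G Q).pow_mem hzN c
    have hwT : z ^ c ∉ T := by
      intro hw
      apply hzT
      obtain ⟨j, rfl⟩ := hc
      have h3 : (z * z) ^ j ∈ T := T.pow_mem hzz j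
      have h4 : z = ((z * z) ^ j)⁻¹ * z ^ (2 * j + 1) := by
        rw [pow_succ, pow_mul, pow_two]
        group
      rw [h4]
      exact T.mul_mem (T.inv_mem h3) hw
    have hP2 := Cfsg.Agent.Helper28.LWC6.isPGroup_sup_zpowers Q hQ2 (z ^ c) (mem_nrm.1 hwN).2 e he
    have hfixw : ∀ d, z d = d → (z ^ c) d = d := fun d hd =>
      Equiv.Perm.pow_apply_eq_self_of_apply_eq_self hd c
    have hle : Q ⊔ Subgroup.zpowers (z ^ c) ≤ pstab G (insert a (insert b Θ)) := by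
      apply sup_le
      · intro q hq
        refine mem_pstab.2 ⟨hQG hq, fun d hd => ?_⟩
        rcases Finset.mem_insert.1 hd with rfl | hd
        · exact mem_fixF.1 ha q hq
        · rcases Finset.mem_insert.1 hd with rfl | hd
          · exact mem_fixF.1 hb q hq
          · exact mem_fixF.1 (hΘ hd) q hq
      · rw [Subgroup.zpowers_le]
        refine mem_pstab.2 ⟨(mem_nrm.1 hwN).1, fun d hd => ?_⟩
        apply hfixw
        rcases Finset.mem_insert.1 hd with rfl | hd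
        · exact hza
        · rcases Finset.mem_insert.1 hd with rfl | hd
          · exact hzb
          · exact hzΘ d hd
    have hcard' : (insert a (insert b Θ)).card = k + 1 := by
      have hab' : a ∉ insert b Θ := by
        intro h
        rcases Finset.mem_insert.1 h with h | h
        · exact hab h
        · exact haΘ h
      rw [Finset.card_insert_of_notMem hab', Finset.card_insert_of_notMem hbΘ, hΘc]
    have hle2 := hmax _ _ hcard' hle hP2
    have heq : Q = Q ⊔ Subgroup.zpowers (z ^ c) := Subgroup.eq_of_le_of_card_ge le_sup_left hle2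
    apply hwT
    apply hQT
    rw [heq]
    exact (le_sup_right : Subgroup.zpowers (z ^ c) ≤ Q ⊔ Subgroup.zpowers (z ^ c))
      (Subgroup.mem_zpowers _)

end Cfsg.Agent.Helper31.LWC7
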