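import Mathlib
import Cfsg.Agent.Lead.LWDefs
import Cfsg.Agent.Helper80.LWC0
import Cfsg.Agent.Helper42.LWC8
import Cfsg.Agent.Helper31.LWC3
import Cfsg.Agent.Helper31.LWC7

set_option autoImplicit false

namespace Cfsg.Agent.Helper31.LWC9

open Cfsg.Agent.Lead.LW

variable {α : Type*} [Fintype α] [DecidableEq α]

-- PIECE C9  (assembly: C0 C3 C7 C8)
theorem good_of_nofix (G : Subgroup (Equiv.Perm α)) (k : ℕ) (hkn : k < Fintype.card α)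
    (hG : KTrans G k) (Γ : Finset α) (hΓ : Γ.card = k) (P : Subgroup (Equiv.Perm α))
    (hP : P ≤ pstab G Γ) (hcard : Nat.card P = 2 ^ (Nat.card (pstab G Γ)).factorization 2)
    (hnofix : ∀ δ, δ ∉ Γ → ∃ g ∈ P, g δ ≠ δ) : Good G k := by
  classical
  obtain ⟨Q, hQ⟩ := Cfsg.Agent.Helper80.LWC0.exists_maxQ G k hkn
  obtain ⟨Δ₀, hΔ₀c, hQΔ₀⟩ := hQ.2.1
  have hΔF : Δ₀ ⊆ fixF Q := by
    intro d hd
    exact mem_fixF.2 (fun g hg => (mem_pstab.1 (hQΔ₀ hg)).2 d hd)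
  apply Cfsg.Agent.Helper42.LWC8.good_of_swaps G k Δ₀ hΔ₀c
  intro a ha b hb hab
  obtain ⟨Θ, hΘdef⟩ : ∃ Θ : Finset α, Θ = (Δ₀.erase a).erase b := ⟨_, rfl⟩
  have hbE : b ∈ Δ₀.erase a := Finset.mem_erase.2 ⟨Ne.symm hab, hb⟩
  have hΘc : Θ.card + 1 = k := by
    rw [hΘdef, Finset.card_erase_of_mem hbE, Finset.card_erase_of_mem ha, hΔ₀c]
    have h2 : 2 ≤ Δ₀.card := by
      have := Finset.card_pos.2 ⟨b, hbE⟩
      rw [Finset.card_erase_of_mem ha] at this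
      omega
    omega
  have hΘΔ : Θ ⊆ Δ₀ := by
    rw [hΘdef]
    exact (Finset.erase_subset _ _).trans (Finset.erase_subset _ _)
  have hΘF : Θ ⊆ fixF Q := hΘΔ.trans hΔF
  have haΘ : a ∉ Θ := by
    rw [hΘdef]
    intro h
    exact (Finset.mem_erase.1 (Finset.mem_erase.1 h).2).1 rfl
  have hbΘ : b ∉ Θ := by
    rw [hΘdef]
    intro h
    exact (Finset.mem_erase.1 h).1 rfl
  have hca : (insert a Θ).card = k := by
    rw [Finset.card_insert_of_notMem haΘ, hΘc]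
  have hcb : (insert b Θ).card = k := by
    rw [Finset.card_insert_of_notMem hbΘ, hΘc]
  have hsa : insert a Θ ⊆ fixF Q := by
    intro c hc
    rcases Finset.mem_insert.1 hc with rfl | hc
    · exact hΔF ha
    · exact hΘF hc
  have hsb : insert b Θ ⊆ fixF Q := by
    intro c hc
    rcases Finset.mem_insert.1 hc with rfl | hc
    · exact hΔF hb
    · exact hΘF hc
  obtain ⟨x₁, h₁, hx₁, hf₁, hm₁⟩ :=
    Cfsg.Agent.Helper31.LWC3.invol_on_fix G k hG Γ hΓ P hP hcard hnofix Q hQ (insert a Θ) hca hsa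
  obtain ⟨x₂, h₂, hx₂, hf₂, hm₂⟩ :=
    Cfsg.Agent.Helper31.LWC3.invol_on_fix G k hG Γ hΓ P hP hcard hnofix Q hQ (insert b Θ) hcb hsb
  obtain ⟨g, hg, hga, hgb, hgΘ⟩ := Cfsg.Agent.Helper31.LWC7.swap_of_maxQ G k Q hQ Θ a b hΘF (hΔF ha) (hΔF hb) haΘ hbΘ
    hab hΘc x₁ x₂ h₁ h₂ hx₁ hx₂ hf₁ hm₁ hf₂ hm₂
  refine ⟨g, hg, hga, hgb, fun c hc hca' hcb' => hgΘ c ?_⟩
  rw [hΘdef]
  exact Finset.mem_erase.2 ⟨hcb', Finset.mem_erase.2 ⟨hca', hc⟩⟩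

end Cfsg.Agent.Helper31.LWC9
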