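import Mathlib
import Cfsg.Agent.S0721

set_option autoImplicit false

namespace Cfsg.Agent.Helper31

/-- A nonabelian simple subgroup `S` of a normal subgroup `N`, normalised by `N`, has order
bounded in terms of the centraliser of an involution `t` of the ambient group, given the
Brauer-Fowler bound `hC` for the case that `t` normalises `S`. -/
theorem simple_factor_card_le {G : Type*} [Group G] [Finite G]
    (hC : ∀ (S : Subgroup G) [IsSimpleGroup S], ¬ IsMulCommutative S → ∀ t : G, t * t = 1 →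
      (∀ s ∈ S, t * s * t⁻¹ ∈ S) → ∀ c : ℕ,
      Nat.card ↥(S ⊓ Subgroup.centralizer ({t} : Set G)) ≤ c → Nat.card S ≤ (2 * c ^ 2).factorial)
    (N : Subgroup G) [N.Normal] (S : Subgroup G) [IsSimpleGroup S] (hna : ¬ IsMulCommutative S)
    (hSN : S ≤ N) (hnorm : ∀ n ∈ N, ∀ s ∈ S, n * s * n⁻¹ ∈ S) (t : G) (ht : t * t = 1) (c : ℕ)
    (hc : Nat.card ↥(Subgroup.centralizer ({t} : Set G)) ≤ c) :
    Nat.card S ≤ (2 * c ^ 2).factorial := by
  have hti : t⁻¹ = t := inv_eq_of_mul_eq_one_right ht
  have hc1 : 1 ≤ c := le_trans (Nat.succ_le_of_lt Nat.card_pos) hc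
  by_cases hcase : ∀ s ∈ S, t * s * t⁻¹ ∈ S
  · exact hC S hna t ht hcase c (le_trans (Subgroup.card_le_of_le inf_le_right) hc)
  · -- the subgroup of elements of `S` moved into `S` by `t`
    have hconjN : ∀ x ∈ N, t * x * t⁻¹ ∈ N := fun x hx => ‹N.Normal›.conj_mem x hx t
    let J : Subgroup S :=
      { carrier := {x | t * (x : G) * t⁻¹ ∈ S}
        one_mem' := by simp
        mul_mem' := by
          intro x y hx hy
          have : t * ((x * y : S) : G) * t⁻¹ = (t * (x : G) * t⁻¹) * (t * (y : G) * t⁻¹) := by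
            simp [mul_assoc]
          change t * ((x * y : S) : G) * t⁻¹ ∈ S
          rw [this]
          exact S.mul_mem hx hy
        inv_mem' := by
          intro x hx
          have : t * ((x⁻¹ : S) : G) * t⁻¹ = (t * (x : G) * t⁻¹)⁻¹ := by
            simp [mul_assoc]
          change t * ((x⁻¹ : S) : G) * t⁻¹ ∈ S
          rw [this]
          exact S.inv_mem hx }
    have hJmem : ∀ x : S, x ∈ J ↔ t * (x : G) * t⁻¹ ∈ S := fun x => Iff.rfl
    have hJn : J.Normal := by
      refine ⟨fun x hx g => ?_⟩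
      rw [hJmem] at hx ⊢
      have : t * ((g * x * g⁻¹ : S) : G) * t⁻¹ =
          (t * (g : G) * t⁻¹) * (t * (x : G) * t⁻¹) * (t * (g : G) * t⁻¹)⁻¹ := by
        simp [mul_assoc]
      rw [this]
      exact hnorm _ (hconjN _ (hSN g.2)) _ hx
    have hJ : J = ⊥ := by
      rcases hJn.eq_bot_or_eq_top with h | h
      · exact h
      · exfalso
        apply hcase
        intro s hs
        have : (⟨s, hs⟩ : S) ∈ J := by rw [h]; trivial
        exact (hJmem _).mp this
    have hJ1 : ∀ x ∈ S, t * x * t⁻¹ ∈ S → x = 1 := by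
      intro x hx hx'
      have : (⟨x, hx⟩ : S) ∈ J := (hJmem _).mpr hx'
      rw [hJ, Subgroup.mem_bot] at this
      exact congrArg Subtype.val this
    -- elements of `S` commute with elements of the conjugate of `S`
    have hcomm : ∀ x ∈ S, ∀ y ∈ S, x * (t * y * t⁻¹) = (t * y * t⁻¹) * x := by
      intro x hx y hy
      have hw : x * (t * y * t⁻¹) * x⁻¹ * (t * y * t⁻¹)⁻¹ = 1 := by
        apply hJ1
        · have h1 : (t * y * t⁻¹) * x⁻¹ * (t * y * t⁻¹)⁻¹ ∈ S :=
            hnorm _ (hconjN _ (hSN hy)) _ (S.inv_mem hx)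
          have : x * (t * y * t⁻¹) * x⁻¹ * (t * y * t⁻¹)⁻¹ =
              x * ((t * y * t⁻¹) * x⁻¹ * (t * y * t⁻¹)⁻¹) := by group
          rw [this]
          exact S.mul_mem hx h1
        · have h1 : (t * x * t⁻¹) * y * (t * x * t⁻¹)⁻¹ ∈ S :=
            hnorm _ (hconjN _ (hSN hx)) _ hy
          have : t * (x * (t * y * t⁻¹) * x⁻¹ * (t * y * t⁻¹)⁻¹) * t⁻¹ =
              ((t * x * t⁻¹) * y * (t * x * t⁻¹)⁻¹) * y⁻¹ := by
            have e1 : t * (x * (t * y * t⁻¹) * x⁻¹ * (t * y * t⁻¹)⁻¹) * t⁻¹ =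
                t * x * (t * y * t⁻¹) * x⁻¹ * t * y⁻¹ * (t⁻¹ * t⁻¹) := by group
            have e2 : ((t * x * t⁻¹) * y * (t * x * t⁻¹)⁻¹) * y⁻¹ =
                t * x * (t⁻¹ * y * t) * x⁻¹ * t⁻¹ * y⁻¹ := by group
            rw [e1, e2, hti, ht, mul_one]
          rw [this]
          exact S.mul_mem h1 (S.inv_mem hy)
      have : x * (t * y * t⁻¹) = (x * (t * y * t⁻¹) * x⁻¹ * (t * y * t⁻¹)⁻¹) * ((t * y * t⁻¹) * x) := by
        group
      rw [this, hw, one_mul]
    -- the injection of `S` into the centraliser of `t`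
    have hmemC : ∀ x : S, (x : G) * (t * (x : G) * t⁻¹) ∈ Subgroup.centralizer ({t} : Set G) := by
      intro x
      rw [Subgroup.mem_centralizer_iff]
      intro h hh
      rw [Set.mem_singleton_iff] at hh
      subst hh
      have h1 := hcomm x x.2 x x.2
      have e1 : h * ((x : G) * (h * (x : G) * h⁻¹)) = h * (x : G) * h * (x : G) * h := by
        rw [hti]; simp only [mul_assoc]
      have e2 : (h * (x : G) * h⁻¹) * (x : G) * h = h * (x : G) * h * (x : G) * h := by
        rw [hti]
      rw [e1, h1, e2]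
    let f : S → Subgroup.centralizer ({t} : Set G) := fun x => ⟨_, hmemC x⟩
    have hf : Function.Injective f := by
      intro x y hxy
      have hxy' : (x : G) * (t * (x : G) * t⁻¹) = (y : G) * (t * (y : G) * t⁻¹) :=
        congrArg Subtype.val hxy
      have hz : (y : G)⁻¹ * (x : G) = t * ((y : G) * (x : G)⁻¹) * t⁻¹ := by
        have : (y : G)⁻¹ * (x : G) = (y : G)⁻¹ * ((x : G) * (t * (x : G) * t⁻¹)) * (t * (x : G) * t⁻¹)⁻¹ := by
          group
        rw [this, hxy']
        group
      have hz1 : (y : G)⁻¹ * (x : G) = 1 := by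
        apply hJ1 _ (S.mul_mem (S.inv_mem y.2) x.2)
        rw [hz]
        have : t * (t * ((y : G) * (x : G)⁻¹) * t⁻¹) * t⁻¹ = (t * t) * ((y : G) * (x : G)⁻¹) * (t⁻¹ * t⁻¹) := by
          group
        rw [this, hti, ht, one_mul, mul_one]
        exact S.mul_mem y.2 (S.inv_mem x.2)
      apply Subtype.ext
      have := inv_mul_eq_one.mp hz1
      exact this.symm
    have hle : Nat.card S ≤ Nat.card ↥(Subgroup.centralizer ({t} : Set G)) :=
      Nat.card_le_card_of_injective f hf
    have h2 : c ≤ 2 * c ^ 2 := by nlinarith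
    exact le_trans hle (le_trans hc (le_trans h2 (Nat.self_le_factorial _)))

/-- PIECE D of CALL S4719, relative to the Brauer-Fowler bound `hC` (PIECE C). -/
theorem minNormal_card_le_of {G : Type*} [Group G] [Finite G]
    (hC : ∀ (S : Subgroup G) [IsSimpleGroup S], ¬ IsMulCommutative S → ∀ t : G, t * t = 1 →
      (∀ s ∈ S, t * s * t⁻¹ ∈ S) → ∀ c : ℕ,
      Nat.card ↥(S ⊓ Subgroup.centralizer ({t} : Set G)) ≤ c → Nat.card S ≤ (2 * c ^ 2).factorial)
    (N : Subgroup G) [N.Normal] (hN : N ≠ ⊥)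
    (hmin : ∀ K : Subgroup G, K.Normal → K ≤ N → K = ⊥ ∨ K = N) (heven : 2 ∣ Nat.card N) (t : G)
    (ht : t * t = 1) (c a : ℕ) (hc : Nat.card ↥(Subgroup.centralizer ({t} : Set G)) ≤ c)
    (ha : (Nat.card G).factorization 2 ≤ a) : Nat.card N ≤ ((2 * c ^ 2).factorial) ^ a := by
  obtain ⟨T, instT, m, hTs, hm, ⟨e⟩⟩ := Cfsg.Agent.S0721.result N hN hmin
  let i0 : Fin m := ⟨0, hm⟩
  have hfinfun : Finite (Fin m → T) := Finite.of_equiv N e.toEquiv
  have hfinT : Finite T :=
    Finite.of_injective (fun x : T => (Pi.mulSingle i0 x : Fin m → T))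
      (Pi.mulSingle_injective (M := fun _ : Fin m => T) i0)
  have hcard : Nat.card N = Nat.card T ^ m := by
    rw [Nat.card_congr e.toEquiv, Nat.card_fun, Nat.card_fin]
  have h2T : 2 ∣ Nat.card T := by
    rw [hcard] at heven
    exact Nat.Prime.dvd_of_dvd_pow Nat.prime_two heven
  have hma : m ≤ a := by
    have h1 : 2 ^ m ∣ Nat.card G := by
      refine dvd_trans ?_ (Subgroup.card_subgroup_dvd_card N)
      rw [hcard]
      exact pow_dvd_pow_of_dvd h2T m
    exact le_trans ((Nat.Prime.pow_dvd_iff_le_factorization Nat.prime_two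
      (Nat.card_pos.ne')).mp h1) ha
  have hc1 : 1 ≤ c := le_trans (Nat.succ_le_of_lt Nat.card_pos) hc
  have hT : Nat.card T ≤ (2 * c ^ 2).factorial := by
    by_cases hab : IsMulCommutative T
    · have hp : (Nat.card T).Prime := by
        let _ : CommGroup T := { instT with mul_comm := isMulCommutative_iff.mp hab }
        exact IsSimpleGroup.prime_card
      have h2 : 2 = Nat.card T := (Nat.prime_dvd_prime_iff_eq Nat.prime_two hp).mp h2T
      rw [← h2]
      have : 2 ≤ 2 * c ^ 2 := by nlinarith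
      exact le_trans this (Nat.self_le_factorial _)
    · -- the first factor, as a subgroup of `G`
      let φ : T →* G := N.subtype.comp (e.symm.toMonoidHom.comp (MonoidHom.mulSingle (fun _ : Fin m => T) i0))
      have hφ : Function.Injective φ := by
        intro x y hxy
        have h1 : e.symm (Pi.mulSingle i0 x) = e.symm (Pi.mulSingle i0 y) := Subtype.ext hxy
        exact Pi.mulSingle_injective (M := fun _ : Fin m => T) i0 (e.symm.injective h1)
      let ψ : T ≃* φ.range := MonoidHom.ofInjective hφ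
      have hsimp : IsSimpleGroup φ.range := ψ.symm.isSimpleGroup
      have hna : ¬ IsMulCommutative φ.range := by
        intro h
        apply hab
        refine IsMulCommutative.of_comm fun x y => ?_
        apply ψ.injective
        rw [map_mul, map_mul]
        exact isMulCommutative_iff.mp h _ _
      have hSN : φ.range ≤ N := by
        rintro _ ⟨x, rfl⟩
        exact (e.symm (Pi.mulSingle i0 x)).2
      have hnorm : ∀ n ∈ N, ∀ s ∈ φ.range, n * s * n⁻¹ ∈ φ.range := by
        rintro n hn _ ⟨x, rfl⟩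
        let y : Fin m → T := e ⟨n, hn⟩
        refine ⟨y i0 * x * (y i0)⁻¹, ?_⟩
        have h1 : (Pi.mulSingle i0 (y i0 * x * (y i0)⁻¹) : Fin m → T) =
            y * Pi.mulSingle i0 x * y⁻¹ := by
          funext i
          by_cases hi : i = i0
          · subst hi; simp
          · simp [Pi.mulSingle_eq_of_ne hi]
        have h2 : e.symm (Pi.mulSingle i0 (y i0 * x * (y i0)⁻¹)) =
            ⟨n, hn⟩ * e.symm (Pi.mulSingle i0 x) * (⟨n, hn⟩ : N)⁻¹ := by
          rw [h1, map_mul, map_mul, map_inv]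
          simp [y]
        show ((e.symm (Pi.mulSingle i0 (y i0 * x * (y i0)⁻¹)) : N) : G) = _
        rw [h2]
        rfl
      have := simple_factor_card_le hC N φ.range hna hSN hnorm t ht c hc
      rwa [← Nat.card_congr ψ.toEquiv] at this
  rw [hcard]
  exact le_trans (Nat.pow_le_pow_left hT m) (Nat.pow_le_pow_right (Nat.factorial_pos _) hma)

end Cfsg.Agent.Helper31
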