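import Mathlib
import Cfsg.Agent.Helper31.MinNormalBound
import Cfsg.Agent.Helper79.BFAut

set_option autoImplicit false

namespace Cfsg.Agent.Helper31

/-- PIECE D of CALL S4719: a minimal normal subgroup of even order is bounded in terms of the
centraliser of an involution and the 2-part of the group order. -/
theorem minNormal_card_le {G : Type*} [Group G] [Finite G] (N : Subgroup G) [N.Normal] (hN : N ≠ ⊥) (hmin : ∀ K : Subgroup G, K.Normal → K ≤ N → K = ⊥ ∨ K = N) (heven : 2 ∣ Nat.card N) (t : G) (ht : t * t = 1) (c a : ℕ) (hc : Nat.card ↥(Subgroup.centralizer ({t} : Set G)) ≤ c) (ha : (Nat.card G).factorization 2 ≤ a) : Nat.card N ≤ ((2 * c ^ 2).factorial) ^ a :=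
  minNormal_card_le_of (fun S _ hna t ht hn c hc => Cfsg.Agent.Helper79.bf_aut S hna t ht hn c hc)
    N hN hmin heven t ht c a hc ha

end Cfsg.Agent.Helper31
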