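import Mathlib
import Cfsg.Agent.Helper96.OHDefs
import Cfsg.Agent.Helper37.OHOFIXCONGR
import Cfsg.Agent.Helper31.OHOFIX

/-!
# helper31: CALL S5992 piece OBADDIR, general core (`o_bad_dir_gen`): the case analysis with the
bad element and the pieces OCDVD, ONDSUBCARD, OSUB, OTYPEEVEN passed in as hypotheses.
-/

set_option autoImplicit false
set_option linter.unusedSectionVars false
set_option linter.unusedVariables false

namespace Cfsg.Agent.Helper31.OH5992

open Module Polynomial Cfsg Cfsg.Geo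
open Cfsg.Agent.Helper13.TIu Cfsg.Agent.Helper96.OH

variable {ι : Type} [Fintype ι] [DecidableEq ι] {F : Type*} [Field F] (Q : (ι → F) → F)

/-- the predicate "hyperbolic nondegenerate `m`-space" is stable under an injective isometry -/
theorem obd_pred_map (hQ : IsNondegenerateQuadraticForm Q) (T : Module.End F (ι → F))
    (hT : OPres Q T) (hinj : Function.Injective T) (m : ℕ) (W : Submodule F (ι → F))
    (hW : finrank F W = m ∧ ONd Q W ∧ OPl Q W) :
    finrank F (W.map T) = m ∧ ONd Q (W.map T) ∧ OPl Q (W.map T) := by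
  have hfin : ∀ U : Submodule F (ι → F), finrank F (U.map T) = finrank F U := fun U =>
    (Submodule.equivMapOfInjective T hinj U).finrank_eq.symm
  have hpol : ∀ u v, QuadraticMap.polar Q (T u) (T v) = QuadraticMap.polar Q u v := by
    intro u v
    unfold QuadraticMap.polar
    rw [← map_add, hT, hT, hT]
  obtain ⟨h1, h2, U, hUW, hUs, hUd⟩ := hW
  refine ⟨by rw [hfin, h1], ?_, ?_⟩
  · rintro w' ⟨w, hw, rfl⟩ hw0
    have hw0' : w ≠ 0 := by
      rintro rfl
      exact hw0 (map_zero T)
    obtain ⟨⟨x, hx, hx1⟩, ⟨y, hy, hy1⟩⟩ := h2 w hw hw0'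
    exact ⟨⟨T x, Submodule.mem_map_of_mem hx, by rw [hpol]; exact hx1⟩,
      ⟨T y, Submodule.mem_map_of_mem hy, by rw [hpol]; exact hy1⟩⟩
  · refine ⟨U.map T, Submodule.map_mono hUW, ?_, by rw [hfin, hfin]; exact hUd⟩
    rintro u' ⟨u, hu, rfl⟩
    rw [hT]
    exact hUs u hu

/-- OBADDIR, general core. -/
theorem o_bad_dir_gen [Fintype F] (hQ : IsNondegenerateQuadraticForm Q) (n m r i c : ℕ)
    [Fact r.Prime] (hrF : (r : F) ≠ 0) (hi0 : 0 < i) (hc : c = if Even i then i else 2 * i)
    (hn : Fintype.card ι = n) (hnodd : Odd n) (hme : Even m) (hm2 : 2 ≤ m) (hmn : m < n)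
    (hΩ : r ∣ Nat.card {W : Submodule F (ι → F) // finrank F W = m ∧ ONd Q W ∧ OPl Q W})
    (hbad : c ≤ n → ∃ T : Module.End F (ι → F), OPres Q T ∧ T ^ r = 1 ∧
      finrank F (LinearMap.ker (T - 1)) = n % c ∧
      ∃ W : Submodule F (ι → F), (finrank F W = m ∧ ONd Q W ∧ OPl Q W) ∧ W.map T ≤ W)
    (hcdvd : ∀ T : Module.End F (ι → F), OPres Q T → T ^ r = 1 →
      ∀ N : Submodule F (ι → F), N.map T ≤ N → ONd Q N →
      c ∣ finrank F N - finrank F (N ⊓ LinearMap.ker (T - 1) : Submodule F (ι → F)))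
    (hndsub : ∀ K : Submodule F (ι → F), ONd Q K → finrank F K < c →
      ∀ W₀ : Submodule F (ι → F), ((finrank F W₀ = m ∧ ONd Q W₀ ∧ OPl Q W₀) ∧ W₀ ≤ K) →
      ¬ r ∣ Nat.card {W : Submodule F (ι → F) //
        (finrank F W = m ∧ ONd Q W ∧ OPl Q W) ∧ W ≤ K})
    (hsub : ∀ K : Submodule F (ι → F), ONd Q K → ∀ e : ℕ, Even e → 0 < e → e < finrank F K →
      ∀ b : Prop, ∃ X : Submodule F (ι → F), X ≤ K ∧ ONd Q X ∧ finrank F X = e ∧ (OPl Q X ↔ b))
    (hteven : ∀ T : Module.End F (ι → F), OPres Q T → T ^ r = 1 → Even i →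
      ∀ N : Submodule F (ι → F), N.map T ≤ N → ONd Q N → N ⊓ LinearMap.ker (T - 1) = ⊥ →
      (OPl Q N ↔ Even (finrank F N / i))) :
    c ≤ m ∧ m % c < n % c ∧ (Even i → 0 < m % c ∨ Even (m / i)) := by
  classical
  have hrpr : r.Prime := Fact.out
  have hcpos : 0 < c := by
    rw [hc]
    split_ifs <;> omega
  have hceven : 2 ∣ c := by
    rw [hc]
    split_ifs with hie
    · exact hie.two_dvd
    · exact dvd_mul_right 2 i
  have hfV : finrank F (ι → F) = n := by
    rw [Module.finrank_fintype_fun_eq_card, hn]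
  have hkodd : n % c % 2 = 1 := by
    rw [Nat.mod_mod_of_dvd _ hceven]
    exact Nat.odd_iff.1 hnodd
  have hmceven : m % c % 2 = 0 := by
    rw [Nat.mod_mod_of_dvd _ hceven]
    exact Nat.even_iff.1 hme
  have hklt : n % c < c := Nat.mod_lt _ hcpos
  have hana : ∀ T : Module.End F (ι → F), OPres Q T → T ^ r = 1 →
      ∀ W : Submodule F (ι → F), (finrank F W = m ∧ ONd Q W ∧ OPl Q W) → W.map T ≤ W →
      c ∣ m - finrank F (W ⊓ LinearMap.ker (T - 1) : Submodule F (ι → F)) := by
    intro T hT hTr W hW hWT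
    have h3 := hcdvd T hT hTr W hWT hW.2.1
    rwa [hW.1] at h3
  -- step 1
  have hcm : c ≤ m := by
    by_contra hlt
    rw [not_le] at hlt
    obtain ⟨K, hK, hKc, W₀, hW₀, hrK⟩ : ∃ K : Submodule F (ι → F), ONd Q K ∧ finrank F K < c ∧
        ∃ W₀ : Submodule F (ι → F), ((finrank F W₀ = m ∧ ONd Q W₀ ∧ OPl Q W₀) ∧ W₀ ≤ K) ∧
        r ∣ Nat.card {W : Submodule F (ι → F) //
          (finrank F W = m ∧ ONd Q W ∧ OPl Q W) ∧ W ≤ K} := by
      by_cases hcn : c ≤ n
      · obtain ⟨T, hT, hTr, hfix, W₀, hW₀, hW₀T⟩ := hbad hcn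
        have hin : ∀ W : Submodule F (ι → F), (finrank F W = m ∧ ONd Q W ∧ OPl Q W) →
            W.map T ≤ W → W ≤ LinearMap.ker (T - 1) := by
          intro W hW hWT
          have h4 := hana T hT hTr W hW hWT
          have h5 : finrank F (W ⊓ LinearMap.ker (T - 1) : Submodule F (ι → F)) ≤ finrank F W :=
            Submodule.finrank_mono inf_le_left
          have h6 := Nat.eq_zero_of_dvd_of_lt h4 (by omega)
          have h7 : W ⊓ LinearMap.ker (T - 1) = W :=
            Submodule.eq_of_le_of_finrank_eq inf_le_left (by omega)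
          rw [← h7]
          exact inf_le_right
        have hKnd : ONd Q (LinearMap.ker (T - 1)) := by
          have h := (o_fix Q hQ T hT r hrpr.pos hrF hTr ⊤ le_top (ond_top Q hQ)).1
          rwa [top_inf_eq] at h
        refine ⟨LinearMap.ker (T - 1), hKnd, by rw [hfix]; exact hklt, W₀,
          ⟨hW₀, hin W₀ hW₀ hW₀T⟩, ?_⟩
        have hinj : Function.Injective T := by
          intro u v huv
          have h : T ^ (r - 1) * T = 1 := by
            rw [← pow_succ, Nat.sub_add_cancel hrpr.pos, hTr]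
          have hu := congrArg (fun S : Module.End F (ι → F) => S u) h
          have hv := congrArg (fun S : Module.End F (ι → F) => S v) h
          simp only [Module.End.mul_apply, Module.End.one_apply] at hu hv
          rw [← hu, ← hv, huv]
        have h1 := Cfsg.Agent.Helper37.OH5992.o_fix_congr T r hTr
          (fun W => finrank F W = m ∧ ONd Q W ∧ OPl Q W)
          (fun W hW => obd_pred_map Q hQ T hT hinj m W hW)
        have h2' := (h1.dvd_iff (dvd_refl r)).mp hΩ
        have h3 : Nat.card {W : Submodule F (ι → F) //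
            (finrank F W = m ∧ ONd Q W ∧ OPl Q W) ∧ W.map T ≤ W} =
            Nat.card {W : Submodule F (ι → F) //
            (finrank F W = m ∧ ONd Q W ∧ OPl Q W) ∧ W ≤ LinearMap.ker (T - 1)} := by
          apply Nat.card_congr
          apply Equiv.subtypeEquivRight
          intro W
          constructor
          · rintro ⟨hW, hWT⟩
            exact ⟨hW, hin W hW hWT⟩
          · rintro ⟨hW, hWK⟩
            refine ⟨hW, ?_⟩
            rintro _ ⟨w, hw, rfl⟩
            have h8 := hWK hw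
            rw [LinearMap.mem_ker, LinearMap.sub_apply, Module.End.one_apply, sub_eq_zero] at h8
            rw [h8]
            exact hw
        rw [← h3]
        exact h2'
      · rw [not_le] at hcn
        obtain ⟨X, -, hXnd, hXdim, hXpl⟩ := hsub ⊤ (ond_top Q hQ) m hme (by omega)
          (by rw [finrank_top, hfV]; exact hmn) True
        refine ⟨⊤, ond_top Q hQ, by rw [finrank_top, hfV]; exact hcn, X,
          ⟨⟨hXdim, hXnd, hXpl.2 trivial⟩, le_top⟩, ?_⟩
        have h3 : Nat.card {W : Submodule F (ι → F) //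
            (finrank F W = m ∧ ONd Q W ∧ OPl Q W) ∧ W ≤ ⊤} =
            Nat.card {W : Submodule F (ι → F) // finrank F W = m ∧ ONd Q W ∧ OPl Q W} := by
          apply Nat.card_congr
          apply Equiv.subtypeEquivRight
          intro W
          exact and_iff_left le_top
        rw [h3]
        exact hΩ
    exact hndsub K hK hKc W₀ hW₀ hrK
  -- step 2
  have hcn : c ≤ n := by omega
  obtain ⟨T, hT, hTr, hfix, W, hW, hWT⟩ := hbad hcn
  have h4 := hana T hT hTr W hW hWT
  have h5 : finrank F (W ⊓ LinearMap.ker (T - 1) : Submodule F (ι → F)) ≤ finrank F W :=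
    Submodule.finrank_mono inf_le_left
  have h6 : finrank F (W ⊓ LinearMap.ker (T - 1) : Submodule F (ι → F)) ≤
      finrank F (LinearMap.ker (T - 1)) := Submodule.finrank_mono inf_le_right
  rw [hW.1] at h5
  rw [hfix] at h6
  obtain ⟨j, hj⟩ := h4
  have h7 : m = finrank F (W ⊓ LinearMap.ker (T - 1) : Submodule F (ι → F)) + c * j := by omega
  have h8 : m % c = finrank F (W ⊓ LinearMap.ker (T - 1) : Submodule F (ι → F)) := by
    conv_lhs => rw [h7]
    rw [Nat.add_mul_mod_self_left]
    exact Nat.mod_eq_of_lt (by omega)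
  refine ⟨hcm, ?_, ?_⟩
  · have h9 : m % c ≤ n % c := by
      rw [h8]
      exact h6
    omega
  · intro hie
    by_cases h0 : 0 < m % c
    · exact Or.inl h0
    · right
      have hf0 : finrank F (W ⊓ LinearMap.ker (T - 1) : Submodule F (ι → F)) = 0 := by omega
      have hbot : W ⊓ LinearMap.ker (T - 1) = ⊥ := Submodule.finrank_eq_zero.1 hf0
      have h9 := (hteven T hT hTr hie W hWT hW.2.1 hbot).1 hW.2.2
      rwa [hW.1] at h9

end Cfsg.Agent.Helper31.OH5992
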