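import Cfsg.Agent.Helper45.OctH
import Cfsg.Agent.Helper45.OutH

set_option autoImplicit false
set_option linter.unusedSectionVars false
set_option linter.unusedSimpArgs false
set_option linter.unusedVariables false
set_option linter.style.haveILetI false

universe u

namespace Cfsg.Agent.Helper31.OctP

open Cfsg Matrix Module Cfsg.Agent.Helper45 Cfsg.Agent.Helper45.AO Cfsg.Agent.Helper45.OO
  Cfsg.Agent.Helper45.Oct

section CKGeneral

variable {ι : Type} [Fintype ι] [DecidableEq ι] {F : Type u} [Field F]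
  (Q : QuadraticForm F (ι → F))

/-- variant of `Helper45.OO.comm_mem_pso` allowing determinant `sg * c₁ ^ n` with `sg` fixed by
`σ` (same proof). -/
theorem comm_mem_pso_sgn {n : ℕ} (hcard : Fintype.card ι = 2 * n)
    (g : GL ι F) (σ : F ≃+* F) (hg : IsSemisimilarityPair ⇑Q g σ)
    (g₁ : GL ι F) (c₁ : F) (hc₁0 : c₁ ≠ 0)
    (hg₁ : ∀ v, Q ((g₁ : Matrix ι ι F) *ᵥ v) = c₁ * Q v)
    (sg : F) (hsg0 : sg ≠ 0) (hσsg : σ sg = sg)
    (hdet₁ : (g₁ : Matrix ι ι F).det = sg * c₁ ^ n) (e : F) (he : σ c₁ = e * e * c₁)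
    (hg₁' : IsSemisimilarityPair ⇑Q g₁ (RingEquiv.refl F)) :
    semiAut ⇑Q g σ hg * semiAut ⇑Q g₁ (RingEquiv.refl F) hg₁' * (semiAut ⇑Q g σ hg)⁻¹ *
      (semiAut ⇑Q g₁ (RingEquiv.refl F) hg₁')⁻¹ ∈ psoAut F ⇑Q := by
  have hσc0 : σ c₁ ≠ 0 := by
    intro h
    apply hc₁0
    have h1 : σ c₁ = σ 0 := by rw [h, map_zero]
    exact σ.injective h1
  have he0 : e ≠ 0 := by
    rintro rfl
    apply hσc0
    rw [he]
    ring
  obtain ⟨g', hg'def⟩ : ∃ g' : GL ι F, g' = g * glMap σ g₁ * g⁻¹ := ⟨_, rfl⟩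
  have hg'm : ∀ v, Q ((g' : Matrix ι ι F) *ᵥ v) = σ c₁ * Q v := by
    intro v
    rw [hg'def]
    exact semi_conj_mult Q hg g₁ c₁ hg₁ v
  have hg'det : (g' : Matrix ι ι F).det = sg * σ c₁ ^ n := by
    rw [hg'def, semi_conj_det, hdet₁, map_mul, map_pow, hσsg]
  have hg'sim : g' ∈ Geo.quadSimilarityGroup (F := F) ⇑Q := ⟨Units.mk0 (σ c₁) hσc0, hg'm⟩
  have hg'semi : IsSemisimilarityPair ⇑Q g' (RingEquiv.refl F) := hg'sim
  have hg₁sim : g₁ ∈ Geo.quadSimilarityGroup (F := F) ⇑Q := hg₁'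
  have hkey : semiAut ⇑Q g σ hg * semiAut ⇑Q g₁ (RingEquiv.refl F) hg₁' =
      semiAut ⇑Q g' (RingEquiv.refl F) hg'semi * semiAut ⇑Q g σ hg := by
    rw [semiAut_mul, semiAut_mul]
    apply semiAut_congr
    · rw [glMap_refl, hg'def, inv_mul_cancel_right]
    · show σ * (1 : RingAut F) = (1 : RingAut F) * σ
      rw [mul_one, one_mul]
  have hcomm : semiAut ⇑Q g σ hg * semiAut ⇑Q g₁ (RingEquiv.refl F) hg₁' *
      (semiAut ⇑Q g σ hg)⁻¹ * (semiAut ⇑Q g₁ (RingEquiv.refl F) hg₁')⁻¹ =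
      semiAut ⇑Q g' (RingEquiv.refl F) hg'semi * (semiAut ⇑Q g₁ (RingEquiv.refl F) hg₁')⁻¹ := by
    rw [hkey, mul_inv_cancel_right]
  rw [hcomm]
  have hI1 : Ind ⇑Q g' (semiAut ⇑Q g' (RingEquiv.refl F) hg'semi) := by
    rw [semiAut_refl]
    exact ind_indAut _ _ _
  have hI2 : Ind ⇑Q g₁ (semiAut ⇑Q g₁ (RingEquiv.refl F) hg₁') := by
    rw [semiAut_refl]
    exact ind_indAut _ _ _
  have hI3 := ind_mul ⇑Q (inv_mem hg₁sim) hI1 (ind_inv ⇑Q hg₁sim hI2)
  obtain ⟨sc, hsc⟩ := exists_scGL (ι := ι) e⁻¹ (inv_ne_zero he0)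
  have hI4 := ind_mul ⇑Q (mul_mem hg'sim (inv_mem hg₁sim)) (ind_scalar ⇑Q sc e⁻¹ hsc) hI3
  rw [one_mul] at hI4
  rw [mem_psoAut_iff]
  refine ⟨sc * (g' * g₁⁻¹), (mem_special_iff Q _).mpr ⟨?_, ?_⟩, hI4⟩
  · rw [mem_iso_iff]
    intro v
    rw [Units.val_mul, hsc, Matrix.smul_mul, Matrix.one_mul, Matrix.smul_mulVec,
      QuadraticMap.map_smul, Units.val_mul, ← Matrix.mulVec_mulVec, hg'm,
      sim_inv_mult Q g₁ c₁ hc₁0 hg₁, he, smul_eq_mul]
    field_simp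
  · rw [Units.val_mul, hsc, Matrix.smul_mul, Matrix.one_mul, Matrix.det_smul, hcard,
      Units.val_mul, Matrix.det_mul, hg'det]
    have h1 : ((g₁⁻¹ : GL ι F) : Matrix ι ι F).det = (sg * c₁ ^ n)⁻¹ := by
      have h3 : (g₁ : Matrix ι ι F).det * ((g₁⁻¹ : GL ι F) : Matrix ι ι F).det = 1 := by
        rw [← Matrix.det_mul, ← Units.val_mul, mul_inv_cancel, Units.val_one, Matrix.det_one]
      rw [hdet₁] at h3
      exact eq_inv_of_mul_eq_one_right h3
    rw [h1, he]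
    have hcn : c₁ ^ n ≠ 0 := pow_ne_zero _ hc₁0
    have h5 : e⁻¹ ^ (2 * n) * (e * e) ^ n = 1 := by
      rw [pow_mul, ← mul_pow]
      have h6 : e⁻¹ ^ 2 * (e * e) = 1 := by
        field_simp
      rw [h6, one_pow]
    calc e⁻¹ ^ (2 * n) * (sg * (e * e * c₁) ^ n * (sg * c₁ ^ n)⁻¹)
        = (e⁻¹ ^ (2 * n) * (e * e) ^ n) * ((sg * c₁ ^ n) * (sg * c₁ ^ n)⁻¹) := by
          rw [mul_pow]
          ring
      _ = 1 := by rw [h5, mul_inv_cancel₀ (mul_ne_zero hsg0 hcn), one_mul]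


end CKGeneral

section CKFrob

variable {F : Type u} [Field F] [Fintype F]

/-- a field automorphism of a finite field of odd order multiplies every element by a square -/
theorem ck_frob_sq (hodd : Odd (Fintype.card F)) (σ : RingAut F) (c : F) :
    ∃ e : F, σ c = e * e * c := by
  obtain ⟨p, hp⟩ := CharP.exists F
  haveI := hp
  haveI : Fact p.Prime := ⟨CharP.char_is_prime F p⟩
  obtain ⟨j, hj⟩ := ringAut_eq_frobP_pow p σ
  have hσc : σ c = c ^ p ^ j := by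
    rw [hj]
    show ((frobeniusEquiv F p : RingAut F) ^ j) c = _
    rw [RingAut.coe_pow, coe_frobeniusEquiv, iterate_frobenius]
  obtain ⟨n, -, hn⟩ := FiniteField.card F p
  have hpodd : Odd p := by
    rcases Nat.Prime.eq_two_or_odd' (Fact.out : p.Prime) with h | h
    · exfalso
      rw [hn, h] at hodd
      have : Even (2 ^ (n : ℕ)) := (Nat.even_pow.mpr ⟨even_two, n.pos.ne'⟩)
      exact (Nat.not_even_iff_odd.mpr hodd) this
    · exact h
  obtain ⟨t, ht⟩ := hpodd.pow (n := j)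
  refine ⟨c ^ t, ?_⟩
  rw [hσc, ht]
  ring

end CKFrob

section Plus

variable {F : Type u} [Field F] [Fintype F]

/-- PIECE CK -/
theorem plus_field_comm_klein (m : ℕ) (hm : 3 ≤ m) (hodd : Odd (Fintype.card F))
    (hc : Odd m ∧ Fintype.card F % 4 = 3)
    (k : MulAut (POmega F ⇑(Helper43.plusQF m F)))
    (hk : IsSimilarityInducedAutPOmega ⇑(Helper43.plusQF m F) k) (σ : RingAut F) :
    fieldHom (Helper43.plusQF m F) (plus_field m) σ * k *
      (fieldHom (Helper43.plusQF m F) (plus_field m) σ)⁻¹ * k⁻¹ ∈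
        Inn (POmega F ⇑(Helper43.plusQF m F)) := by
  have h2 : (2 : F) ≠ 0 := two_ne_zero_of_odd_card hodd
  have hQ := Helper45.plusQF_nondeg' (F := F) m
  obtain ⟨g₁, hg₁sim, hkg⟩ := hk
  have hg₁' : IsSemisimilarityPair ⇑(Helper43.plusQF m F) g₁ (RingEquiv.refl F) :=
    (sim_iff_semi ⇑(Helper43.plusQF m F) g₁).mp hg₁sim
  have hkeq : k = semiAut ⇑(Helper43.plusQF m F) g₁ (RingEquiv.refl F) hg₁' :=
    (semi_ind_iff ⇑(Helper43.plusQF m F) g₁ (RingEquiv.refl F) hg₁' k).mp hkg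
  obtain ⟨c₁, hc₁⟩ := id hg₁sim
  have hc₁0 : (c₁ : F) ≠ 0 := c₁.ne_zero
  have hcard : Fintype.card (Fin m ⊕ Fin m) = 2 * m := by
    rw [Fintype.card_sum, Fintype.card_fin]; ring
  -- the determinant of `g₁` is `± c₁ ^ m`
  have hG := gram_of_sim ⇑(Helper43.plusQF m F) (polarGram (Helper43.plusQF m F)) h2
    (polarGram_quad (Helper43.plusQF m F)) (polarGram_symm (Helper43.plusQF m F))
    (g₁ : Matrix (Fin m ⊕ Fin m) (Fin m ⊕ Fin m) F) (c₁ : F) hc₁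
  have hdet := congrArg Matrix.det hG
  rw [Matrix.det_mul, Matrix.det_mul, Matrix.det_transpose, Matrix.det_smul, hcard] at hdet
  have hJ0 := polarGram_det (Helper43.plusQF m F) hQ
  obtain ⟨D, hD⟩ : ∃ D : F, D = (g₁ : Matrix (Fin m ⊕ Fin m) (Fin m ⊕ Fin m) F).det := ⟨_, rfl⟩
  rw [← hD] at hdet
  have hdd : D * D = ((c₁ : F) ^ m) * ((c₁ : F) ^ m) := by
    apply mul_right_cancel₀ hJ0
    rw [← pow_add, ← two_mul]
    linear_combination hdet
  have hsg : D = 1 * (c₁ : F) ^ m ∨ D = (-1) * (c₁ : F) ^ m := by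
    have h3 : (D - (c₁ : F) ^ m) * (D + (c₁ : F) ^ m) = 0 := by linear_combination hdd
    rcases mul_eq_zero.mp h3 with h | h
    · left; linear_combination h
    · right; linear_combination h
  obtain ⟨e, he⟩ := ck_frob_sq hodd σ (c₁ : F)
  have hpso : fieldHom (Helper43.plusQF m F) (plus_field m) σ * k *
      (fieldHom (Helper43.plusQF m F) (plus_field m) σ)⁻¹ * k⁻¹ ∈
        psoAut F ⇑(Helper43.plusQF m F) := by
    rw [hkeq, fieldHom_apply]
    rcases hsg with h | h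
    · exact comm_mem_pso_sgn (Helper43.plusQF m F) hcard 1 σ (plus_field m σ) g₁ (c₁ : F) hc₁0 hc₁
        1 one_ne_zero (map_one σ) (hD ▸ h) e he hg₁'
    · exact comm_mem_pso_sgn (Helper43.plusQF m F) hcard 1 σ (plus_field m σ) g₁ (c₁ : F) hc₁0 hc₁
        (-1) (neg_ne_zero.mpr one_ne_zero) (by rw [map_neg, map_one]) (hD ▸ h) e he hg₁'
  have hrel : (Inn (POmega F ⇑(Helper43.plusQF m F))).relIndex
      (psoAut F ⇑(Helper43.plusQF m F)) = 1 := (pso_plus_relIndex hodd hm).1 hc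
  exact (Subgroup.relIndex_eq_one.mp hrel) hpso

end Plus

end Cfsg.Agent.Helper31.OctP
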