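import Cfsg.Agent.Helper45.OctH
import Cfsg.Agent.Helper45.OutH

set_option autoImplicit false
set_option linter.unusedSectionVars false
set_option linter.unusedSimpArgs false
set_option linter.unusedVariables false
set_option linter.style.haveILetI false

universe u

namespace Cfsg.Agent.Helper31.OctP

open Cfsg Matrix Module Cfsg.Agent.Helper45 Cfsg.Agent.Helper45.AO Cfsg.Agent.Helper45.OO
  Cfsg.Agent.Helper45.Oct

section Generic

variable {ι : Type} [Fintype ι] [DecidableEq ι] {F : Type u} [Field F] [Fintype F]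
  (Q : QuadraticForm F (ι → F))

/-- a sign character that is constant on reflections of square norm and on reflections of
non-square norm kills `ρ_{gb} ρ_{gc} ρ_c ρ_b` for a similarity `g`. -/
theorem spin_pair_aux (χ : ↥(isometryGroup F ⇑Q) →* ℤˣ) (s n : ℤˣ)
    (hs : ∀ (v : ι → F) (hv : Q v ≠ 0), IsSquare (Q v) → χ (reflO Q v hv) = s)
    (hn : ∀ (v : ι → F) (hv : Q v ≠ 0), ¬ IsSquare (Q v) → χ (reflO Q v hv) = n)
    (h2 : (2 : F) ≠ 0) (μ : F) (hμ0 : μ ≠ 0)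
    (b c gb gc : ι → F) (hb : Q b ≠ 0) (hc : Q c ≠ 0) (hgb : Q gb ≠ 0) (hgc : Q gc ≠ 0)
    (eb : Q gb = μ * Q b) (ec : Q gc = μ * Q c) :
    χ (reflO Q gb hgb * reflO Q gc hgc * (reflO Q c hc * reflO Q b hb)) = 1 := by
  classical
  have key : ∀ (v gv : ι → F) (hv : Q v ≠ 0) (hgv : Q gv ≠ 0), Q gv = μ * Q v →
      χ (reflO Q gv hgv) * χ (reflO Q v hv) = if IsSquare μ then 1 else s * n := by
    intro v gv hv hgv e
    by_cases hμ : IsSquare μ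
    · rw [if_pos hμ]
      by_cases hsq : IsSquare (Q v)
      · rw [hs v hv hsq, hs gv hgv (by rw [e]; exact hμ.mul hsq)]
        exact Int.units_mul_self s
      · rw [hn v hv hsq, hn gv hgv (by rw [e, mul_comm]; exact not_isSquare_mul hsq hμ hμ0)]
        exact Int.units_mul_self n
    · rw [if_neg hμ]
      by_cases hsq : IsSquare (Q v)
      · rw [hs v hv hsq, hn gv hgv (by rw [e]; exact not_isSquare_mul hμ hsq hv)]
        exact mul_comm n s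
      · rw [hn v hv hsq, hs gv hgv (by rw [e]; exact isSquare_mul_of_not h2 hμ hsq)]
  rw [map_mul, map_mul, map_mul]
  have kb := key b gb hb hgb eb
  have kc := key c gc hc hgc ec
  have hre : χ (reflO Q gb hgb) * χ (reflO Q gc hgc) * (χ (reflO Q c hc) * χ (reflO Q b hb))
      = (χ (reflO Q gb hgb) * χ (reflO Q b hb)) * (χ (reflO Q gc hgc) * χ (reflO Q c hc)) := by
    rw [mul_comm (χ (reflO Q c hc)) (χ (reflO Q b hb)), mul_mul_mul_comm]
  rw [hre, kb, kc]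
  split_ifs
  · exact one_mul 1
  · exact Int.units_mul_self (s * n)

/-- PIECE DC -/
theorem pair_central (h2 : (2 : F) ≠ 0) (hQ : (QuadraticMap.polarBilin Q).Nondegenerate)
    (hcard : 2 ≤ Fintype.card ι)
    (b c : ι → F) (hb : Q b ≠ 0) (hc : Q c ≠ 0) (δ : MulAut (POmega F ⇑Q))
    (hδ : Ind ⇑Q ((reflO Q b hb * reflO Q c hc : ↥(isometryGroup F ⇑Q)) : GL ι F) δ)
    (k : MulAut (POmega F ⇑Q)) (hk : IsSimilarityInducedAutPOmega ⇑Q k) :
    k * δ * k⁻¹ * δ⁻¹ ∈ Inn (POmega F ⇑Q) := by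
  obtain ⟨g, hg, hkg⟩ := hk
  have hkg' : Ind ⇑Q g k := hkg
  obtain ⟨μ, hμ⟩ := id hg
  have hgb : Q ((g : Matrix ι ι F) *ᵥ b) ≠ 0 := by
    rw [hμ]; exact mul_ne_zero μ.ne_zero hb
  have hgc : Q ((g : Matrix ι ι F) *ᵥ c) ≠ 0 := by
    rw [hμ]; exact mul_ne_zero μ.ne_zero hc
  obtain ⟨r, hrdef⟩ : ∃ r : ↥(isometryGroup F ⇑Q), r = reflO Q b hb * reflO Q c hc := ⟨_, rfl⟩
  rw [← hrdef] at hδ
  have hr_sim : (r : GL ι F) ∈ Geo.quadSimilarityGroup (F := F) ⇑Q := iso_le_sim _ r.2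
  have h1 : Ind ⇑Q (g * (r : GL ι F)) (k * δ) := ind_mul ⇑Q hr_sim hkg' hδ
  have h2' : Ind ⇑Q (g * (r : GL ι F) * g⁻¹) (k * δ * k⁻¹) :=
    ind_mul ⇑Q (inv_mem hg) h1 (ind_inv ⇑Q hg hkg')
  have h3 : Ind ⇑Q (g * (r : GL ι F) * g⁻¹ * (r : GL ι F)⁻¹) (k * δ * k⁻¹ * δ⁻¹) :=
    ind_mul ⇑Q (inv_mem hr_sim) h2' (ind_inv ⇑Q hr_sim hδ)
  obtain ⟨x, hxdef⟩ : ∃ x : ↥(isometryGroup F ⇑Q),
      x = reflO Q ((g : Matrix ι ι F) *ᵥ b) hgb * reflO Q ((g : Matrix ι ι F) *ᵥ c) hgc *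
        (reflO Q c hc * reflO Q b hb) := ⟨_, rfl⟩
  have hx : ((x : ↥(isometryGroup F ⇑Q)) : GL ι F) = g * (r : GL ι F) * g⁻¹ * (r : GL ι F)⁻¹ := by
    have e1 : conjO ⇑Q g hg r = reflO Q ((g : Matrix ι ι F) *ᵥ b) hgb *
        reflO Q ((g : Matrix ι ι F) *ᵥ c) hgc := by
      rw [hrdef, map_mul, conjO_reflO Q g hg b hb hgb, conjO_reflO Q g hg c hc hgc]
    have e2 : r⁻¹ = reflO Q c hc * reflO Q b hb := by
      rw [hrdef, _root_.mul_inv_rev, Helper44.reflO_inv, Helper44.reflO_inv]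
    have e3 : x = conjO ⇑Q g hg r * r⁻¹ := by rw [e1, e2, hxdef]
    rw [e3]
    rfl
  rw [← hx] at h3
  refine mem_inn_of_ind_omega Q x ?_ _ h3
  obtain ⟨ε, hε⟩ := FiniteField.exists_nonsquare (ringChar_ne_two h2)
  rw [mem_omega_iff Q h2 hQ hcard ε hε, hxdef]
  exact ⟨spin_pair_aux Q (spin ⇑Q 1) (-1) 1
      (fun v hv h => spin_one_reflO_sq Q h2 v hv h)
      (fun v hv h => spin_one_reflO_nsq Q h2 v hv h) h2 (μ : F) μ.ne_zero b c _ _ hb hc hgb hgc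
      (hμ b) (hμ c),
    spin_pair_aux Q (spin ⇑Q ε) 1 (-1)
      (fun v hv h => spin_eps_reflO_sq Q h2 ε hε v hv h)
      (fun v hv h => spin_eps_reflO_nsq Q h2 ε hε v hv h) h2 (μ : F) μ.ne_zero b c _ _ hb hc hgb hgc
      (hμ b) (hμ c)⟩

end Generic

end Cfsg.Agent.Helper31.OctP
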