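import Cfsg.Agent.Helper49.JComp
import Cfsg.Agent.Helper83.TG0

/-!
# PIECES N6, FX, OZ, OZ2 of CALL S2951 round 2 (helper11)

Four-group lemmas and `Ω₁(Z(T))` versus the Thompson subgroup.
-/

set_option autoImplicit false

namespace Cfsg.Agent.Helper31

variable {G : Type*} [Group G]

/-- PIECE N6 -/
theorem idx_two_of_four (Z₀ : Subgroup G) (x z₁ : G)
    (hZ4 : Nat.card Z₀ = 4) (hZe : ∀ z ∈ Z₀, z * z = 1) (hz₁ : z₁ ∈ Z₀) (hz₁1 : z₁ ≠ 1)
    (hx : x ∈ Subgroup.normalizer (Z₀ : Set G)) (hxz : x * z₁ * x⁻¹ ≠ z₁)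
    (hno : ∀ n ∈ Subgroup.normalizer (Z₀ : Set G), n * (z₁ * (x * z₁ * x⁻¹)) * n⁻¹ ≠ z₁) :
    (Subgroup.centralizer (Z₀ : Set G)).relIndex (Subgroup.normalizer (Z₀ : Set G)) = 2 := by
  have hN : ∀ {n y : G}, n ∈ Subgroup.normalizer (Z₀ : Set G) → y ∈ Z₀ → n * y * n⁻¹ ∈ Z₀ :=
    fun hn hy => (Subgroup.mem_normalizer_iff.mp hn _).mp hy
  obtain ⟨v, hv⟩ : ∃ v, v = x * z₁ * x⁻¹ := ⟨_, rfl⟩
  rw [← hv] at hxz hno
  have hvZ : v ∈ Z₀ := by rw [hv]; exact hN hx hz₁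
  have hv1 : v ≠ 1 := by
    intro h
    apply hz₁1
    rw [hv] at h
    have e : z₁ = x⁻¹ * (x * z₁ * x⁻¹) * x := by group
    rw [e, h]; group
  have henum := Helper49.four_enum hZ4 hZe hz₁ hvZ hz₁1 hv1 hxz
  have hu2 := hZe z₁ hz₁
  have hv2 := hZe v hvZ
  have hwZ : z₁ * v ∈ Z₀ := Z₀.mul_mem hz₁ hvZ
  have hw1 : z₁ * v ≠ 1 := by
    intro h
    apply hxz
    have e : v = z₁ * (z₁ * v) := by rw [← mul_assoc, hu2, one_mul]
    rw [e, h, mul_one]
  have hwu : z₁ * v ≠ z₁ := by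
    intro h
    exact hv1 (mul_eq_left.mp h)
  have hwv : z₁ * v ≠ v := by
    intro h
    exact hz₁1 (mul_eq_right.mp h)
  have hcancel : ∀ {n a b : G}, n * a * n⁻¹ = n * b * n⁻¹ → a = b := by
    intro n a b h
    exact mul_left_cancel (mul_right_cancel h)
  have hconj1 : ∀ n : G, n * 1 * n⁻¹ = 1 := fun n => by group
  -- every element of the normalizer fixes `z₁ * v`
  have fix_w : ∀ n ∈ Subgroup.normalizer (Z₀ : Set G), n * (z₁ * v) * n⁻¹ = z₁ * v := by
    intro n hn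
    rcases henum _ (hN hn hwZ) with h | h | h | h
    · exfalso
      apply hw1
      apply hcancel (n := n)
      rw [h, hconj1]
    · exact absurd h (hno n hn)
    · exfalso
      apply hno (x⁻¹ * n) (Subgroup.mul_mem _ (Subgroup.inv_mem _ hx) hn)
      have e : x⁻¹ * n * (z₁ * v) * (x⁻¹ * n)⁻¹ = x⁻¹ * (n * (z₁ * v) * n⁻¹) * x := by group
      rw [e, h, hv]; group
    · exact h
  have alt : ∀ n ∈ Subgroup.normalizer (Z₀ : Set G), n * z₁ * n⁻¹ = z₁ ∨ n * z₁ * n⁻¹ = v := by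
    intro n hn
    rcases henum _ (hN hn hz₁) with h | h | h | h
    · exfalso
      apply hz₁1
      apply hcancel (n := n)
      rw [h, hconj1]
    · left; exact h
    · right; exact h
    · exfalso
      apply hwu
      apply hcancel (n := n)
      rw [fix_w n hn, h]
  have cent_of_fix : ∀ n ∈ Subgroup.normalizer (Z₀ : Set G), n * z₁ * n⁻¹ = z₁ →
      n ∈ Subgroup.centralizer (Z₀ : Set G) := by
    intro n hn hfix
    rw [Subgroup.mem_centralizer_iff]
    intro y hy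
    have hfv : n * v * n⁻¹ = v := by
      have e : v = z₁ * (z₁ * v) := by rw [← mul_assoc, hu2, one_mul]
      have e2 : n * (z₁ * (z₁ * v)) * n⁻¹ = (n * z₁ * n⁻¹) * (n * (z₁ * v) * n⁻¹) := by group
      rw [e, e2, hfix, fix_w n hn]
    have hfy : n * y * n⁻¹ = y := by
      rcases henum y hy with h | h | h | h
      · rw [h, hconj1]
      · rw [h, hfix]
      · rw [h, hfv]
      · rw [h, fix_w n hn]
    exact (mul_inv_eq_iff_eq_mul.mp hfy).symm
  have hxC : x ∉ Subgroup.centralizer (Z₀ : Set G) := by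
    intro hxc
    rw [Subgroup.mem_centralizer_iff] at hxc
    apply hxz
    rw [hv, ← hxc z₁ hz₁]; group
  rw [Subgroup.relIndex_eq_two_iff]
  refine ⟨x, hx, ?_⟩
  intro b hb
  by_cases hbC : b ∈ Subgroup.centralizer (Z₀ : Set G)
  · right
    refine ⟨hbC, ?_⟩
    intro hbx
    apply hxC
    have e : x = b⁻¹ * (b * x) := by group
    rw [e]
    exact Subgroup.mul_mem _ (Subgroup.inv_mem _ hbC) hbx
  · left
    refine ⟨?_, hbC⟩
    have hbv : b * z₁ * b⁻¹ = v := by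
      rcases alt b hb with h | h
      · exact absurd (cent_of_fix b hb h) hbC
      · exact h
    apply cent_of_fix (b * x) (Subgroup.mul_mem _ hb hx)
    -- `b` swaps `z₁` and `v`
    have hbvv : b * v * b⁻¹ = z₁ := by
      have e : v = z₁ * (z₁ * v) := by rw [← mul_assoc, hu2, one_mul]
      have e2 : b * (z₁ * (z₁ * v)) * b⁻¹ = (b * z₁ * b⁻¹) * (b * (z₁ * v) * b⁻¹) := by group
      have e3 : b * v * b⁻¹ = b * (z₁ * (z₁ * v)) * b⁻¹ := by rw [← e]
      rw [e3, e2, hbv, fix_w b hb]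
      -- `v * (z₁ * v) = z₁`
      have hcomm : z₁ * v = v * z₁ := by
        have h1 := hZe (v * z₁) (Z₀.mul_mem hvZ hz₁)
        calc z₁ * v = (v * v) * (z₁ * v) * (z₁ * z₁) := by rw [hv2, hu2]; group
          _ = v * ((v * z₁) * (v * z₁)) * z₁ := by group
          _ = v * z₁ := by rw [h1]; group
      rw [hcomm, ← mul_assoc, hv2, one_mul]
    have e : b * x * z₁ * (b * x)⁻¹ = b * (x * z₁ * x⁻¹) * b⁻¹ := by group
    rw [e, ← hv, hbvv]

/-- PIECE FX: a 2-group `T` normalizing a four-group `Z₀ ≤ T` either centralizes it or has exactly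
one nontrivial fixed point. -/
theorem four_fixed [Finite G] (T Z₀ : Subgroup G) (hT : IsPGroup 2 T) (hZT : Z₀ ≤ T)
    (hn : T ≤ Subgroup.normalizer (Z₀ : Set G)) (hZ4 : Nat.card Z₀ = 4)
    (hZe : ∀ z ∈ Z₀, z * z = 1) :
    ∃ z ∈ Z₀, z ≠ 1 ∧ (∀ t ∈ T, t * z * t⁻¹ = z) ∧
      ∀ t ∈ T, (∀ y ∈ Z₀, t * y * t⁻¹ = y) ∨
        (∀ y ∈ Z₀, y ≠ 1 → y ≠ z → t * y * t⁻¹ = z * y) := by
  have hZne : Z₀ ≠ ⊥ := by
    intro h
    rw [h, Subgroup.card_bot] at hZ4
    omega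
  obtain ⟨z, hz, hz1, hzc⟩ := Helper83.tg_exists_central T Z₀ hT hZT hn hZne
  have hfix : ∀ t ∈ T, t * z * t⁻¹ = z := by
    intro t ht
    rw [hzc t ht]; group
  refine ⟨z, hz, hz1, hfix, ?_⟩
  intro t ht
  by_cases hall : ∀ y ∈ Z₀, t * y * t⁻¹ = y
  · left; exact hall
  · right
    obtain ⟨v, hv⟩ := not_forall.mp hall
    obtain ⟨hvZ, hvne⟩ := Classical.not_imp.mp hv
    intro y hy hy1 hyz
    by_cases hty : t * y * t⁻¹ = y
    · rcases Helper49.four_fix hZ4 hZe (hn ht) hz hz1 (hfix t ht) hvZ hvne y hy hty with h | h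
      · exact absurd h hy1
      · exact absurd h hyz
    · exact (Helper49.four_conj hZ4 hZe (hn ht) hz hz1 (hfix t ht) hy hty).1

/-- PIECE OZ -/
theorem omegaCenterOf_le_thompson [Finite G] (T : Subgroup G) :
    Cfsg.omegaCenterOf T ≤ Cfsg.omegaCenterOf (Cfsg.thompsonSubgroupOf 2 T) := by
  have key : ∀ z : G, z ∈ T → (∀ y ∈ T, y * z = z * y) → z ^ 2 = 1 →
      z ∈ Cfsg.omegaCenterOf (Cfsg.thompsonSubgroupOf 2 T) := by
    intro z hzT hzc hz2
    obtain ⟨A, hA⟩ := Helper49.exists_isMaxEAIn 2 T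
    have hB : Cfsg.IsElementaryAbelian 2 (Subgroup.zpowers z) := by
      refine ⟨inferInstance, ?_⟩
      intro a ha
      obtain ⟨k, rfl⟩ := Subgroup.mem_zpowers_iff.mp ha
      rw [← zpow_natCast, ← zpow_mul, mul_comm, zpow_mul, zpow_natCast, hz2, one_zpow]
    have hBT : Subgroup.zpowers z ≤ T := by
      rw [Subgroup.zpowers_le]; exact hzT
    have hc : ∀ a ∈ A, ∀ b ∈ Subgroup.zpowers z, a * b = b * a := by
      intro a ha b hb
      obtain ⟨k, rfl⟩ := Subgroup.mem_zpowers_iff.mp hb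
      have h1 : Commute a z := hzc a (hA.1 ha)
      exact (h1.zpow_right k)
    have hBA := hA.le_of_commute hBT hB hc
    have hzJ : z ∈ Cfsg.thompsonSubgroupOf 2 T :=
      hA.le_thompsonOf (hBA (Subgroup.mem_zpowers z))
    apply Helper49.mem_omegaCenterOf hzJ ?_ hz2
    intro y hy
    exact hzc y (Helper49.thompsonOf_le_self 2 T hy)
  unfold Cfsg.omegaCenterOf Cfsg.omegaOne
  rw [Subgroup.closure_le]
  intro x hx
  have h1 := hx.1
  have h2 := key x h1.1 (fun y hy => Subgroup.mem_centralizer_iff.mp h1.2 y hy) hx.2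
  unfold Cfsg.omegaCenterOf Cfsg.omegaOne at h2
  exact h2

/-- PIECE OZ2 -/
theorem omegaCenterOf_ne_bot [Finite G] (T : Subgroup G) (hT : IsPGroup 2 T) (hT1 : T ≠ ⊥) :
    Cfsg.omegaCenterOf T ≠ ⊥ := by
  obtain ⟨z, hz, hz1, hzc⟩ := Helper83.tg_exists_central T T hT le_rfl Subgroup.le_normalizer hT1
  have hex : ∃ k : ℕ, z ^ (2 ^ k) = 1 := by
    obtain ⟨k, hk⟩ := hT ⟨z, hz⟩
    refine ⟨k, ?_⟩
    have := congrArg Subtype.val hk
    simpa using this
  classical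
  have hk0 : Nat.find hex ≠ 0 := by
    intro h0
    have h := Nat.find_spec hex
    rw [h0, pow_zero, pow_one] at h
    exact hz1 h
  obtain ⟨m, hm⟩ : ∃ m, Nat.find hex = m + 1 := ⟨Nat.find hex - 1, by omega⟩
  have hy1 : z ^ (2 ^ m) ≠ 1 := by
    intro h
    have := Nat.find_min hex (m := m) (by omega)
    exact this h
  have hy2 : (z ^ (2 ^ m)) ^ 2 = 1 := by
    have h := Nat.find_spec hex
    rw [hm, pow_succ, pow_mul] at h
    exact h
  have hmem : z ^ (2 ^ m) ∈ Cfsg.omegaCenterOf T := by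
    apply Helper49.mem_omegaCenterOf (Subgroup.pow_mem _ hz _) ?_ hy2
    intro y hy
    have h1 : Commute y z := hzc y hy
    exact h1.pow_right _
  intro hbot
  rw [hbot, Subgroup.mem_bot] at hmem
  exact hy1 hmem

end Cfsg.Agent.Helper31
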