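import Cfsg.Agent.Helper96.Sp4Q3

/-!
# PIECE B of CALL S5787 (helper96): the centraliser of `kr 1 mJ` in `Sp_4(3)` consists of
Kronecker products.
-/

set_option autoImplicit false

open Cfsg Cfsg.Geo Matrix Cfsg.Agent.Helper96.Q3

namespace Cfsg.Agent.Helper31

variable {F : Type*} [Field F]

/-- The algebra behind PIECE B: four "complex numbers" `(xᵢ, yᵢ)` over a field in which
`x² + y²` is anisotropic, satisfying the symplectic relations, are multiples of one of them. -/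
theorem sp4q3_alg (hani : ∀ x y : F, x ^ 2 + y ^ 2 = 0 → x = 0 ∧ y = 0)
    (x₁ y₁ x₂ y₂ x₃ y₃ x₄ y₄ : F)
    (E1 : x₃ * y₁ = y₃ * x₁) (E2 : x₄ * y₂ = y₄ * x₂)
    (E3 : x₁ * x₄ + y₁ * y₄ - x₃ * x₂ - y₃ * y₂ = 1)
    (E4 : x₁ * y₄ - y₁ * x₄ - x₃ * y₂ + y₃ * x₂ = 0) :
    ∃ a b c d x y : F, x₁ = a * x ∧ y₁ = a * y ∧ x₂ = b * x ∧ y₂ = b * y ∧ x₃ = c * x ∧
      y₃ = c * y ∧ x₄ = d * x ∧ y₄ = d * y ∧ x ^ 2 + y ^ 2 ≠ 0 ∧ a * d - b * c ≠ 0 := by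
  by_cases h1 : x₁ ^ 2 + y₁ ^ 2 = 0
  · obtain ⟨rfl, rfl⟩ := hani _ _ h1
    have hn : x₃ ^ 2 + y₃ ^ 2 ≠ 0 := by
      intro h
      obtain ⟨rfl, rfl⟩ := hani _ _ h
      simp at E3
    obtain ⟨e, hni⟩ : ∃ e : F, (x₃ ^ 2 + y₃ ^ 2) * e = 1 := ⟨_, mul_inv_cancel₀ hn⟩
    have he : e ≠ 0 := by
      rintro rfl
      simp at hni
    have hx2 : x₂ * (x₃ ^ 2 + y₃ ^ 2) = -x₃ := by
      linear_combination (-x₃) * E3 + y₃ * E4
    have hy2 : y₂ * (x₃ ^ 2 + y₃ ^ 2) = -y₃ := by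
      linear_combination (-y₃) * E3 + (-x₃) * E4
    have hE2' : x₄ * y₃ = y₄ * x₃ := by
      linear_combination x₄ * hy2 - y₄ * hx2 - (x₃ ^ 2 + y₃ ^ 2) * E2
    refine ⟨0, -e, 1, (x₄ * x₃ + y₄ * y₃) * e, x₃, y₃, by ring, by ring, ?_, ?_, by ring, by ring,
      ?_, ?_, hn, ?_⟩
    · linear_combination (-x₂) * hni + e * hx2
    · linear_combination (-y₂) * hni + e * hy2
    · linear_combination (-x₄) * hni + e * y₃ * hE2'
    · linear_combination (-y₄) * hni - e * x₃ * hE2'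
    · have : (0 : F) * ((x₄ * x₃ + y₄ * y₃) * e) - -e * 1 = e := by ring
      rw [this]
      exact he
  · obtain ⟨e, hni⟩ : ∃ e : F, (x₁ ^ 2 + y₁ ^ 2) * e = 1 := ⟨_, mul_inv_cancel₀ h1⟩
    have he : e ≠ 0 := by
      rintro rfl
      simp at hni
    obtain ⟨c, hx3, hy3⟩ : ∃ c : F, x₃ = c * x₁ ∧ y₃ = c * y₁ := by
      refine ⟨(x₃ * x₁ + y₃ * y₁) * e, ?_, ?_⟩
      · linear_combination (-x₃) * hni + e * y₁ * E1
      · linear_combination (-y₃) * hni - e * x₁ * E1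
    subst hx3 hy3
    have hp : (x₁ ^ 2 + y₁ ^ 2) * (x₄ - c * x₂) = x₁ := by
      linear_combination x₁ * E3 - y₁ * E4
    have hq : (x₁ ^ 2 + y₁ ^ 2) * (y₄ - c * y₂) = y₁ := by
      linear_combination y₁ * E3 + x₁ * E4
    have hE2' : x₂ * y₁ = y₂ * x₁ := by
      linear_combination (-(x₁ ^ 2 + y₁ ^ 2)) * E2 + y₂ * hp - x₂ * hq
    obtain ⟨b, hx2, hy2⟩ : ∃ b : F, x₂ = b * x₁ ∧ y₂ = b * y₁ := by
      refine ⟨(x₂ * x₁ + y₂ * y₁) * e, ?_, ?_⟩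
      · linear_combination (-x₂) * hni + e * y₁ * hE2'
      · linear_combination (-y₂) * hni - e * x₁ * hE2'
    subst hx2 hy2
    refine ⟨1, b, c, c * b + e, x₁, y₁, by ring, by ring, rfl, rfl, rfl, rfl, ?_, ?_, h1, ?_⟩
    · linear_combination (-(x₄ - c * (b * x₁))) * hni + e * hp
    · linear_combination (-(y₄ - c * (b * y₁))) * hni + e * hq
    · have : (1 : F) * (c * b + e) - b * c = e := by ring
      rw [this]
      exact he

/-- Field facts for a field with three elements. -/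
theorem sp4q3_field3 [Fintype F] (hF : Fintype.card F = 3) :
    (2 : F) ≠ 0 ∧ ∀ x y : F, x ^ 2 + y ^ 2 = 0 → x = 0 ∧ y = 0 := by
  have h3 : (3 : F) = 0 := by
    have h := Nat.cast_card_eq_zero F
    rw [hF] at h
    exact_mod_cast h
  have h2 : (2 : F) ≠ 0 := by
    intro h
    have : (1 : F) = 0 := by linear_combination h3 - h
    exact one_ne_zero this
  refine ⟨h2, ?_⟩
  have tri : ∀ x : F, x = 0 ∨ x = 1 ∨ x = -1 := by
    intro x
    have e : ZMod 3 ≃+* F := ZMod.ringEquivOfPrime F Nat.prime_three hF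
    have ht : ∀ t : ZMod 3, t = 0 ∨ t = 1 ∨ t = -1 := by decide
    have hx : x = e (e.symm x) := (e.apply_symm_apply x).symm
    rcases ht (e.symm x) with h | h | h
    · left; rw [hx, h, map_zero]
    · right; left; rw [hx, h, map_one]
    · right; right; rw [hx, h, map_neg, map_one]
  intro x y h
  have hx : x ^ 2 = 0 ∨ x ^ 2 = 1 := by rcases tri x with rfl | rfl | rfl <;> simp
  have hy : y ^ 2 = 0 ∨ y ^ 2 = 1 := by rcases tri y with rfl | rfl | rfl <;> simp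
  rcases hx with hx | hx <;> rcases hy with hy | hy
  · exact ⟨(pow_eq_zero_iff two_ne_zero).mp hx, (pow_eq_zero_iff two_ne_zero).mp hy⟩
  · rw [hx, hy, zero_add] at h; exact absurd h one_ne_zero
  · rw [hx, hy, add_zero] at h; exact absurd h one_ne_zero
  · rw [hx, hy, one_add_one_eq_two] at h; exact absurd h h2

/-- PIECE B -/
theorem sp4q3_comm [Fintype F] (hF : Fintype.card F = 3) (g : GL (Fin 2 ⊕ Fin 2) F)
    (hg : g ∈ spGL 2 F)
    (hc : (g : Matrix (Fin 2 ⊕ Fin 2) (Fin 2 ⊕ Fin 2) F) * kr 1 mJ =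
      kr 1 mJ * (g : Matrix (Fin 2 ⊕ Fin 2) (Fin 2 ⊕ Fin 2) F)) :
    ∃ (A B : Matrix (Fin 2) (Fin 2) F) (c : F),
      (g : Matrix (Fin 2 ⊕ Fin 2) (Fin 2 ⊕ Fin 2) F) = kr A B ∧ A.det ≠ 0 ∧ c ≠ 0 ∧ Bᵀ * B = c • 1 := by
  obtain ⟨h2, hani⟩ := sp4q3_field3 hF
  rw [mem_spGL_iff_mat, J_eq_kr] at hg
  obtain ⟨m, hm⟩ : ∃ m : Matrix (Fin 2 ⊕ Fin 2) (Fin 2 ⊕ Fin 2) F,
      m = (g : Matrix (Fin 2 ⊕ Fin 2) (Fin 2 ⊕ Fin 2) F) := ⟨_, rfl⟩
  rw [← hm] at hg hc ⊢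
  -- the commutation relations, entrywise
  have c1 := congrFun (congrFun hc (Sum.inl 0)) (Sum.inl 0)
  have c2 := congrFun (congrFun hc (Sum.inl 1)) (Sum.inl 0)
  have c3 := congrFun (congrFun hc (Sum.inl 0)) (Sum.inr 0)
  have c4 := congrFun (congrFun hc (Sum.inl 1)) (Sum.inr 0)
  have c5 := congrFun (congrFun hc (Sum.inr 0)) (Sum.inl 0)
  have c6 := congrFun (congrFun hc (Sum.inr 1)) (Sum.inl 0)
  have c7 := congrFun (congrFun hc (Sum.inr 0)) (Sum.inr 0)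
  have c8 := congrFun (congrFun hc (Sum.inr 1)) (Sum.inr 0)
  -- the symplectic relations, entrywise
  have g1 := congrFun (congrFun hg (Sum.inl 1)) (Sum.inl 0)
  have g2 := congrFun (congrFun hg (Sum.inl 0)) (Sum.inr 0)
  have g3 := congrFun (congrFun hg (Sum.inl 1)) (Sum.inr 0)
  have g4 := congrFun (congrFun hg (Sum.inr 1)) (Sum.inr 0)
  simp [Matrix.mul_apply, Fintype.sum_sum_type, kr_apply_inl_inl, kr_apply_inl_inr,
    kr_apply_inr_inl, kr_apply_inr_inr, mJ] at c1 c2 c3 c4 c5 c6 c7 c8 g1 g2 g3 g4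
  rw [c5, c6, c1, c2] at g1
  rw [c5, c6, c1, c2] at g3
  rw [c7, c8, c3, c4] at g4
  have E1 : m (Sum.inr 0) (Sum.inl 0) * m (Sum.inl 1) (Sum.inl 0) =
      m (Sum.inr 1) (Sum.inl 0) * m (Sum.inl 0) (Sum.inl 0) := by
    have h : (2 : F) * (m (Sum.inr 0) (Sum.inl 0) * m (Sum.inl 1) (Sum.inl 0) -
        m (Sum.inr 1) (Sum.inl 0) * m (Sum.inl 0) (Sum.inl 0)) = 0 := by
      linear_combination g1
    exact sub_eq_zero.mp ((mul_eq_zero.mp h).resolve_left h2)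
  have E2 : m (Sum.inr 0) (Sum.inr 0) * m (Sum.inl 1) (Sum.inr 0) =
      m (Sum.inr 1) (Sum.inr 0) * m (Sum.inl 0) (Sum.inr 0) := by
    have h : (2 : F) * (m (Sum.inr 0) (Sum.inr 0) * m (Sum.inl 1) (Sum.inr 0) -
        m (Sum.inr 1) (Sum.inr 0) * m (Sum.inl 0) (Sum.inr 0)) = 0 := by
      linear_combination g4
    exact sub_eq_zero.mp ((mul_eq_zero.mp h).resolve_left h2)
  have E3 : m (Sum.inl 0) (Sum.inl 0) * m (Sum.inr 0) (Sum.inr 0) +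
      m (Sum.inl 1) (Sum.inl 0) * m (Sum.inr 1) (Sum.inr 0) -
      m (Sum.inr 0) (Sum.inl 0) * m (Sum.inl 0) (Sum.inr 0) -
      m (Sum.inr 1) (Sum.inl 0) * m (Sum.inl 1) (Sum.inr 0) = 1 := by
    linear_combination -g2
  have E4 : m (Sum.inl 0) (Sum.inl 0) * m (Sum.inr 1) (Sum.inr 0) -
      m (Sum.inl 1) (Sum.inl 0) * m (Sum.inr 0) (Sum.inr 0) -
      m (Sum.inr 0) (Sum.inl 0) * m (Sum.inl 1) (Sum.inr 0) +
      m (Sum.inr 1) (Sum.inl 0) * m (Sum.inl 0) (Sum.inr 0) = 0 := by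
    linear_combination -g3
  obtain ⟨a, b, c, d, x, y, hx1, hy1, hx2, hy2, hx3, hy3, hx4, hy4, hn, hdet⟩ :=
    sp4q3_alg hani _ _ _ _ _ _ _ _ E1 E2 E3 E4
  refine ⟨!![a, b; c, d], !![x, -y; y, x], x ^ 2 + y ^ 2, ?_, ?_, hn, ?_⟩
  · ext i j
    rcases i with i | i <;> rcases j with j | j <;> fin_cases i <;> fin_cases j <;>
      simp [kr_apply_inl_inl, kr_apply_inl_inr, kr_apply_inr_inl, kr_apply_inr_inr,
        c1, c2, c3, c4, c5, c6, c7, c8, hx1, hy1, hx2, hy2, hx3, hy3, hx4, hy4]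
  · rw [Matrix.det_fin_two_of]
    exact hdet
  · ext i j
    fin_cases i <;> fin_cases j <;> simp [Matrix.mul_apply, Fin.sum_univ_two] <;> ring

end Cfsg.Agent.Helper31
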