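import Cfsg.Agent.Helper96.Sp4Q3

/-!
# PIECE CNT of CALL S5787 (helper96): `|R0| = 32`
-/

set_option autoImplicit false

open Cfsg Cfsg.Geo Matrix Cfsg.Agent.Helper96.Q3

namespace Cfsg.Agent.Helper31

/-- The 32 matrices `± kr q d`. -/
def r0f {F : Type*} [Field F] (x : Fin 2 × Fin 4 × Fin 4) :
    Matrix (Fin 2 ⊕ Fin 2) (Fin 2 ⊕ Fin 2) F :=
  (![1, -1] x.1 : F) •
    kr (![1, mJ, mT, !![-1, 1; 1, 1]] x.2.1) (![1, mJ, mPhi, !![0, 1; 1, 0]] x.2.2)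

theorem r0f_inj3 : Function.Injective (r0f (F := ZMod 3)) := by decide

theorem kr_map_hom {K F : Type*} [Field K] [Field F] (e : K →+* F)
    (a b : Matrix (Fin 2) (Fin 2) K) : (kr a b).map e = kr (a.map e) (b.map e) := by
  unfold kr
  rw [Matrix.fromBlocks_map]
  congr 1 <;> ext i j <;> simp

theorem r0f_map {K F : Type*} [Field K] [Field F] (e : K →+* F) (x : Fin 2 × Fin 4 × Fin 4) :
    (r0f (F := K) x).map e = r0f (F := F) x := by
  obtain ⟨ε, s, t⟩ := x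
  unfold r0f
  have h1 : ((![1, -1] ε : K) •
      kr (![1, mJ, mT, !![-1, 1; 1, 1]] s) (![1, mJ, mPhi, !![0, 1; 1, 0]] t)).map e =
      e (![1, -1] ε : K) •
      (kr (![1, mJ, mT, !![-1, 1; 1, 1]] s) (![1, mJ, mPhi, !![0, 1; 1, 0]] t)).map e := by
    ext i j
    simp
  have h2 : e (![1, -1] ε : K) = (![1, -1] ε : F) := by
    fin_cases ε <;> simp
  have h3 : (![1, mJ, mT, !![-1, 1; 1, 1]] s : Matrix (Fin 2) (Fin 2) K).map e =
      (![1, mJ, mT, !![-1, 1; 1, 1]] s : Matrix (Fin 2) (Fin 2) F) := by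
    fin_cases s <;> ext i j <;> fin_cases i <;> fin_cases j <;> simp [mJ, mT]
  have h4 : (![1, mJ, mPhi, !![0, 1; 1, 0]] t : Matrix (Fin 2) (Fin 2) K).map e =
      (![1, mJ, mPhi, !![0, 1; 1, 0]] t : Matrix (Fin 2) (Fin 2) F) := by
    fin_cases t <;> ext i j <;> fin_cases i <;> fin_cases j <;> simp [mJ, mPhi]
  show ((![1, -1] ε : K) •
      kr (![1, mJ, mT, !![-1, 1; 1, 1]] s) (![1, mJ, mPhi, !![0, 1; 1, 0]] t)).map e = _
  rw [h1, h2, kr_map_hom, h3, h4]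

variable {F : Type*} [Field F]

theorem r0_mJ_mul_mT : (mJ * mT : Matrix (Fin 2) (Fin 2) F) = !![-1, 1; 1, 1] := by
  ext i j
  fin_cases i <;> fin_cases j <;> simp [mJ, mT, Matrix.mul_apply, Fin.sum_univ_two]

theorem r0_mJ_mul_mPhi : (mJ * mPhi : Matrix (Fin 2) (Fin 2) F) = !![0, 1; 1, 0] := by
  ext i j
  fin_cases i <;> fin_cases j <;> simp [mJ, mPhi, Matrix.mul_apply, Fin.sum_univ_two]

/-- the listed quaternion matrices lie in `Q8set` (characteristic 3) -/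
theorem r0_q_mem (h3 : (3 : F) = 0) (ε : Fin 2) (s : Fin 4) :
    (![1, -1] ε : F) • (![1, mJ, mT, !![-1, 1; 1, 1]] s : Matrix (Fin 2) (Fin 2) F) ∈
      Q8set (F := F) := by
  have h2 : (-1 : F) - 1 = 1 := by linear_combination -h3
  unfold Q8set
  fin_cases ε <;> fin_cases s <;>
    simp [Matrix.det_fin_two, Matrix.trace_fin_two, mJ, mT, h2]

/-- the listed orthogonal matrices lie in `D8set` -/
theorem r0_d_mem (t : Fin 4) :
    (![1, mJ, mPhi, !![0, 1; 1, 0]] t : Matrix (Fin 2) (Fin 2) F) ∈ D8set (F := F) := by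
  unfold D8set
  fin_cases t <;> ext i j <;> fin_cases i <;> fin_cases j <;>
    simp [mJ, mPhi, Matrix.mul_apply, Fin.sum_univ_two, Matrix.one_apply]

/-- Kronecker products of elements of `Q8set` and `D8set` are matrices of invertible elements. -/
theorem r0_exists_gl {a b : Matrix (Fin 2) (Fin 2) F} (ha : a ∈ Q8set (F := F))
    (hb : b ∈ D8set (F := F)) :
    ∃ g : GL (Fin 2 ⊕ Fin 2) F, (g : Matrix (Fin 2 ⊕ Fin 2) (Fin 2 ⊕ Fin 2) F) = kr a b := by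
  have hdet : IsUnit a.det := by rw [ha.1]; exact isUnit_one
  have h1 : a * a⁻¹ = 1 := Matrix.mul_nonsing_inv a hdet
  have h2 : a⁻¹ * a = 1 := Matrix.nonsing_inv_mul a hdet
  have h3 : bᵀ * b = 1 := hb
  have h4 : b * bᵀ = 1 := mul_eq_one_comm.mp h3
  exact ⟨⟨kr a b, kr a⁻¹ bᵀ, by rw [kr_mul, h1, h4, kr_one], by rw [kr_mul, h2, h3, kr_one]⟩, rfl⟩

/-- PIECE CNT -/
theorem r0_card [Fintype F] (hF : Fintype.card F = 3)
    (hmem : ∀ g : GL (Fin 2 ⊕ Fin 2) F, g ∈ R0 (F := F) ↔ ∃ a ∈ Q8set (F := F),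
      ∃ b ∈ D8set (F := F), (g : Matrix (Fin 2 ⊕ Fin 2) (Fin 2 ⊕ Fin 2) F) = kr a b)
    (hQ : ∀ a ∈ Q8set (F := F), a = 1 ∨ a = -1 ∨ a = mJ ∨ a = -mJ ∨ a = mT ∨ a = -mT ∨
      a = mJ * mT ∨ a = -(mJ * mT))
    (hD : ∀ b ∈ D8set (F := F), b = 1 ∨ b = -1 ∨ b = mJ ∨ b = -mJ ∨ b = mPhi ∨ b = -mPhi ∨
      b = mJ * mPhi ∨ b = -(mJ * mPhi)) :
    Nat.card (R0 (F := F)) = 32 := by
  have h3 : (3 : F) = 0 := by
    have h := Nat.cast_card_eq_zero F
    rw [hF] at h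
    exact_mod_cast h
  have e : ZMod 3 ≃+* F := ZMod.ringEquivOfPrime F Nat.prime_three hF
  have hinj : Function.Injective (r0f (F := F)) := by
    intro x y hxy
    rw [← r0f_map e.toRingHom x, ← r0f_map e.toRingHom y] at hxy
    exact r0f_inj3 (Matrix.map_injective e.injective hxy)
  have hV : Function.Injective (fun g : R0 (F := F) =>
      ((g : GL (Fin 2 ⊕ Fin 2) F) : Matrix (Fin 2 ⊕ Fin 2) (Fin 2 ⊕ Fin 2) F)) := by
    intro g g' h
    exact Subtype.ext (Units.ext h)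
  have hrange : Set.range (fun g : R0 (F := F) =>
      ((g : GL (Fin 2 ⊕ Fin 2) F) : Matrix (Fin 2 ⊕ Fin 2) (Fin 2 ⊕ Fin 2) F)) =
      Set.range (r0f (F := F)) := by
    ext M
    constructor
    · rintro ⟨⟨g, hg⟩, rfl⟩
      obtain ⟨a, ha, b, hb, hgab⟩ := (hmem g).mp hg
      obtain ⟨ε, s, rfl⟩ : ∃ (ε : Fin 2) (s : Fin 4),
          a = (![1, -1] ε : F) • (![1, mJ, mT, !![-1, 1; 1, 1]] s : Matrix (Fin 2) (Fin 2) F) := by
        rcases hQ a ha with h | h | h | h | h | h | h | h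
        · exact ⟨0, 0, by rw [h]; simp⟩
        · exact ⟨1, 0, by rw [h]; simp⟩
        · exact ⟨0, 1, by rw [h]; simp⟩
        · exact ⟨1, 1, by rw [h]; simp⟩
        · exact ⟨0, 2, by rw [h]; simp⟩
        · exact ⟨1, 2, by rw [h]; simp⟩
        · exact ⟨0, 3, by rw [h, r0_mJ_mul_mT]; simp⟩
        · exact ⟨1, 3, by rw [h, r0_mJ_mul_mT]; simp⟩
      obtain ⟨ε', t, rfl⟩ : ∃ (ε' : Fin 2) (t : Fin 4),
          b = (![1, -1] ε' : F) • (![1, mJ, mPhi, !![0, 1; 1, 0]] t : Matrix (Fin 2) (Fin 2) F) := by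
        rcases hD b hb with h | h | h | h | h | h | h | h
        · exact ⟨0, 0, by rw [h]; simp⟩
        · exact ⟨1, 0, by rw [h]; simp⟩
        · exact ⟨0, 1, by rw [h]; simp⟩
        · exact ⟨1, 1, by rw [h]; simp⟩
        · exact ⟨0, 2, by rw [h]; simp⟩
        · exact ⟨1, 2, by rw [h]; simp⟩
        · exact ⟨0, 3, by rw [h, r0_mJ_mul_mPhi]; simp⟩
        · exact ⟨1, 3, by rw [h, r0_mJ_mul_mPhi]; simp⟩
      refine ⟨(ε + ε', s, t), ?_⟩
      show r0f (ε + ε', s, t) = (g : Matrix (Fin 2 ⊕ Fin 2) (Fin 2 ⊕ Fin 2) F)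
      rw [hgab, kr_smul_left, kr_smul_right, smul_smul]
      unfold r0f
      congr 1
      fin_cases ε <;> fin_cases ε' <;> simp
    · rintro ⟨⟨ε, s, t⟩, rfl⟩
      have ha := r0_q_mem h3 ε s
      have hb := r0_d_mem (F := F) t
      obtain ⟨g, hg⟩ := r0_exists_gl ha hb
      have hgR : g ∈ R0 (F := F) := (hmem g).mpr ⟨_, ha, _, hb, hg⟩
      refine ⟨⟨g, hgR⟩, ?_⟩
      show (g : Matrix (Fin 2 ⊕ Fin 2) (Fin 2 ⊕ Fin 2) F) = r0f (ε, s, t)
      rw [hg, kr_smul_left]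
      rfl
  rw [← Nat.card_range_of_injective hV, hrange, Nat.card_range_of_injective hinj]
  simp

end Cfsg.Agent.Helper31
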