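import Mathlib
import Cfsg.Prelude.Def_GeometricClasses
import Cfsg.Agent.Helper71.T4Defs
import Cfsg.Agent.Helper96.T5Defs

/-!
# CALL S5704 (helper96), piece KU

A Kronecker product lying in the unipotent radical of the stabiliser of `U ⊗ e` is `1 ⊗ (1 + n)`.
-/

set_option autoImplicit false
set_option linter.unusedVariables false

namespace Cfsg.Agent.Helper31.T5KU

open Matrix Cfsg Cfsg.Geo Cfsg.Agent.Helper71.T4 Cfsg.Agent.Helper96.T5
open scoped Kronecker

variable {F : Type*} [Field F] {a b : ℕ}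

variable {J₁ : Matrix (Fin a) (Fin a) F} {J₂ : Matrix (Fin b) (Fin b) F}
  {Q : (Fin a × Fin b → F) → F}

/-- PIECE KU -/
theorem ku (hT : TQ J₁ J₂ Q) (ha : 1 ≤ a) (g : Matrix (Fin a × Fin b) (Fin a × Fin b) F)
    (e : Fin b → F) (he : e ≠ 0) (hk : IsKron g) (hU : InU J₂ e (g - 1)) :
    ∃ n : Matrix (Fin b) (Fin b) F, g = (1 : Matrix (Fin a) (Fin a) F) ⊗ₖ (1 + n) ∧
      n *ᵥ e = 0 ∧ (∀ y, bf J₂ (n *ᵥ y) e = 0) ∧
      (∀ y, bf J₂ y e = 0 → ∃ c : F, n *ᵥ y = c • e) := by
  classical
  obtain ⟨A, B, rfl⟩ := hk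
  obtain ⟨h1, h2, h3⟩ := hU
  let i0 : Fin a := ⟨0, ha⟩
  -- the action on pure tensors `u ⊗ e`
  have hfix : ∀ u : Fin a → F, pt (A *ᵥ u) (B *ᵥ e) = pt u e := by
    intro u
    have := h1 u
    rw [Matrix.sub_mulVec, Matrix.one_mulVec, kron_mulVec_pt, sub_eq_zero] at this
    exact this
  obtain ⟨k0, hk0⟩ : ∃ k, e k ≠ 0 := by
    by_contra hne
    apply he
    funext k
    by_contra hk
    exact hne ⟨k, hk⟩
  -- `B e ≠ 0` at some coordinate
  have hBe : (B *ᵥ e) k0 ≠ 0 := by
    intro h0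
    have := congrFun (hfix (Pi.single i0 1)) (i0, k0)
    simp only [pt] at this
    rw [h0, mul_zero] at this
    simp at this
    exact hk0 this.symm
  set lam : F := e k0 / (B *ᵥ e) k0 with hlam
  have hA : A = lam • (1 : Matrix (Fin a) (Fin a) F) := by
    have hAu : ∀ u : Fin a → F, A *ᵥ u = lam • u := by
      intro u
      funext i
      have := congrFun (hfix u) (i, k0)
      simp only [pt] at this
      simp only [Pi.smul_apply, smul_eq_mul, hlam]
      field_simp
      linear_combination this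
    ext i j
    have := congrFun (hAu (Pi.single j 1)) i
    simp only [Matrix.mulVec_single, Pi.smul_apply, smul_eq_mul, MulOpposite.op_one,
      one_smul] at this
    rw [Matrix.smul_apply, Matrix.one_apply, smul_eq_mul]
    rw [show A i j = A.col j i from rfl, this]
    simp [Pi.single_apply]
  -- the action of `g - 1` on pure tensors
  have hact : ∀ (u : Fin a → F) (y : Fin b → F),
      (A ⊗ₖ B - 1) *ᵥ pt u y = pt u ((lam • B - 1) *ᵥ y) := by
    intro u y
    rw [Matrix.sub_mulVec, Matrix.one_mulVec, kron_mulVec_pt, hA, Matrix.sub_mulVec,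
      Matrix.one_mulVec, Matrix.smul_mulVec, Matrix.smul_mulVec, Matrix.one_mulVec,
      pt_smul_left, ← pt_smul_right]
    funext p
    simp only [pt, Pi.sub_apply, Pi.smul_apply, smul_eq_mul]
    ring
  have hpt0 : ∀ z : Fin b → F, pt (Pi.single i0 (1 : F)) z = 0 → z = 0 := by
    intro z hz
    funext k
    have := congrFun hz (i0, k)
    simpa [pt] using this
  refine ⟨lam • B - 1, ?_, ?_, ?_, ?_⟩
  · rw [hA, add_sub_cancel, Matrix.smul_kronecker, Matrix.kronecker_smul]
  · -- `n e = 0`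
    apply hpt0
    rw [← hact]
    exact h1 _
  · intro y
    have := h2 (pt (Pi.single i0 1) y)
    rw [hact, cnt_pt] at this
    have h' := congrFun this i0
    simpa using h'
  · intro y hy
    have hc : cnt J₂ e (pt (Pi.single i0 (1 : F)) y) = 0 := by
      rw [cnt_pt, hy, zero_smul]
    obtain ⟨u', hu'⟩ := h3 _ hc
    rw [hact] at hu'
    refine ⟨u' i0, ?_⟩
    funext k
    have := congrFun hu' (i0, k)
    simpa [pt] using this

end Cfsg.Agent.Helper31.T5KU
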