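import Mathlib
import Cfsg.Prelude.Def_GeometricClasses
import Cfsg.Agent.Helper71.T4Defs
import Cfsg.Agent.Helper97.OForm
import Cfsg.Agent.Helper96.T5Defs
import Cfsg.Agent.Helper33.T5CNT
import Cfsg.Agent.Helper84.T5SURJ

/-!
# CALL S5704 (helper96), piece RN

Conjugating the unipotent radical of the stabiliser of `U ⊗ d` by an isometry mapping `U ⊗ d`
into `U ⊗ e` gives the unipotent radical of the stabiliser of `U ⊗ e`.
-/

set_option autoImplicit false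
set_option linter.unusedVariables false

namespace Cfsg.Agent.Helper31.T5RN

open Matrix Cfsg Cfsg.Geo Cfsg.Agent.Helper71.T4 Cfsg.Agent.Helper96.T5
open scoped Kronecker

variable {F : Type*} [Field F] {a b : ℕ}

variable {J₁ : Matrix (Fin a) (Fin a) F} {J₂ : Matrix (Fin b) (Fin b) F}
  {Q : (Fin a × Fin b → F) → F}

/-- PIECE RN -/
theorem rn (hT : TQ J₁ J₂ Q) (y : GL (Fin a × Fin b) F) (hy : y ∈ isometryGroup F Q)
    (d e : Fin b → F) (hd : d ≠ 0) (he : e ≠ 0)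
    (hde : ∀ u : Fin a → F, ∃ u' : Fin a → F, y.1 *ᵥ pt u d = pt u' e)
    (Z : Matrix (Fin a × Fin b) (Fin a × Fin b) F) (hZ : InU J₂ d Z) :
    InU J₂ e (y.1 * Z * (y⁻¹).1) := by
  classical
  obtain ⟨h1, h2, h3⟩ := hZ
  have hsurj := Cfsg.Agent.Helper84.T5SURJ.surj y d e hd he hde
  have hyinv : ∀ v, (y⁻¹).1 *ᵥ (y.1 *ᵥ v) = v := by
    intro v
    rw [Matrix.mulVec_mulVec]
    have h : (y⁻¹).1 * y.1 = 1 := by
      rw [← Units.val_mul, inv_mul_cancel]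
      rfl
    rw [h, Matrix.one_mulVec]
  have hyinv' : ∀ v, y.1 *ᵥ ((y⁻¹).1 *ᵥ v) = v := by
    intro v
    rw [Matrix.mulVec_mulVec]
    have h : y.1 * (y⁻¹).1 = 1 := by
      rw [← Units.val_mul, mul_inv_cancel]
      rfl
    rw [h, Matrix.one_mulVec]
  have hpol : ∀ v v', bf (J₁ ⊗ₖ J₂) (y.1 *ᵥ v) (y.1 *ᵥ v') = bf (J₁ ⊗ₖ J₂) v v' := by
    intro v v'
    rw [← hT.polar, ← hT.polar]
    exact Cfsg.Agent.Helper97.Gen.polar_isometry hy v v'
  refine ⟨?_, ?_, ?_⟩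
  · intro u'
    obtain ⟨u, hu⟩ := hsurj u'
    rw [← hu, ← Matrix.mulVec_mulVec, ← Matrix.mulVec_mulVec, hyinv, h1, Matrix.mulVec_zero]
  · intro v
    rw [Cfsg.Agent.Helper33.T5CNT.cnt_eq_zero_iff hT]
    intro u'
    obtain ⟨u, hu⟩ := hsurj u'
    rw [← hu, ← Matrix.mulVec_mulVec, ← Matrix.mulVec_mulVec, hpol]
    exact (Cfsg.Agent.Helper33.T5CNT.cnt_eq_zero_iff hT d _).mp (h2 _) u
  · intro v hv
    have hv' : cnt J₂ d ((y⁻¹).1 *ᵥ v) = 0 := by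
      rw [Cfsg.Agent.Helper33.T5CNT.cnt_eq_zero_iff hT]
      intro u
      obtain ⟨u', hu'⟩ := hde u
      have h := (Cfsg.Agent.Helper33.T5CNT.cnt_eq_zero_iff hT e v).mp hv u'
      rw [← hu'] at h
      rw [← hpol, hyinv']
      exact h
    obtain ⟨u₀, hu₀⟩ := h3 _ hv'
    obtain ⟨u', hu'⟩ := hde u₀
    exact ⟨u', by rw [← Matrix.mulVec_mulVec, ← Matrix.mulVec_mulVec, hu₀, hu']⟩

end Cfsg.Agent.Helper31.T5RN
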