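import Mathlib
import Cfsg.Prelude.Def_GeometricClasses
import Cfsg.Prelude.Def_ClassicalGeometry
import Cfsg.Agent.Helper13.Symp

/-!
# CALL S5980 (helper98), piece CARD

The order of `Cfsg.spGL d F` divides the order of Mathlib's symplectic group.
-/

set_option autoImplicit false

namespace Cfsg.Agent.Helper31.TFCARD

open Matrix Polynomial
open scoped Kronecker

theorem card_spGL_dvd {F : Type*} [Field F] [Fintype F] (d : ℕ) :
    Nat.card (Cfsg.spGL d F) ∣ Nat.card (Matrix.symplecticGroup (Fin d) F) := by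
  classical
  let f : ↥(Cfsg.spGL d F) →* ↥(Matrix.symplecticGroup (Fin d) F) :=
    { toFun := fun g => ⟨((g : Matrix.GeneralLinearGroup (Fin d ⊕ Fin d) F) :
          Matrix (Fin d ⊕ Fin d) (Fin d ⊕ Fin d) F),
        (Cfsg.Agent.Helper13.mem_symplecticGroup_iff_sympForm _).mpr g.2⟩
      map_one' := Subtype.ext rfl
      map_mul' := fun a b => Subtype.ext rfl }
  apply Subgroup.card_dvd_of_injective f
  intro a b hab
  have h1 : ((a : Matrix.GeneralLinearGroup (Fin d ⊕ Fin d) F) :
      Matrix (Fin d ⊕ Fin d) (Fin d ⊕ Fin d) F) = (b : Matrix.GeneralLinearGroup (Fin d ⊕ Fin d) F) :=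
    congrArg Subtype.val hab
  exact Subtype.ext (Units.ext h1)

end Cfsg.Agent.Helper31.TFCARD
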