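import Mathlib
import Cfsg.Agent.Helper42.SpForm
import Cfsg.Agent.Helper42.SpGroup

/-!
# CALL S5980 (helper98), piece TRANS

Transport of an isometry of a symplectic space of dimension `2 d` to a symplectic matrix with the
same characteristic polynomial.
-/

set_option autoImplicit false

namespace Cfsg.Agent.Helper31.TFTRANS

open Matrix Polynomial
open scoped Kronecker

theorem exists_symp_of_model {F : Type*} [Field F] (d : ℕ) (V : Type*) [AddCommGroup V]
    [Module F V] [FiniteDimensional F V] (B : LinearMap.BilinForm F V) (halt : ∀ v, B v v = 0)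
    (hnd : ∀ v, (∀ w, B v w = 0) → v = 0) (hdim : Module.finrank F V = 2 * d)
    (T : Module.End F V) (hT : ∀ u v, B (T u) (T v) = B u v) :
    ∃ x : Matrix (Fin d ⊕ Fin d) (Fin d ⊕ Fin d) F, x ∈ Matrix.symplecticGroup (Fin d) F ∧
      x.charpoly = T.charpoly ∧ ∀ k : ℕ, T ^ k = 1 → x ^ k = 1 := by
  classical
  obtain ⟨Φ, hΦ⟩ := Cfsg.Agent.Helper42.SpForm.exists_equiv_std d V B halt hnd hdim
  let G : Module.End F (Fin d ⊕ Fin d → F) := Φ.conj T
  have hGapp : ∀ x, G x = Φ (T (Φ.symm x)) := fun x => rfl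
  have hG : Cfsg.Agent.Helper42.SpGroup.Preserves (Cfsg.Agent.Helper42.SpForm.stdForm d) G := by
    intro x y
    rw [hGapp, hGapp, hΦ, hT, ← hΦ, Φ.apply_symm_apply, Φ.apply_symm_apply]
  have hpow : ∀ (k : ℕ) (x : Fin d ⊕ Fin d → F), (G ^ k) x = Φ ((T ^ k) (Φ.symm x)) := by
    intro k
    induction k with
    | zero => intro x; simp
    | succ k ih =>
      intro x
      rw [pow_succ, Module.End.mul_apply, ih, hGapp, Φ.symm_apply_apply, pow_succ,
        Module.End.mul_apply]
  have hmat : ∀ k : ℕ, LinearMap.toMatrix' (G ^ k) = (LinearMap.toMatrix' G) ^ k := by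
    intro k
    induction k with
    | zero => rw [pow_zero, pow_zero]; exact LinearMap.toMatrix'_one
    | succ k ih => rw [pow_succ, pow_succ, LinearMap.toMatrix'_mul, ih]
  refine ⟨LinearMap.toMatrix' G, (Cfsg.Agent.Helper42.SpGroup.ofEnd G hG).2, ?_, ?_⟩
  · rw [← LinearMap.toMatrix_eq_toMatrix', LinearMap.charpoly_toMatrix]
    exact LinearEquiv.charpoly_conj Φ T
  · intro k hk
    have h1 : G ^ k = 1 := by
      apply LinearMap.ext
      intro x
      rw [hpow, hk]
      simp
    rw [← hmat, h1]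
    exact LinearMap.toMatrix'_one

end Cfsg.Agent.Helper31.TFTRANS
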