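import Mathlib
import Cfsg.Agent.Helper17.ChevUniMem

set_option autoImplicit false

namespace Cfsg.Agent.Helper31.UCCV2

open Cfsg.Lie

section Chev

variable {F : Type*} [Field F] [Fintype F] {D : ChevalleyDatum}

/-- An ordered list of `m` positive roots generates a subgroup of order at least `q ^ m`
(local copy of the statement of piece CV1, used for CV2). -/
theorem card_rootsSubgroup_ge_aux
    (hD : D ∈ [chevG2, chevB2, chevD4, chevF4, chevE6, chevE7, chevE8])
    (L : List ℕ) (hs : L.Pairwise (· < ·)) (hp : ∀ r ∈ L, D.IsPosRoot r) :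
    Fintype.card F ^ L.length ≤ Nat.card ↥(Cfsg.Agent.Helper17.rootsSubgroup D F L) := by
  classical
  obtain ⟨f, hW⟩ := Cfsg.Agent.Helper17.wtFacts_of_mem hD
  have hE := Cfsg.Agent.Helper17.rootElts_of_mem (F := F) hD
  have hnd : L.Nodup := hs.imp (fun h => ne_of_lt h)
  obtain ⟨ext, hext⟩ : ∃ ext : ({r // r ∈ L.toFinset} → F) → ℕ → F,
      ∀ t r (h : r ∈ L.toFinset), ext t r = t ⟨r, h⟩ :=
    ⟨fun t r => if h : r ∈ L.toFinset then t ⟨r, h⟩ else 0, fun t r h => dif_pos h⟩
  have hex : ∀ t : ({r // r ∈ L.toFinset} → F), ∃ g : GL D.Idx F,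
      g ∈ Cfsg.Agent.Helper17.rootsSubgroup D F L ∧
        (g : Matrix D.Idx D.Idx F) = D.wordMat F (L.map fun r => (r, ext t r)) := fun t =>
    Cfsg.Agent.Helper17.exists_wordGL hE L _ (by
      intro p hp'
      rw [List.mem_map] at hp'
      obtain ⟨r, hr, rfl⟩ := hp'
      exact hr)
  choose φ hφ1 hφ2 using hex
  have hinj : Function.Injective
      (fun t => (⟨φ t, hφ1 t⟩ : ↥(Cfsg.Agent.Helper17.rootsSubgroup D F L))) := by
    intro t s hts
    have h1 : φ t = φ s := congrArg Subtype.val hts
    have h2 : D.wordMat F (L.map fun r => (r, ext t r)) =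
        D.wordMat F (L.map fun r => (r, ext s r)) := by
      rw [← hφ2 t, ← hφ2 s, h1]
    have h3 := Cfsg.Agent.Helper17.coeff_unique hW hE L hs
      (fun r hr => ⟨(hp r hr).1, (hW.pos r (hp r hr).1).mp (hp r hr)⟩) (ext t) (ext s) h2
    funext ⟨r, hr⟩
    have h4 := h3 r (List.mem_toFinset.mp hr)
    rw [hext t r hr, hext s r hr] at h4
    exact h4
  have h5 := Nat.card_le_card_of_injective _ hinj
  rw [Nat.card_fun, Nat.card_eq_fintype_card (α := F), Nat.card_eq_finsetCard,
    List.toFinset_card_of_nodup hnd] at h5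
  exact h5

/-- CV2: lower bound for `|U_J|`. -/
theorem card_unipotentRadical_ge (hD : D ∈ [chevG2, chevB2, chevD4, chevF4, chevE6, chevE7, chevE8])
    (J : Set ℕ) :
    Fintype.card F ^ (D.nroots / 2) ≤ Nat.card ↥(D.unipotentRadical F J) *
      Fintype.card F ^ (Nat.card {r : ℕ // D.IsPosRoot r ∧ D.InRootSub J r}) := by
  classical
  have hsorted : D.posRoots.Pairwise (· < ·) := Cfsg.Agent.Helper17.posRoots_sorted
  have hlen := Cfsg.Agent.Helper17.posRoots_length_of_mem hD
  have hsplit := List.length_eq_length_filter_add (l := D.posRoots)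
    (fun r => decide (D.InRootSub J r))
  -- the roots outside `Φ_J`
  have h1 := card_rootsSubgroup_ge_aux (F := F) hD
    (D.posRoots.filter (fun r => !decide (D.InRootSub J r))) (hsorted.filter _)
    (fun r hr => Cfsg.Agent.Helper17.mem_posRoots.mp (List.mem_filter.mp hr).1)
  have hle : Cfsg.Agent.Helper17.rootsSubgroup D F
      (D.posRoots.filter (fun r => !decide (D.InRootSub J r))) ≤ D.unipotentRadical F J := by
    unfold Cfsg.Agent.Helper17.rootsSubgroup ChevalleyDatum.unipotentRadical
    apply Subgroup.closure_mono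
    rintro g ⟨r, hr, t, hg⟩
    rw [List.mem_filter] at hr
    refine ⟨r, t, Cfsg.Agent.Helper17.mem_posRoots.mp hr.1, ?_, hg⟩
    simpa using hr.2
  have h2 : Nat.card ↥(Cfsg.Agent.Helper17.rootsSubgroup D F
      (D.posRoots.filter (fun r => !decide (D.InRootSub J r)))) ≤
      Nat.card ↥(D.unipotentRadical F J) := Subgroup.card_le_of_le hle
  -- the roots inside `Φ_J`
  have hc : Nat.card {r : ℕ // D.IsPosRoot r ∧ D.InRootSub J r} =
      (D.posRoots.filter (fun r => decide (D.InRootSub J r))).length := by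
    have hnd : (D.posRoots.filter (fun r => decide (D.InRootSub J r))).Nodup :=
      (hsorted.filter _).imp (fun h => ne_of_lt h)
    rw [← List.toFinset_card_of_nodup hnd, ← Nat.card_eq_finsetCard]
    apply Nat.card_congr
    refine Equiv.subtypeEquivRight (fun r => ?_)
    rw [List.mem_toFinset, List.mem_filter, Cfsg.Agent.Helper17.mem_posRoots,
      decide_eq_true_eq]
  rw [hc, ← hlen, hsplit, add_comm, pow_add]
  exact Nat.mul_le_mul_right _ (h1.trans h2)

end Chev

end Cfsg.Agent.Helper31.UCCV2
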